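import Cfsg.Agent.H98.MaximalSL

set_option autoImplicit false

/-!
Rank-one perturbations of the identity and monomial matrices in `GL(ι, F)`, for the maximality of the
stabiliser of a decomposition in the special linear group.
-/

namespace Cfsg.Agent.H1.Decomp

open Matrix

variable {ι : Type} [Fintype ι] [DecidableEq ι] {F : Type*} [Field F]

/-- `M` contains the element `1 + v ⊗ φ`. -/
def Has (M : Subgroup (GL ι F)) (v φ : ι → F) : Prop :=
  ∃ g ∈ M, (g : Matrix ι ι F) = 1 + vecMulVec v φ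

theorem one_add_mul_one_add (v φ w ψ : ι → F) :
    (1 + vecMulVec v φ) * (1 + vecMulVec w ψ) =
      1 + vecMulVec v φ + vecMulVec w ψ + (φ ⬝ᵥ w) • vecMulVec v ψ := by
  rw [Matrix.add_mul, Matrix.one_mul, Matrix.mul_add, Matrix.mul_one, vecMulVec_mul_vecMulVec,
    vecMulVec_smul]
  abel

variable {M : Subgroup (GL ι F)}

theorem Has.ne_neg_one {v φ : ι → F} (h : Has M v φ) : 1 + φ ⬝ᵥ v ≠ 0 := by
  obtain ⟨g, -, e⟩ := h
  have hu : IsUnit (g : Matrix ι ι F).det := (Matrix.isUnit_iff_isUnit_det _).mp g.isUnit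
  rw [e, vecMulVec_eq Unit, det_one_add_replicateCol_mul_replicateRow] at hu
  exact hu.ne_zero

theorem Has.congr {v v' φ φ' : ι → F} (h : Has M v φ) (hv : v = v') (hφ : φ = φ') : Has M v' φ' :=
  hv ▸ hφ ▸ h

theorem Has.conj {g : GL ι F} (hg : g ∈ M) {v φ : ι → F} (h : Has M v φ) :
    Has M ((g : Matrix ι ι F) *ᵥ v) (φ ᵥ* ((g⁻¹ : GL ι F) : Matrix ι ι F)) := by
  obtain ⟨x, hx, e⟩ := h
  refine ⟨g * x * g⁻¹, M.mul_mem (M.mul_mem hg hx) (M.inv_mem hg), ?_⟩
  rw [Units.val_mul, Units.val_mul, e, Matrix.mul_add, Matrix.mul_one, Matrix.add_mul, mul_vecMulVec,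
    vecMulVec_mul, ← Units.val_mul, mul_inv_cancel, Units.val_one]

theorem Has.shift {v φ : ι → F} (c : F) : Has M (c • v) φ ↔ Has M v (c • φ) := by
  rw [Has, Has, vecMulVec_smul, smul_vecMulVec]

theorem Has.inv {v φ : ι → F} (h : Has M v φ) : Has M v ((-(1 + φ ⬝ᵥ v)⁻¹) • φ) := by
  have hne := h.ne_neg_one
  obtain ⟨x, hx, e⟩ := h
  refine ⟨x⁻¹, M.inv_mem hx, ?_⟩
  refine Units.inv_eq_of_mul_eq_one_right (u := x) ?_
  rw [e, one_add_mul_one_add, vecMulVec_smul, smul_smul]
  ext i j
  simp only [Matrix.add_apply, Matrix.smul_apply, vecMulVec_apply, smul_eq_mul]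
  field_simp
  ring

theorem Has.mul_same_left {v φ ψ : ι → F} (h : Has M v φ) (h' : Has M v ψ) :
    Has M v (φ + ψ + (φ ⬝ᵥ v) • ψ) := by
  obtain ⟨x, hx, ex⟩ := h
  obtain ⟨y, hy, ey⟩ := h'
  refine ⟨x * y, M.mul_mem hx hy, ?_⟩
  rw [Units.val_mul, ex, ey, one_add_mul_one_add, vecMulVec_add, vecMulVec_add, vecMulVec_smul]
  abel

theorem Has.mul_same_right {v w φ : ι → F} (h : Has M v φ) (h' : Has M w φ) :
    Has M (v + w + (φ ⬝ᵥ w) • v) φ := by
  obtain ⟨x, hx, ex⟩ := h
  obtain ⟨y, hy, ey⟩ := h'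
  refine ⟨x * y, M.mul_mem hx hy, ?_⟩
  rw [Units.val_mul, ex, ey, one_add_mul_one_add, add_vecMulVec, add_vecMulVec, smul_vecMulVec]
  abel

theorem Has.add_right {v φ ψ : ι → F} (h : Has M v φ) (h' : Has M v ψ) (h0 : φ ⬝ᵥ v = 0) :
    Has M v (φ + ψ) := by
  simpa [h0] using h.mul_same_left h'

theorem Has.add_left {v w φ : ι → F} (h : Has M v φ) (h' : Has M w φ) (h0 : φ ⬝ᵥ w = 0) :
    Has M (v + w) φ := by
  simpa [h0] using h.mul_same_right h'

theorem Has.neg_right {v φ : ι → F} (h : Has M v φ) (h0 : φ ⬝ᵥ v = 0) : Has M v (-φ) := by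
  simpa [h0] using h.inv

theorem Has.neg_left {v φ : ι → F} (h : Has M v φ) (h0 : φ ⬝ᵥ v = 0) : Has M (-v) φ := by
  have := h.neg_right h0
  rw [show -φ = (-1 : F) • φ by simp] at this
  simpa using (Has.shift (-1 : F)).2 this

/-- Two elements with the same functional and the same pairing give a transvection. -/
theorem Has.transvection_of_same_right {b b' β : ι → F} (h : Has M b β) (h' : Has M b' β) : Has M ((1 + β ⬝ᵥ b)⁻¹ • (b' - b)) β := by
  have hne := h.ne_neg_one
  have hi := (Has.shift _).2 h.inv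
  refine (h'.mul_same_right hi).congr ?_ rfl
  ext i
  simp only [dotProduct_smul, Pi.add_apply, Pi.smul_apply, Pi.sub_apply, smul_eq_mul]
  field_simp
  ring

/-- Two elements with the same vector and the same pairing give a transvection. -/
theorem Has.transvection_of_same_left {b β β' : ι → F} (h : Has M b β) (h' : Has M b β')
    (he : β' ⬝ᵥ b = β ⬝ᵥ b) : Has M b (β' - β) := by
  have hne := h.ne_neg_one
  refine (h'.mul_same_left h.inv).congr rfl ?_
  ext i
  simp only [he, Pi.add_apply, Pi.smul_apply, Pi.sub_apply, smul_eq_mul]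
  field_simp
  ring

/-! ### Monomial matrices -/

/-- The monomial matrix sending `e i` to `d i • e (π i)`. -/
def monMat (π : Equiv.Perm ι) (d : ι → F) : Matrix ι ι F :=
  Matrix.of fun k i => if k = π i then d i else 0

theorem monMat_mulVec (π : Equiv.Perm ι) (d v : ι → F) (k : ι) :
    (monMat π d *ᵥ v) k = d (π.symm k) * v (π.symm k) := by
  simp only [monMat, mulVec, dotProduct, Matrix.of_apply]
  rw [Finset.sum_eq_single (π.symm k)]
  · simp
  · intro i _ hi
    rw [if_neg (fun h => hi (by simp [h])), zero_mul]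
  · simp

theorem vecMul_monMat (π : Equiv.Perm ι) (d φ : ι → F) (i : ι) :
    (φ ᵥ* monMat π d) i = φ (π i) * d i := by
  simp [monMat, vecMul, dotProduct]

theorem monMat_mul (π σ : Equiv.Perm ι) (d e : ι → F) :
    monMat π d * monMat σ e = monMat (π * σ) (fun i => d (σ i) * e i) := by
  ext k i
  simp only [monMat, Matrix.mul_apply, Matrix.of_apply]
  rw [Finset.sum_eq_single (σ i)]
  · by_cases h : k = π (σ i) <;> simp [h]
  · intro j _ hj; simp [hj]
  · simp

theorem monMat_one : monMat (1 : Equiv.Perm ι) (fun _ => (1 : F)) = 1 := by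
  ext k i; simp [monMat, Matrix.one_apply]; congr

theorem monMat_det (π : Equiv.Perm ι) (d : ι → F) :
    (monMat π d).det = ((Equiv.Perm.sign π : ℤ) : F) * ∏ i, d i := by
  have : monMat π d = (π.symm.toPEquiv.toMatrix : Matrix ι ι F) * Matrix.diagonal d := by
    ext k i
    rw [Matrix.mul_diagonal, PEquiv.toMatrix_apply]
    simp only [monMat, Matrix.of_apply, Equiv.toPEquiv_apply, Option.mem_def, Option.some.injEq]
    by_cases h : k = π i
    · simp [h]
    · rw [if_neg h, if_neg (fun h' => h (by rw [← h', Equiv.apply_symm_apply])), zero_mul]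
  rw [this, det_mul, Matrix.det_permutation, det_diagonal, Equiv.Perm.sign_symm]

/-- A monomial element of `GL`. -/
def monGL (π : Equiv.Perm ι) (d : ι → Fˣ) : GL ι F where
  val := monMat π fun i => (d i : F)
  inv := monMat π.symm fun k => (((d (π.symm k))⁻¹ : Fˣ) : F)
  val_inv := by
    rw [monMat_mul, show π * π.symm = 1 from Equiv.ext fun x => π.apply_symm_apply x]
    simpa using monMat_one (ι := ι) (F := F)
  inv_val := by
    rw [monMat_mul, show π.symm * π = 1 from Equiv.ext fun x => π.symm_apply_apply x]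
    simpa using monMat_one (ι := ι) (F := F)

@[simp] theorem monGL_coe (π : Equiv.Perm ι) (d : ι → Fˣ) :
    (monGL π d : Matrix ι ι F) = monMat π fun i => (d i : F) := rfl

@[simp] theorem monGL_inv_coe (π : Equiv.Perm ι) (d : ι → Fˣ) :
    ((monGL π d)⁻¹ : GL ι F).val = monMat π.symm fun k => (((d (π.symm k))⁻¹ : Fˣ) : F) := rfl

/-- Conjugation of a rank-one perturbation by a monomial element. -/
theorem Has.conj_mon {π : Equiv.Perm ι} {d : ι → Fˣ} (hm : monGL π d ∈ M) {v φ : ι → F} (h : Has M v φ) :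
    Has M (fun k => (d (π.symm k) : F) * v (π.symm k))
      (fun k => φ (π.symm k) * ((d (π.symm k) : F))⁻¹) := by
  refine (h.conj hm).congr (funext fun k => ?_) (funext fun k => ?_)
  · rw [monGL_coe, monMat_mulVec]
  · rw [monGL_inv_coe, vecMul_monMat, Units.val_inv_eq_inv_val]

/-- Conjugation of a rank-one perturbation by a diagonal element. -/
theorem Has.conj_diag {d : ι → Fˣ} (hm : monGL 1 d ∈ M) {v φ : ι → F} (h : Has M v φ) :
    Has M (fun k => (d k : F) * v k) (fun k => φ k * ((d k : F))⁻¹) :=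
  (h.conj_mon hm).congr (funext fun _ => rfl) (funext fun _ => rfl)

theorem monMat_single (π : Equiv.Perm ι) (d : ι → F) (i : ι) (c : F) :
    monMat π d *ᵥ Pi.single i c = Pi.single (π i) (d i * c) := by
  ext k
  rw [monMat_mulVec]
  by_cases h : k = π i
  · subst h; simp
  · rw [Pi.single_eq_of_ne h, Pi.single_eq_of_ne (fun h' => h (by simp [← h'])), mul_zero]

theorem one_monMat_apply (d : ι → F) : monMat (1 : Equiv.Perm ι) d = Matrix.diagonal d := by
  ext k i
  by_cases h : k = i
  · subst h; simp [monMat]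
  · simp [monMat, h]

/-- A matrix each of whose columns has at most one non-zero entry. -/
def IsMono (A : Matrix ι ι F) : Prop := ∀ i k k', A k i ≠ 0 → A k' i ≠ 0 → k = k'

theorem isMono_monMat (π : Equiv.Perm ι) (d : ι → F) : IsMono (monMat π d) := by
  intro i k k' hk hk'
  simp [monMat] at hk hk'
  rw [hk.1, hk'.1]

/-- An invertible monomial matrix is a monomial element. -/
theorem exists_monGL_of_isMono {g : GL ι F} (h : IsMono (g : Matrix ι ι F)) :
    ∃ π d, g = monGL π d := by
  have hex : ∀ i, ∃ k, (g : Matrix ι ι F) k i ≠ 0 := by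
    intro i
    by_contra hc
    push Not at hc
    have h0 : (g : Matrix ι ι F) *ᵥ Pi.single i 1 = (g : Matrix ι ι F) *ᵥ 0 := by
      rw [mulVec_zero, mulVec_single_one]
      exact funext hc
    have := congrFun (Cfsg.Agent.H98.gl_mulVec_injective g h0) i
    simp at this
  choose f hf using hex
  have hcol : ∀ i k, k ≠ f i → (g : Matrix ι ι F) k i = 0 := fun i k hk => by
    by_contra hne; exact hk (h i k (f i) hne (hf i))
  have hinj : Function.Injective f := by
    intro i i' hii
    by_contra hne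
    have h0 : (g : Matrix ι ι F) *ᵥ (Pi.single i ((g : Matrix ι ι F) (f i) i') -
        Pi.single i' ((g : Matrix ι ι F) (f i) i)) = (g : Matrix ι ι F) *ᵥ 0 := by
      rw [mulVec_zero, mulVec_sub]
      ext k
      simp only [Pi.sub_apply, mulVec, dotProduct_single, Pi.zero_apply]
      by_cases hk : k = f i
      · subst hk; ring
      · rw [hcol i k hk, hcol i' k (hii ▸ hk)]; ring
    have := congrFun (Cfsg.Agent.H98.gl_mulVec_injective g h0) i'
    simp [Ne.symm hne] at this
    exact hf i this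
  refine ⟨Equiv.ofBijective f (Finite.injective_iff_bijective.mp hinj),
    fun i => Units.mk0 _ (hf i), Units.ext ?_⟩
  ext k i
  simp only [monGL_coe, monMat, Matrix.of_apply, Units.val_mk0, Equiv.ofBijective_apply]
  by_cases hk : k = f i
  · subst hk; simp
  · rw [if_neg hk, hcol i k hk]

theorem IsMono.mul {a b : GL ι F} (ha : IsMono (a : Matrix ι ι F)) (hb : IsMono (b : Matrix ι ι F)) :
    IsMono ((a * b : GL ι F) : Matrix ι ι F) := by
  obtain ⟨π, d, rfl⟩ := exists_monGL_of_isMono ha
  obtain ⟨σ, e, rfl⟩ := exists_monGL_of_isMono hb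
  rw [Units.val_mul, monGL_coe, monGL_coe, monMat_mul]
  exact isMono_monMat _ _

theorem IsMono.inv {a : GL ι F} (ha : IsMono (a : Matrix ι ι F)) :
    IsMono ((a⁻¹ : GL ι F) : Matrix ι ι F) := by
  obtain ⟨π, d, rfl⟩ := exists_monGL_of_isMono ha
  rw [monGL_inv_coe]
  exact isMono_monMat _ _

theorem IsMono.transpose {a : GL ι F} (ha : IsMono (a : Matrix ι ι F)) :
    IsMono (a : Matrix ι ι F)ᵀ := by
  obtain ⟨π, d, rfl⟩ := exists_monGL_of_isMono ha
  intro i k k' hk hk'
  simp [monMat] at hk hk'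
  exact π.injective (hk.symm.trans hk')

/-- `M` contains a non-trivial element `1 + c E_ij`. -/
def HasRoot (M : Subgroup (GL ι F)) : Prop :=
  ∃ i j, i ≠ j ∧ ∃ c : F, c ≠ 0 ∧ Has M (Pi.single i c) (Pi.single j 1)

/-- A subgroup containing all elements `1 + c E_ij` contains `SL`. -/
theorem sl_le_of_roots (h : ∀ i j, i ≠ j → ∀ c : F, Has M (Pi.single i c) (Pi.single j 1)) :
    Cfsg.Geo.specialLinear ι F ≤ M := by
  intro g hg
  have hdet : (g : Matrix ι ι F).det = 1 := congrArg Units.val (MonoidHom.mem_ker.mp hg)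
  have htop := Cfsg.Agent.H1.SL_eq_top_of_transvection_mem
    (M.comap (Matrix.SpecialLinearGroup.toGL : Matrix.SpecialLinearGroup ι F →* GL ι F))
    (fun i j hij c => by
      rw [Subgroup.mem_comap]
      obtain ⟨x, hx, e⟩ := h i j hij c
      convert hx using 1
      refine Units.ext ?_
      rw [e]
      change (Matrix.SpecialLinearGroup.transvection hij c : Matrix ι ι F) = _
      rw [Matrix.SpecialLinearGroup.transvection_coe]
      ext a b
      simp [Matrix.one_apply, vecMulVec_apply, Pi.single_apply, Matrix.single_apply, eq_comm]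
      split_ifs <;> simp_all)
  have : Matrix.SpecialLinearGroup.toGL ⟨(g : Matrix ι ι F), hdet⟩ ∈ M :=
    Subgroup.mem_comap.mp (htop.ge (Subgroup.mem_top
      (G := Matrix.SpecialLinearGroup ι F) (⟨(g : Matrix ι ι F), hdet⟩ : Matrix.SpecialLinearGroup ι F)))
  convert this using 1
  exact Units.ext rfl

/-- A diagonal-plus-permutation element exists with prescribed determinant one. -/
theorem exists_mon_det_one (π : Equiv.Perm ι) (d : ι → Fˣ) (l : ι) :
    ∃ d' : ι → Fˣ, (∀ i, i ≠ l → d' i = d i) ∧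
      ((Equiv.Perm.sign π : ℤ) : F) * ∏ i, (d' i : F) = 1 := by
  set s : Fˣ := Units.map (Int.castRingHom F).toMonoidHom (Equiv.Perm.sign π) with hs
  refine ⟨Function.update d l (s⁻¹ * (∏ i ∈ Finset.univ.erase l, d i)⁻¹), fun i hi =>
    Function.update_of_ne hi _ _, ?_⟩
  have hp : ∏ i, Function.update d l (s⁻¹ * (∏ i ∈ Finset.univ.erase l, d i)⁻¹) i = s⁻¹ := by
    rw [← Finset.mul_prod_erase Finset.univ _ (Finset.mem_univ l), Function.update_self,
      Finset.prod_congr rfl (fun i hi => Function.update_of_ne (Finset.ne_of_mem_erase hi) _ _),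
      inv_mul_cancel_right]
  have := congrArg Units.val (congrArg (s * ·) hp)
  simpa [Units.coe_prod, hs] using this

end Cfsg.Agent.H1.Decomp
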