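import Cfsg.Agent.H1.DecompBase

set_option autoImplicit false

/-!
A subgroup containing the stabiliser in `SL` of a decomposition into blocks of size at least two and an
element outside it contains `SL`.
-/

namespace Cfsg.Agent.H1.Decomp

open Matrix

variable {ι : Type} [Fintype ι] [DecidableEq ι] {F : Type*} [Field F] {t : ℕ}

/-- `g` maps every block into a block. -/
def BlockLike (blk : ι → Fin t) (g : Matrix ι ι F) : Prop :=
  ∃ σ : Fin t → Fin t, ∀ k i, g k i ≠ 0 → blk k = σ (blk i)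

/-- `v` is supported on the block `a`. -/
def Sup (blk : ι → Fin t) (a : Fin t) (v : ι → F) : Prop := ∀ k, blk k ≠ a → v k = 0

/-- `M` contains all block elements of determinant one. -/
def ContainsBlock (blk : ι → Fin t) (M : Subgroup (GL ι F)) : Prop :=
  ∀ g : GL ι F, (g : Matrix ι ι F).det = 1 → BlockLike blk (g : Matrix ι ι F) → g ∈ M

variable {M : Subgroup (GL ι F)} {blk : ι → Fin t}

theorem mon_mem (hM : ContainsBlock blk M) (π : Equiv.Perm ι) (σ : Fin t → Fin t)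
    (hπ : ∀ i, blk (π i) = σ (blk i)) (d : ι → Fˣ)
    (hd : ((Equiv.Perm.sign π : ℤ) : F) * ∏ i, (d i : F) = 1) : monGL π d ∈ M := by
  refine hM _ (by rw [monGL_coe, monMat_det, hd]) ⟨σ, fun k i hk => ?_⟩
  simp [monMat] at hk
  rw [hk, hπ]

/-- One cross-block root element gives all of them. -/
theorem roots_of_cross {m : ℕ} (e : ι ≃ Fin t × Fin m) (hn : 3 ≤ Fintype.card ι)
    (hM : ContainsBlock (fun i => (e i).1) M) {i j : ι} (hij : (e i).1 ≠ (e j).1) {c : F} (hc : c ≠ 0)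
    (h : Has M (Pi.single i c) (Pi.single j 1)) (i' j' : ι) (hij' : i' ≠ j') (c' : F) :
    Has M (Pi.single i' c') (Pi.single j' 1) := by
  classical
  by_cases hc' : c' = 0
  · exact ⟨1, M.one_mem, by simp [hc']⟩
  by_cases hb : (e i').1 = (e j').1
  · have hu : (1 + vecMulVec (Pi.single i' c') (Pi.single j' (1 : F))).det = 1 := by
      rw [vecMulVec_eq Unit, det_one_add_replicateCol_mul_replicateRow]
      simp [hij'.symm]
    refine ⟨(Matrix.nonsingInvUnit _ (by rw [hu]; exact isUnit_one)), ?_, rfl⟩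
    refine hM _ hu ⟨id, fun k l hkl => ?_⟩
    change (1 + vecMulVec (Pi.single i' c') (Pi.single j' (1 : F))) k l ≠ 0 at hkl
    by_cases hk : k = l
    · rw [hk]; rfl
    · simp [Matrix.one_apply, hk, vecMulVec_apply, Pi.single_apply] at hkl
      rw [hkl.1, hkl.2.1]; exact hb
  -- a permutation of the blocks
  set a := (e i).1
  set b := (e j).1
  set a' := (e i').1
  set b' := (e j').1
  let σ : Equiv.Perm (Fin t) := (Equiv.swap a a').trans (Equiv.swap (Equiv.swap a a' b) b')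
  have hσa : σ a = a' := by
    simp only [σ, Equiv.trans_apply, Equiv.swap_apply_left]
    refine Equiv.swap_apply_of_ne_of_ne ?_ hb
    intro heq
    exact hij ((Equiv.swap a a').injective ((Equiv.swap_apply_left a a').trans heq))
  have hσb : σ b = b' := by simp [σ]
  let τ : Fin t → Equiv.Perm (Fin m) := fun x =>
    if x = a then Equiv.swap (e i).2 (e i').2 else Equiv.swap (e j).2 (e j').2
  let π : Equiv.Perm ι := e.trans ((Equiv.prodShear σ τ).trans e.symm)
  have hπi : π i = i' := by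
    apply e.injective
    simp only [π, Equiv.trans_apply, Equiv.apply_symm_apply, Equiv.prodShear_apply]
    ext1 <;> simp [τ, a, a', hσa]
  have hπj : π j = j' := by
    apply e.injective
    simp only [π, Equiv.trans_apply, Equiv.apply_symm_apply, Equiv.prodShear_apply]
    ext1 <;> simp [τ, b, b', hσb, hij.symm, a]
  have hπ : ∀ x, (e (π x)).1 = σ ((e x).1) := fun x => by simp [π]
  obtain ⟨l, hli, hlj⟩ : ∃ l, l ≠ i ∧ l ≠ j := by
    obtain ⟨l, hl⟩ := Finset.exists_mem_notMem_of_card_lt_card (s := {i, j}) (t := Finset.univ)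
      (lt_of_le_of_lt Finset.card_le_two (by rw [Finset.card_univ]; omega))
    exact ⟨l, by simp at hl; exact hl.1, by simp at hl; exact hl.2⟩
  obtain ⟨d, hd, hdet⟩ := exists_mon_det_one π (Function.update (fun _ => 1) i (Units.mk0 (c' / c) (div_ne_zero hc' hc))) l
  have := h.conj_mon (mon_mem hM π σ hπ d hdet)
  refine this.congr (funext fun k => ?_) (funext fun k => ?_)
  · by_cases hk : k = i'
    · subst hk
      rw [← hπi, Equiv.symm_apply_apply, hd i hli.symm]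
      simp [hc]
    · have : π.symm k ≠ i := fun he => hk (by rw [← hπi, ← he, Equiv.apply_symm_apply])
      simp [hk, this]
  · by_cases hk : k = j'
    · subst hk
      rw [← hπj, Equiv.symm_apply_apply, hd j hlj.symm]
      simp [Function.update_of_ne (show j ≠ i from fun he => hij (by simp [a, b, he]))]
    · have : π.symm k ≠ j := fun he => hk (by rw [← hπj, ← he, Equiv.apply_symm_apply])
      simp [hk, this]

/-! ### Blocks of size at least two -/

variable [Fintype F]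

theorem Has.conj_has {v φ u ψ : ι → F} (h : Has M v φ) (h0 : φ ⬝ᵥ v = 0) (h' : Has M u ψ) :
    Has M (u + (φ ⬝ᵥ u) • v) (ψ - (ψ ⬝ᵥ v) • φ) := by
  obtain ⟨x, hx, e⟩ := h
  have hxi : ((x⁻¹ : GL ι F) : Matrix ι ι F) = 1 + vecMulVec v (-φ) := by
    refine Units.inv_eq_of_mul_eq_one_right (u := x) ?_
    rw [e, one_add_mul_one_add, h0, zero_smul, add_zero, add_assoc, ← vecMulVec_add]
    simp
  refine (h'.conj hx).congr ?_ ?_
  · rw [e, add_mulVec, one_mulVec, vecMulVec_mulVec, op_smul_eq_smul]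
  · rw [hxi, vecMul_add, vecMul_one, vecMul_vecMulVec, smul_neg, sub_eq_add_neg]

/-- A transvection inside one block belongs to `M`. -/
theorem has_block (hM : ContainsBlock blk M) {a : Fin t} {u ψ : ι → F} (hu : Sup blk a u) (hψ : Sup blk a ψ)
    (h0 : ψ ⬝ᵥ u = 0) : Has M u ψ := by
  have hdet : (1 + vecMulVec u ψ).det = 1 := by
    rw [vecMulVec_eq Unit, det_one_add_replicateCol_mul_replicateRow, h0, add_zero]
  refine ⟨Matrix.nonsingInvUnit _ (by rw [hdet]; exact isUnit_one), ?_, rfl⟩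
  refine hM _ hdet ⟨id, fun k i hki => ?_⟩
  change (1 + vecMulVec u ψ) k i ≠ 0 at hki
  by_cases hk : k = i
  · rw [hk]; rfl
  · simp [Matrix.one_apply, hk, vecMulVec_apply] at hki
    rw [id, by_contra fun h => hki.1 (hu k h), by_contra fun h => hki.2 (hψ i h)]

theorem sup_dot_eq_zero {a b : Fin t} {u ψ : ι → F} (hu : Sup blk a u) (hψ : Sup blk b ψ) (h : a ≠ b) :
    ψ ⬝ᵥ u = 0 := by
  refine Finset.sum_eq_zero fun k _ => ?_
  by_cases hk : blk k = a
  · rw [hψ k (hk ▸ h), zero_mul]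
  · rw [hu k hk, mul_zero]

theorem sup_single (k : ι) (c : F) : Sup blk (blk k) (Pi.single k c) := fun l hl =>
  Pi.single_eq_of_ne (fun h => hl (by rw [h])) _

theorem sup_smul {a : Fin t} {u : ι → F} (h : Sup blk a u) (c : F) : Sup blk a (c • u) := fun k hk => by
  simp [h k hk]

theorem sup_sub {a : Fin t} {u v : ι → F} (h : Sup blk a u) (h' : Sup blk a v) : Sup blk a (u - v) :=
  fun k hk => by simp [h k hk, h' k hk]

/-- Moving the vector into a block. -/
theorem Has.move_vec (hM : ContainsBlock blk M) {v φ u ψ : ι → F} {a : Fin t} (h : Has M v φ)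
    (h0 : φ ⬝ᵥ v = 0) (hu : Sup blk a u) (hψ : Sup blk a ψ) (hψu : ψ ⬝ᵥ u = 0) (hφu : φ ⬝ᵥ u = 0)
    (hψv : ψ ⬝ᵥ v ≠ 0) : Has M u φ := by
  set ψ' := (-(ψ ⬝ᵥ v)⁻¹) • ψ with hψ'
  have hv : ψ' ⬝ᵥ v = -1 := by simp [hψ', inv_mul_cancel₀ hψv]
  have hu0 : ψ' ⬝ᵥ u = 0 := by simp [hψ', hψu]
  have hy : Has M u ψ' := has_block hM hu (sup_smul hψ _) hu0
  have h1 := h.conj_has h0 hy
  rw [hφu, zero_smul, add_zero, hv] at h1
  have h2 := h1.add_right (hy.neg_right hu0) (by simp [hu0, hφu])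
  refine h2.congr rfl ?_
  simp

/-- Moving the functional into a block. -/
theorem Has.move_fun (hM : ContainsBlock blk M) {v φ u ψ : ι → F} {a : Fin t} (h : Has M v φ)
    (h0 : φ ⬝ᵥ v = 0) (hu : Sup blk a u) (hψ : Sup blk a ψ) (hψu : ψ ⬝ᵥ u = 0) (hφu : φ ⬝ᵥ u = 1)
    (hψv : ψ ⬝ᵥ v = 0) : Has M v ψ := by
  have hy : Has M u ψ := has_block hM hu hψ hψu
  have h1 := h.conj_has h0 hy
  rw [hφu, one_smul, hψv, zero_smul, sub_zero] at h1
  have h2 := h1.add_left (hy.neg_left hψu) (by simp [hψu])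
  simpa using h2

/-- Two distinct coordinates in every block. -/
def TwoInBlocks (blk : ι → Fin t) : Prop := ∀ k, ∃ k', k' ≠ k ∧ blk k' = blk k

theorem cross_of_vec_in_block (hM : ContainsBlock blk M) (h2 : TwoInBlocks blk) {u φ : ι → F} {a : Fin t}
    (h : Has M u φ) (h0 : φ ⬝ᵥ u = 0) (hu : Sup blk a u) (hu0 : u ≠ 0) {k : ι} (hk : blk k ≠ a)
    (hφk : φ k ≠ 0) : ∃ i j, blk i ≠ blk j ∧ Has M (Pi.single i 1) (Pi.single j (1 : F)) := by
  obtain ⟨k', hk', hb⟩ := h2 k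
  have e1 : Has M u (Pi.single k' 1) := by
    refine h.move_fun hM h0 (u := Pi.single k (φ k)⁻¹) (a := blk k) (sup_single k _) ?_ ?_ ?_ ?_
    · intro l hl; exact Pi.single_eq_of_ne (fun he => hl (by rw [he, hb])) _
    · simp [hk']
    · simp [hφk]
    · rw [single_dotProduct, hu k' (hb ▸ hk), mul_zero]
  obtain ⟨i, hi⟩ := Function.ne_iff.mp hu0
  obtain ⟨i', hi', hbi⟩ := h2 i
  have hia : blk i = a := by by_contra hne; exact hi (hu i hne)
  refine ⟨i', k', by rw [hb, hbi, hia]; exact Ne.symm hk, ?_⟩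
  refine e1.move_vec hM (ψ := Pi.single i 1) (a := a) ?_ ?_ ?_ ?_ ?_ ?_
  · rw [single_dotProduct, hu k' (hb ▸ hk), mul_zero]
  · rw [← hia, ← hbi]; exact sup_single i' _
  · rw [← hia]; exact sup_single i _
  · simp [hi'.symm]
  · simp [show k' ≠ i' from fun he => hk (by rw [← hia, ← hbi, ← he, hb])]
  · simpa using hi

theorem cross_of_fun_in_block (hM : ContainsBlock blk M) (h2 : TwoInBlocks blk) {v ψ : ι → F} {a : Fin t}
    (h : Has M v ψ) (h0 : ψ ⬝ᵥ v = 0) (hψ : Sup blk a ψ) (hψ0 : ψ ≠ 0) {k : ι} (hk : blk k ≠ a)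
    (hvk : v k ≠ 0) : ∃ i j, blk i ≠ blk j ∧ Has M (Pi.single i 1) (Pi.single j (1 : F)) := by
  obtain ⟨k', hk', hb⟩ := h2 k
  have hd : ψ ⬝ᵥ Pi.single k' 1 = 0 := by rw [dotProduct_single, hψ k' (hb ▸ hk), zero_mul]
  have e1 : Has M (Pi.single k' 1) ψ := by
    refine h.move_vec hM h0 (ψ := Pi.single k 1) (a := blk k) ?_ (sup_single k _) ?_ hd ?_
    · rw [← hb]; exact sup_single k' _
    · simp [hk'.symm]
    · simpa using hvk
  obtain ⟨j, hj⟩ := Function.ne_iff.mp hψ0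
  have hja : blk j = a := by by_contra hne; exact hj (hψ j hne)
  refine cross_of_vec_in_block hM h2 e1 hd (sup_single k' 1) ?_ (k := j) ?_ hj
  · intro he
    simpa using congrFun he k'
  · rw [hja, hb]; exact Ne.symm hk

/-- An element not preserving the blocks spreads some vector of a block over two blocks. -/
theorem exists_spread_vec {g : GL ι F} (hg : ¬ BlockLike blk (g : Matrix ι ι F)) :
    ∃ a w, Sup blk a w ∧ ∃ k l, blk k ≠ blk l ∧ ((g : Matrix ι ι F) *ᵥ w) k ≠ 0 ∧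
      ((g : Matrix ι ι F) *ᵥ w) l ≠ 0 := by
  classical
  by_contra hc
  have hone : ∀ a w, Sup blk a w → ∀ k l, ((g : Matrix ι ι F) *ᵥ w) k ≠ 0 →
      ((g : Matrix ι ι F) *ᵥ w) l ≠ 0 → blk k = blk l := fun a w hw k l hk hl => by
    by_contra hne
    exact hc ⟨a, w, hw, k, l, hne, hk, hl⟩
  have hcol : ∀ i k l, (g : Matrix ι ι F) k i ≠ 0 → (g : Matrix ι ι F) l i ≠ 0 → blk k = blk l :=
    fun i k l hk hl => hone _ _ (sup_single i 1) k l (by simpa using hk) (by simpa using hl)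
  have hcol2 : ∀ i i' k l, blk i = blk i' → (g : Matrix ι ι F) k i ≠ 0 → (g : Matrix ι ι F) l i' ≠ 0 →
      blk k = blk l := by
    intro i i' k l hii hk hl
    by_contra hne
    refine hne (hone (blk i) (Pi.single i 1 + Pi.single i' 1) ?_ k l ?_ ?_)
    · intro x hx
      rw [Pi.add_apply, sup_single (blk := blk) i 1 x hx, sup_single (blk := blk) i' 1 x (hii ▸ hx), add_zero]
    · have : (g : Matrix ι ι F) k i' = 0 := by by_contra h; exact hne (hcol i' k l h hl)
      simpa [mulVec_add, this] using hk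
    · have : (g : Matrix ι ι F) l i = 0 := by by_contra h; exact hne (hcol i k l hk h)
      simpa [mulVec_add, this] using hl
  refine hg ⟨fun a => if h : ∃ k i, blk i = a ∧ (g : Matrix ι ι F) k i ≠ 0 then blk h.choose else a,
    fun k i hk => ?_⟩
  have h : ∃ k' i', blk i' = blk i ∧ (g : Matrix ι ι F) k' i' ≠ 0 := ⟨k, i, rfl, hk⟩
  obtain ⟨i', hi', hk'⟩ := h.choose_spec
  simp only [dif_pos h]
  exact hcol2 i i' k _ hi'.symm hk hk'

/-- A functional killing `u` but not `x`, on one block. -/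
theorem exists_sep {a : Fin t} {u x : ι → F} (hu : Sup blk a u) (hx : Sup blk a x) {i : ι} (hi : u i ≠ 0)
    (hne : ∃ k, x k ≠ x i / u i * u k) : ∃ ψ : ι → F, Sup blk a ψ ∧ ψ ⬝ᵥ u = 0 ∧ ψ ⬝ᵥ x ≠ 0 := by
  obtain ⟨k, hk⟩ := hne
  refine ⟨Pi.single k 1 - (u k / u i) • Pi.single i 1, ?_, ?_, ?_⟩
  · have hia : blk i = a := by by_contra h; exact hi (hu i h)
    have hka : blk k = a := by
      by_contra h
      exact hk (by rw [hx k h, hu k h, mul_zero])
    exact sup_sub (hka ▸ sup_single k 1) (sup_smul (hia ▸ sup_single i 1) _)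
  · simp [sub_dotProduct, hi]
  · intro h
    simp [sub_dotProduct] at h
    refine hk ?_
    rw [sub_eq_zero.mp h]
    field_simp

/-- The block-diagonal pseudo-reflection `1 + (ν - 1) w ⊗ ρ`. -/
theorem exists_refl (w ρ : ι → F) (ν : F) (hν : ν ≠ 0) (h : ρ ⬝ᵥ w = 1) :
    ∃ A : GL ι F, (A : Matrix ι ι F) = 1 + vecMulVec ((ν - 1) • w) ρ ∧
      ((A⁻¹ : GL ι F) : Matrix ι ι F) = 1 + vecMulVec ((ν⁻¹ - 1) • w) ρ ∧ (A : Matrix ι ι F).det = ν := by
  have hdet : (1 + vecMulVec ((ν - 1) • w) ρ).det = ν := by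
    rw [vecMulVec_eq Unit, det_one_add_replicateCol_mul_replicateRow, dotProduct_smul, h]
    simp
  refine ⟨Matrix.nonsingInvUnit _ (by rw [hdet]; exact Ne.isUnit hν), rfl, ?_, hdet⟩
  refine Units.inv_eq_of_mul_eq_one_right ?_
  change (1 + vecMulVec ((ν - 1) • w) ρ) * _ = 1
  rw [one_add_mul_one_add, dotProduct_smul, h]
  ext i j
  simp only [Matrix.add_apply, Matrix.smul_apply, vecMulVec_apply, Pi.smul_apply, smul_eq_mul]
  field_simp
  ring

/-- A cross-block transvection lies in `M`. -/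
theorem exists_cross (hM : ContainsBlock blk M) (h2 : TwoInBlocks blk)
    (hq : (3 ≤ Fintype.card F ∧ ∀ a b : Fin t, ∃ d, d ≠ a ∧ d ≠ b ∧ ∃ k, blk k = d) ∨ ∀ k, ∃ k1 k2,
      k1 ≠ k ∧ k2 ≠ k ∧ k1 ≠ k2 ∧ blk k1 = blk k ∧ blk k2 = blk k)
    {g : GL ι F} (hg : g ∈ M) (hgB : ¬ BlockLike blk (g : Matrix ι ι F)) :
    ∃ i j, blk i ≠ blk j ∧ Has M (Pi.single i 1) (Pi.single j (1 : F)) := by
  classical
  obtain ⟨a₀, w₀, hw₀, k₀, l₀, hkl, hk₀, hl₀⟩ := exists_spread_vec hgB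
  obtain ⟨i₀, hi₀⟩ : ∃ i, w₀ i ≠ 0 := by
    by_contra hc; push Not at hc
    exact hk₀ (by simp [show w₀ = 0 from funext hc])
  obtain ⟨i₁, hi₁, hbi₁⟩ := h2 i₀
  have hia : blk i₀ = a₀ := by by_contra h; exact hi₀ (hw₀ i₀ h)
  set ψ₀ : ι → F := Pi.single i₁ 1 - (w₀ i₁ / w₀ i₀) • Pi.single i₀ 1 with hψ₀
  have hψw : ψ₀ ⬝ᵥ w₀ = 0 := by simp [hψ₀, sub_dotProduct, hi₀]
  have hψs : Sup blk a₀ ψ₀ :=
    sup_sub (by rw [← hia, ← hbi₁]; exact sup_single i₁ 1) (sup_smul (hia ▸ sup_single i₀ 1) _)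
  have h := (has_block hM hw₀ hψs hψw).conj hg
  set v := (g : Matrix ι ι F) *ᵥ w₀
  set φ := ψ₀ ᵥ* ((g⁻¹ : GL ι F) : Matrix ι ι F)
  have h0 : φ ⬝ᵥ v = 0 := by
    rw [← dotProduct_mulVec, Cfsg.Agent.H98.gl_inv_mulVec, hψw]
  have hφ0 : φ ≠ 0 := by
    intro he
    have := congrArg (fun x => x ᵥ* (g : Matrix ι ι F)) he
    simp only [φ, vecMul_vecMul, ← Units.val_mul, inv_mul_cancel, Units.val_one, vecMul_one, zero_vecMul] at this
    have := congrFun this i₁
    simp [hψ₀, hi₁] at this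
  have hout : ∀ c, ∃ k, blk k ≠ c ∧ v k ≠ 0 := by
    intro c
    by_cases hk : blk k₀ = c
    · exact ⟨l₀, fun he => hkl (hk.trans he.symm), hl₀⟩
    · exact ⟨k₀, hk, hk₀⟩
  -- the restriction to a block
  let r : Fin t → (ι → F) → (ι → F) := fun c x k => if blk k = c then x k else 0
  have hr : ∀ c x, Sup blk c (r c x) := fun c x k hk => by simp [r, hk]
  have hrdot : ∀ c x ψ, Sup blk c ψ → ψ ⬝ᵥ r c x = ψ ⬝ᵥ x := fun c x ψ hψ =>
    Finset.sum_congr rfl fun k _ => by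
      by_cases hk : blk k = c
      · simp [r, hk]
      · simp [hψ k hk]
  have caseI : ∀ c u, Sup blk c u → φ ⬝ᵥ u = 0 → (∃ i, u i ≠ 0 ∧ ∃ k, r c v k ≠ r c v i / u i * u k) →
      ∃ i j, blk i ≠ blk j ∧ Has M (Pi.single i 1) (Pi.single j (1 : F)) := by
    rintro c u hu hφu ⟨i, hi, hne⟩
    obtain ⟨ψ, hψ, hψu, hψv⟩ := exists_sep hu (hr c v) hi hne
    rw [hrdot c v ψ hψ] at hψv
    have e1 := h.move_vec hM h0 hu hψ hψu hφu hψv
    by_cases hsup : Sup blk c φ
    · obtain ⟨k, hk, hvk⟩ := hout c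
      exact cross_of_fun_in_block hM h2 h h0 hsup hφ0 hk hvk
    · simp only [Sup, not_forall] at hsup
      obtain ⟨k, hk, hφk⟩ := hsup
      exact cross_of_vec_in_block hM h2 e1 hφu hu (fun he => hi (by simp [he])) hk hφk
  -- the case of large blocks
  rcases hq with ⟨hq, h3⟩ | hq
  swap
  · obtain ⟨k1, k2, hk1, hk2, hk12, hb1, hb2⟩ := hq k₀
    by_cases hp : φ k1 = 0
    · refine caseI (blk k₀) (Pi.single k1 1) (hb1 ▸ sup_single k1 1) (by simp [hp])
        ⟨k1, by simp, k₀, ?_⟩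
      simp [r, hk1.symm]
      exact hk₀
    · refine caseI (blk k₀) (φ k2 • Pi.single k1 1 - φ k1 • Pi.single k2 1) ?_ ?_ ⟨k2, ?_, k₀, ?_⟩
      · exact sup_sub (sup_smul (hb1 ▸ sup_single k1 1) _) (sup_smul (hb2 ▸ sup_single k2 1) _)
      · simp [dotProduct_sub]; ring
      · simp [hk12.symm, hp]
      · simp [r, hk1.symm, hk2.symm]
        exact hk₀
  -- the case of blocks of size two
  by_contra hcon
  have noI : ∀ c u, Sup blk c u → φ ⬝ᵥ u = 0 → ∀ i, u i ≠ 0 → ∀ k, r c v k = r c v i / u i * u k := by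
    intro c u hu hu0 i hi k
    by_contra hne
    exact hcon (caseI c u hu hu0 ⟨i, hi, k, hne⟩)
  have hA : ∀ k, φ k ≠ 0 → r (blk k) v ≠ 0 := by
    intro k hk hz
    obtain ⟨k', hk', hb⟩ := h2 k
    have hvk' : v k' = 0 := by simpa [r, hb] using congrFun hz k'
    have e1 : Has M v (Pi.single k' 1) := by
      refine h.move_fun hM h0 (u := Pi.single k (φ k)⁻¹) (sup_single k _) ?_ ?_ ?_ ?_
      · rw [← hb]; exact sup_single k' 1
      · simp [hk']
      · simp [hk]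
      · simpa using hvk'
    obtain ⟨l, hl, hvl⟩ := hout (blk k)
    refine hcon (cross_of_fun_in_block hM h2 e1 (by simpa using hvk') (hb ▸ sup_single k' 1) ?_ hl hvl)
    intro he; simpa using congrFun he k'
  have hB : ∀ k, v k ≠ 0 → (∃ l, blk l = blk k ∧ φ l ≠ 0) ∧ φ ⬝ᵥ r (blk k) v = 0 := by
    intro k hk
    obtain ⟨k', hk', hb⟩ := h2 k
    by_cases hp : φ k' = 0
    · have := noI (blk k) (Pi.single k' 1) (hb ▸ sup_single k' 1) (by simp [hp]) k' (by simp) k
      simp [r, hb, hk'.symm] at this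
      exact absurd this hk
    · set u : ι → F := φ k' • Pi.single k 1 - φ k • Pi.single k' 1 with hu
      have hsu : Sup blk (blk k) u := sup_sub (sup_smul (sup_single k 1) _) (sup_smul (hb ▸ sup_single k' 1) _)
      have hφu : φ ⬝ᵥ u = 0 := by simp [hu, dotProduct_sub]; ring
      have huk : u k ≠ 0 := by simp [hu, hk'.symm, hp]
      refine ⟨⟨k', hb, hp⟩, ?_⟩
      have : r (blk k) v = (r (blk k) v k / u k) • u :=
        funext fun l => by simpa using noI (blk k) u hsu hφu k huk l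
      rw [this, dotProduct_smul, hφu, smul_zero]
  obtain ⟨ν, hν0, hν1⟩ : ∃ ν : F, ν ≠ 0 ∧ ν ≠ 1 := by
    obtain ⟨ν, -, hν⟩ := Finset.exists_mem_notMem_of_card_lt_card (s := ({0, 1} : Finset F))
      (t := Finset.univ) (lt_of_le_of_lt Finset.card_le_two (by rw [Finset.card_univ]; omega))
    exact ⟨ν, by simp at hν; exact hν.1, by simp at hν; exact hν.2⟩
  set a := blk k₀
  set b := blk l₀
  obtain ⟨d, hda, hdb, kd, hkd⟩ := h3 a b
  obtain ⟨⟨ka, hka, hφka⟩, hzero_a⟩ := hB k₀ hk₀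
  obtain ⟨⟨kb, hkb, hφkb⟩, -⟩ := hB l₀ hl₀
  -- `w` and `ρ` on the block `a`
  set w : ι → F := Pi.single ka (φ ka)⁻¹ with hw
  have hws : Sup blk a w := by rw [show a = blk ka from hka.symm]; exact sup_single ka _
  have hρw : r a φ ⬝ᵥ w = 1 := by simp [hw, r, show blk ka = a from hka, hφka]
  -- the same on the block `d`
  obtain ⟨w', ρ', hw's, hρ's, hρw', hρ'v⟩ :
      ∃ w' ρ', Sup blk d w' ∧ Sup blk d ρ' ∧ ρ' ⬝ᵥ w' = 1 ∧ ρ' ⬝ᵥ v = 0 := by
    by_cases hd : ∃ l, blk l = d ∧ φ l ≠ 0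
    · obtain ⟨l, hl, hφl⟩ := hd
      refine ⟨Pi.single l (φ l)⁻¹, r d φ, hl ▸ sup_single l _, hr d φ, by simp [r, hl, hφl], ?_⟩
      obtain ⟨k, hk⟩ := Function.ne_iff.mp (hA l hφl)
      rw [hl] at hk
      have hkd' : blk k = d := by by_contra h; exact hk (by simp [r, h])
      have hvk : v k ≠ 0 := by simpa [r, hkd'] using hk
      have hz := (hB k hvk).2
      rw [hkd'] at hz
      rw [← hrdot d v (r d φ) (hr d φ), dotProduct_comm, hrdot d φ (r d v) (hr d v), dotProduct_comm]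
      exact hz
    · push Not at hd
      refine ⟨Pi.single kd 1, Pi.single kd 1, hkd ▸ sup_single kd 1, hkd ▸ sup_single kd 1, by simp, ?_⟩
      rw [single_dotProduct, one_mul]
      by_contra hv
      obtain ⟨l, hl, hφl⟩ := (hB kd hv).1
      exact hφl (hd l (hl.trans hkd))
  have hρv : r a φ ⬝ᵥ v = 0 := by
    rw [← hrdot a v (r a φ) (hr a φ), dotProduct_comm, hrdot a φ (r a v) (hr a v), dotProduct_comm]
    exact hzero_a
  obtain ⟨A, hA1, hA2, hA3⟩ := exists_refl w (r a φ) ν hν0 hρw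
  obtain ⟨B, hB1, hB2, hB3⟩ := exists_refl w' ρ' ν⁻¹ (inv_ne_zero hν0) hρw'
  have hab' : r a φ ⬝ᵥ w' = 0 := sup_dot_eq_zero hw's (hr a φ) hda
  have hba' : ρ' ⬝ᵥ w = 0 := sup_dot_eq_zero hws hρ's hda.symm
  have hAB : A * B ∈ M := by
    refine hM _ (by rw [Units.val_mul, det_mul, hA3, hB3, mul_inv_cancel₀ hν0]) ⟨id, fun k i hki => ?_⟩
    rw [Units.val_mul, hA1, hB1, one_add_mul_one_add, dotProduct_smul, hab', smul_zero, zero_smul,
      add_zero] at hki
    by_cases hk : k = i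
    · rw [hk]; rfl
    by_contra hne
    refine hki ?_
    simp only [Matrix.add_apply, Matrix.one_apply, hk, if_false, vecMulVec_apply, Pi.smul_apply, smul_eq_mul]
    have hz : ∀ (c : Fin t) (x y : ι → F), Sup blk c x → Sup blk c y → x k * y i = 0 := by
      intro c x y hx hy
      by_cases hkc : blk k = c
      · rw [hy i (fun h => hne (hkc.trans h.symm)), mul_zero]
      · rw [hx k hkc, zero_mul]
    rw [zero_add, mul_assoc, hz a w (r a φ) hws (hr a φ), mul_assoc, hz d w' ρ' hw's hρ's]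
    simp
  have hx' := h.conj hAB
  set φ' := φ ᵥ* (((A * B)⁻¹ : GL ι F) : Matrix ι ι F) with hφ'
  have hv' : (((A * B : GL ι F)) : Matrix ι ι F) *ᵥ v = v := by
    rw [Units.val_mul, ← mulVec_mulVec, hB1, add_mulVec, one_mulVec, vecMulVec_mulVec, hρ'v, hA1]
    simp [add_mulVec, Matrix.smul_mulVec, vecMulVec_mulVec, hρv]
  rw [hv'] at hx'
  have hφ'e : φ' = φ + (φ ⬝ᵥ ((ν⁻¹ - 1) • w)) • r a φ + (φ ⬝ᵥ ((ν - 1) • w')) • ρ' := by
    rw [hφ', _root_.mul_inv_rev, Units.val_mul, hA2, hB2, inv_inv, ← vecMul_vecMul, vecMul_add, vecMul_one,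
      vecMul_vecMulVec, vecMul_add, vecMul_one, vecMul_vecMulVec, add_dotProduct, smul_dotProduct,
      dotProduct_smul _ ρ', hba']
    simp only [smul_zero, add_zero]
    abel
  have hφw : φ ⬝ᵥ w = 1 := by simp [hw, hφka]
  have h'v : φ' ⬝ᵥ v = 0 := by simp [hφ'e, add_dotProduct, h0, hρv, hρ'v]
  have h'w : φ' ⬝ᵥ w = ν⁻¹ := by simp [hφ'e, add_dotProduct, hφw, hρw, hba']
  have h'kb : φ' kb = φ kb := by
    have hne : blk kb ≠ a := hkb ▸ (Ne.symm hkl)
    simp [hφ'e, r, hne, hρ's kb (hkb ▸ hdb.symm)]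
  -- the transvection on the block `a`
  obtain ⟨ψ, hψ, hψw', hψv⟩ := exists_sep hws (hr a v) (i := ka) (by simp [hw, hφka]) (by
    by_contra hall
    push Not at hall
    have he : r a v = (r a v ka / w ka) • w := funext fun k => by simpa using hall k
    have h1 : φ ⬝ᵥ r a v = r a v ka / w ka := by
      conv_lhs => rw [he]
      rw [dotProduct_smul, hφw, smul_eq_mul, mul_one]
    rw [hzero_a] at h1
    have : r a v k₀ = 0 := by rw [he, ← h1]; simp
    simp [r, a] at this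
    exact hk₀ this)
  rw [hrdot a v ψ hψ] at hψv
  set ψ' := (-ν / (ψ ⬝ᵥ v)) • ψ with hψ'
  have hy : Has M w ψ' := has_block hM hws (sup_smul hψ _) (by simp [hψ', hψw'])
  have e1 := hy.conj_has (by simp [hψ', hψw']) h
  have hψ'v : ψ' ⬝ᵥ v = -ν := by simp [hψ', div_mul_cancel₀ _ hψv]
  rw [hψ'v, hφw, one_smul] at e1
  have e2 := hx'.conj_has h'v e1
  have hc1 : φ' ⬝ᵥ (v + -ν • w) = -1 := by simp [dotProduct_add, h'v, h'w, hν0]
  have hc2 : (φ - ψ') ⬝ᵥ v = ν := by simp [sub_dotProduct, h0, hψ'v]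
  rw [hc1, hc2] at e2
  have e3 : Has M (-ν • w) (φ - ψ' - ν • φ') := e2.congr (by ext k; simp) rfl
  refine hcon (cross_of_vec_in_block hM h2 e3 ?_ (sup_smul hws _) ?_ (k := kb) ?_ ?_)
  · simp [sub_dotProduct, hψ', hψw', hφw, h'w, hν0]
  · intro he
    have := congrFun he ka
    simp [hw, hν0, hφka] at this
  · exact hkb ▸ (Ne.symm hkl)
  · have hne : blk kb ≠ a := hkb ▸ (Ne.symm hkl)
    simp [hψ', hψ kb hne, h'kb]
    rw [show φ kb - ν * φ kb = (1 - ν) * φ kb by ring]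
    exact mul_ne_zero (sub_ne_zero.mpr (Ne.symm hν1)) hφkb

end Cfsg.Agent.H1.Decomp
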