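import Cfsg.Agent.H1.DecompBase

set_option autoImplicit false

/-!
A subgroup of `GL` (at least three coordinates, at least five scalars) containing all monomial matrices and
a non-monomial matrix contains a root element. Proof by manipulating conjugates of pseudo-reflections.
-/

namespace Cfsg.Agent.H1.Decomp

open Matrix

variable {J : Type} [Fintype J] [DecidableEq J] {F : Type*} [Field F] {K : Subgroup (GL J F)}

/-- `K` contains the torus of pseudo-reflections with centre `a` and axis `α`. -/
def Refl (K : Subgroup (GL J F)) (a α : J → F) : Prop :=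
  α ⬝ᵥ a = 1 ∧ ∀ μ : F, μ ≠ 0 → Has K ((μ - 1) • a) α

theorem refl_single (hK : ∀ π d, monGL π d ∈ K) (i : J) :
    Refl K (Pi.single i 1) (Pi.single i (1 : F)) := by
  refine ⟨by simp, fun μ hμ => ⟨monGL 1 (Function.update (fun _ => 1) i (Units.mk0 μ hμ)), hK _ _, ?_⟩⟩
  ext k l
  simp only [monGL_coe, monMat, Matrix.of_apply, Matrix.add_apply, Matrix.one_apply, vecMulVec_apply,
    Pi.smul_apply, smul_eq_mul, Equiv.Perm.one_apply, Pi.single_apply, Function.update_apply]
  by_cases hkl : k = l
  · subst hkl
    by_cases hk : k = i <;> simp [hk]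
  · by_cases hk : k = i
    · subst hk; simp [hkl, Ne.symm hkl]
    · simp [hkl, hk]

theorem Refl.conj {a α : J → F} (h : Refl K a α) {g : GL J F} (hg : g ∈ K) :
    Refl K ((g : Matrix J J F) *ᵥ a) (α ᵥ* ((g⁻¹ : GL J F) : Matrix J J F)) := by
  refine ⟨?_, fun μ hμ => ?_⟩
  · rw [← dotProduct_mulVec, Cfsg.Agent.H98.gl_inv_mulVec, h.1]
  · exact ((h.2 μ hμ).conj hg).congr (mulVec_smul _ _ _) rfl

/-- The member with parameter `μ` of a torus of pseudo-reflections, with its inverse. -/
theorem Refl.elem {a α : J → F} (h : Refl K a α) {μ : F} (hμ : μ ≠ 0) :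
    ∃ g ∈ K, (g : Matrix J J F) = 1 + vecMulVec ((μ - 1) • a) α ∧
      ((g⁻¹ : GL J F) : Matrix J J F) = 1 + vecMulVec ((μ⁻¹ - 1) • a) α := by
  obtain ⟨g, hg, e⟩ := h.2 μ hμ
  refine ⟨g, hg, e, Units.inv_eq_of_mul_eq_one_right (u := g) ?_⟩
  rw [e, one_add_mul_one_add, dotProduct_smul, h.1]
  ext i j
  simp only [Matrix.add_apply, Matrix.smul_apply, vecMulVec_apply, Pi.smul_apply, smul_eq_mul]
  field_simp
  ring

/-- Conjugating one torus by an element of another. -/
theorem Refl.derive {a α b β : J → F} (h : Refl K a α) (h' : Refl K b β) {μ : F} (hμ : μ ≠ 0) :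
    Refl K (b + ((μ - 1) * (α ⬝ᵥ b)) • a) (β + ((μ⁻¹ - 1) * (β ⬝ᵥ a)) • α) := by
  obtain ⟨g, hg, e, ei⟩ := h.elem hμ
  have := h'.conj hg
  rw [e, ei, add_mulVec, one_mulVec, vecMulVec_mulVec, op_smul_eq_smul, vecMul_add, vecMul_one,
    vecMul_vecMulVec, dotProduct_smul, smul_smul, smul_eq_mul] at this
  rwa [mul_comm (μ - 1)]

theorem exists_third_scalar [Fintype F] (hq : 5 ≤ Fintype.card F) : ∃ ν : F, ν ≠ 0 ∧ ν ≠ 1 := by
  classical
  obtain ⟨ν, -, hν⟩ := Finset.exists_mem_notMem_of_card_lt_card (s := ({0, 1} : Finset F))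
    (t := Finset.univ) (lt_of_le_of_lt Finset.card_le_two (by rw [Finset.card_univ]; omega))
  exact ⟨ν, by simp at hν; exact hν.1, by simp at hν; exact hν.2⟩

theorem root_of_vec [Fintype F] (hq : 5 ≤ Fintype.card F) (hK : ∀ π d, monGL π d ∈ K) {i : J} {c : F}
    (hc : c ≠ 0) {α : J → F} (h : Has K (Pi.single i c) α) (hi : α i = 0) (hα : α ≠ 0) : HasRoot K := by
  obtain ⟨j, hj⟩ := Function.ne_iff.mp hα
  have hji : j ≠ i := fun he => hj (he ▸ hi)
  obtain ⟨ν, hν0, hν1⟩ := exists_third_scalar hq
  have h' := h.conj_diag (hK 1 (Function.update (fun _ => 1) j (Units.mk0 ν hν0)))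
  have e : Has K (Pi.single i c) (fun k => α k * (if k = j then ν⁻¹ else 1)) := by
    refine h'.congr (funext fun k => ?_) (funext fun k => ?_)
    · by_cases hk : k = i
      · subst hk; simp [hji.symm]
      · simp [hk]
    · by_cases hk : k = j
      · subst hk; simp
      · simp [hk]
  have e2 := h.transvection_of_same_left e (by simp [hi])
  have e3 : Has K (Pi.single i c) (((ν⁻¹ - 1) * α j) • Pi.single j 1) := by
    refine e2.congr rfl (funext fun k => ?_)
    by_cases hk : k = j
    · subst hk; simp; ring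
    · simp [hk]
  refine ⟨i, j, hji.symm, ((ν⁻¹ - 1) * α j) * c, ?_, ((Has.shift _).2 e3).congr ?_ rfl⟩
  · refine mul_ne_zero (mul_ne_zero (sub_ne_zero.mpr fun he => hν1 ?_) hj) hc
    simpa using he
  · ext k; by_cases hk : k = i
    · subst hk; simp
    · simp [hk]

theorem root_of_fun [Fintype F] (hq : 5 ≤ Fintype.card F) (hK : ∀ π d, monGL π d ∈ K) {i : J} {a : J → F}
    (h : Has K a (Pi.single i 1)) (hi : a i = 0) (ha : a ≠ 0) : HasRoot K := by
  obtain ⟨j, hj⟩ := Function.ne_iff.mp ha
  have hji : j ≠ i := fun he => hj (he ▸ hi)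
  obtain ⟨ν, hν0, hν1⟩ := exists_third_scalar hq
  have h' := h.conj_diag (hK 1 (Function.update (fun _ => 1) j (Units.mk0 ν hν0)))
  have e : Has K (fun k => (if k = j then ν else 1) * a k) (Pi.single i 1) := by
    refine h'.congr (funext fun k => ?_) (funext fun k => ?_)
    · by_cases hk : k = j
      · subst hk; simp
      · simp [hk]
    · by_cases hk : k = i
      · subst hk; simp [hji.symm]
      · simp [hk]
  have e2 := h.transvection_of_same_right e
  refine ⟨j, i, hji, (ν - 1) * a j, mul_ne_zero (sub_ne_zero.mpr hν1) hj, e2.congr (funext fun k => ?_) rfl⟩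
  by_cases hk : k = j
  · subst hk; simp [hi]; ring
  · simp [hk]

/-- Without root elements, centre and axis have the same support. -/
theorem Refl.supp_eq [Fintype F] (hq : 5 ≤ Fintype.card F) (hK : ∀ π d, monGL π d ∈ K)
    (hno : ¬ HasRoot K) {a α : J → F} (h : Refl K a α) (i : J) : a i = 0 ↔ α i = 0 := by
  obtain ⟨ν, hν0, hν1⟩ := exists_third_scalar hq
  constructor <;> intro hi <;> by_contra hne
  · -- `α i ≠ 0`, `a i = 0`
    have h' := (h.2 ν hν0).conj_diag (hK 1 (Function.update (fun _ => 1) i (Units.mk0 ν hν0)))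
    have e : Has K ((ν - 1) • a) (fun k => α k * (if k = i then ν⁻¹ else 1)) := by
      refine h'.congr (funext fun k => ?_) (funext fun k => ?_)
      · by_cases hk : k = i
        · subst hk; simp [hi]
        · simp [hk]
      · by_cases hk : k = i
        · subst hk; simp
        · simp [hk]
    have hd : (fun k => α k * (if k = i then ν⁻¹ else 1)) - α = ((ν⁻¹ - 1) * α i) • Pi.single i 1 := by
      funext k
      by_cases hk : k = i
      · subst hk; simp; ring
      · simp [hk]
    have e2 := (h.2 ν hν0).transvection_of_same_left e (by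
      have : ((fun k => α k * (if k = i then ν⁻¹ else 1)) - α) ⬝ᵥ ((ν - 1) • a) = 0 := by
        rw [hd]; simp [hi]
      rw [sub_dotProduct, sub_eq_zero] at this
      exact this)
    rw [hd] at e2
    have hc : (ν⁻¹ - 1) * α i ≠ 0 :=
      mul_ne_zero (sub_ne_zero.mpr fun he => hν1 (by simpa using he)) hne
    refine hno (root_of_fun hq hK ((Has.shift _).2 e2) (by simp [hi]) ?_)
    intro he
    have := congrArg (fun x => α ⬝ᵥ x) he
    simp [h.1, hc, sub_ne_zero.mpr hν1] at this
  · -- `a i ≠ 0`, `α i = 0`
    have h' := (h.2 ν hν0).conj_diag (hK 1 (Function.update (fun _ => 1) i (Units.mk0 ν hν0)))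
    have e : Has K (fun k => (if k = i then ν else 1) * ((ν - 1) * a k)) α := by
      refine h'.congr (funext fun k => ?_) (funext fun k => ?_)
      · by_cases hk : k = i
        · subst hk; simp
        · simp [hk]
      · by_cases hk : k = i
        · subst hk; simp [hi]
        · simp [hk]
    have e2 := (h.2 ν hν0).transvection_of_same_right e
    have e3 : Has K (Pi.single i (ν⁻¹ * ((ν - 1) * ((ν - 1) * a i)))) α := by
      refine e2.congr (funext fun k => ?_) rfl
      rw [dotProduct_smul, h.1, smul_eq_mul, mul_one]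
      by_cases hk : k = i
      · subst hk
        simp only [Pi.smul_apply, Pi.sub_apply, smul_eq_mul, if_true, Pi.single_eq_same]
        ring
      · simp [hk]
    refine hno (root_of_vec hq hK ?_ e3 hi ?_)
    · exact mul_ne_zero (inv_ne_zero hν0)
        (mul_ne_zero (sub_ne_zero.mpr hν1) (mul_ne_zero (sub_ne_zero.mpr hν1) hne))
    · intro he; simpa [he] using h.1

/-- Without root elements, each non-zero product of corresponding entries is `1` or a half. -/
theorem Refl.value [Fintype F] (hq : 5 ≤ Fintype.card F) (hK : ∀ π d, monGL π d ∈ K)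
    (hno : ¬ HasRoot K) {a α : J → F} (h : Refl K a α) (i : J) (hi : a i ≠ 0) :
    a i * α i = 1 ∨ 2 * (a i * α i) = 1 := by
  have hαi : α i ≠ 0 := fun he => hi ((h.supp_eq hq hK hno i).mpr he)
  by_cases h1 : a i * α i = 1
  · exact Or.inl h1
  right
  have hx : a i * α i ≠ 0 := mul_ne_zero hi hαi
  have hx1 : a i * α i - 1 ≠ 0 := sub_ne_zero.mpr h1
  have hd := h.derive (refl_single hK i) (μ := (a i * α i - 1) / (a i * α i)) (div_ne_zero hx1 hx)
  have hs := hd.supp_eq hq hK hno i
  have ha : ((Pi.single i (1 : F) : J → F) + (((a i * α i - 1) / (a i * α i) - 1) * (α ⬝ᵥ (Pi.single i (1 : F) : J → F))) • a) i = 0 := by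
    simp
    field_simp
    ring
  have := hs.mp ha
  simp at this
  field_simp at this
  linear_combination this

/-- The products after conjugating by a member of the torus. -/
theorem Refl.derived_value [Fintype F] (hq : 5 ≤ Fintype.card F) (hK : ∀ π d, monGL π d ∈ K)
    (hno : ¬ HasRoot K) {a α : J → F} (h : Refl K a α) {i j : J} (hij : i ≠ j) (hi : a i ≠ 0)
    (hj : a j ≠ 0) {μ : F} (hμ : μ ≠ 0) (hμ1 : μ ≠ 1) :
    (μ - 1) * (μ⁻¹ - 1) * ((a i * α i) * (a j * α j)) = 1 ∨
      2 * ((μ - 1) * (μ⁻¹ - 1) * ((a i * α i) * (a j * α j))) = 1 := by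
  have hαi : α i ≠ 0 := fun he => hi ((h.supp_eq hq hK hno i).mpr he)
  have hd := h.derive (refl_single hK i) hμ
  have hv := hd.value hq hK hno j (by simp [hij.symm, sub_ne_zero.mpr hμ1, hαi, hj])
  simp [hij.symm] at hv
  rcases hv with hv | hv
  · left; linear_combination hv
  · right; linear_combination hv

/-- A torus of pseudo-reflections with at least two supporting coordinates gives a root element. -/
theorem root_of_refl [Fintype F] (hq : 5 ≤ Fintype.card F) (hJ : 3 ≤ Fintype.card J)
    (hK : ∀ π d, monGL π d ∈ K) {a α : J → F} (h : Refl K a α) {i j : J} (hij : i ≠ j) (hi : a i ≠ 0)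
    (hj : a j ≠ 0) : HasRoot K := by
  classical
  by_contra hno
  rcases lt_or_ge (Fintype.card F) 7 with h7 | h7
  swap
  · -- many scalars
    set P := (a i * α i) * (a j * α j) with hP
    have hP0 : P ≠ 0 := mul_ne_zero (mul_ne_zero hi fun he => hi ((h.supp_eq hq hK hno i).mpr he))
      (mul_ne_zero hj fun he => hj ((h.supp_eq hq hK hno j).mpr he))
    set U : Finset F := Finset.univ.filter fun μ => μ ≠ 0 ∧ μ ≠ 1 with hU
    have himg : U.image (fun μ => (μ - 1) * (μ⁻¹ - 1) * P) ⊆ {1, 2⁻¹} := by
      intro x hx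
      obtain ⟨μ, hμ, rfl⟩ := Finset.mem_image.mp hx
      simp [hU] at hμ
      rcases h.derived_value hq hK hno hij hi hj hμ.1 hμ.2 with hv | hv
      · simp [hP, hv]
      · simp [hP, eq_inv_of_mul_eq_one_right hv]
    have hfib : ∀ x ∈ U.image (fun μ => (μ - 1) * (μ⁻¹ - 1) * P),
        (U.filter fun μ => (μ - 1) * (μ⁻¹ - 1) * P = x).card ≤ 2 := by
      intro x hx
      obtain ⟨μ₀, hμ₀, rfl⟩ := Finset.mem_image.mp hx
      refine (Finset.card_le_card (t := {μ₀, μ₀⁻¹}) fun μ hμ => ?_).trans Finset.card_le_two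
      simp [hU] at hμ hμ₀ ⊢
      obtain ⟨⟨hμ0, -⟩, hμe⟩ := hμ
      rcases hμe with hμe | hμe
      swap
      · exact absurd hμe hP0
      by_cases he : μ = μ₀
      · exact Or.inl he
      right
      obtain ⟨hμ₀', -⟩ := hμ₀
      field_simp at hμe
      have : (μ - μ₀) * (μ * μ₀ - 1) = 0 := by linear_combination (-1 : F) * hμe
      rcases mul_eq_zero.mp this with hz | hz
      · exact absurd (sub_eq_zero.mp hz) he
      · exact eq_inv_of_mul_eq_one_left (sub_eq_zero.mp hz)
    have h1 := Finset.card_le_mul_card_image U 2 hfib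
    have h2 : (U.image (fun μ => (μ - 1) * (μ⁻¹ - 1) * P)).card ≤ 2 :=
      (Finset.card_le_card himg).trans Finset.card_le_two
    have h3 : Fintype.card F ≤ U.card + 2 := by
      have hsub : (Finset.univ : Finset F) ⊆ U ∪ {0, 1} := fun x _ => by
        simp [hU]; tauto
      rw [← Finset.card_univ]
      exact (Finset.card_le_card hsub).trans ((Finset.card_union_le _ _).trans
        (Nat.add_le_add_left Finset.card_le_two _))
    omega
  · -- five scalars
    have hpp := FiniteField.isPrimePow_card F
    have hq5 : Fintype.card F = 5 := by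
      rcases (by omega : Fintype.card F = 5 ∨ Fintype.card F = 6) with h5 | h6
      · exact h5
      · rw [h6] at hpp
        exact absurd hpp (by
          rw [isPrimePow_nat_iff_bounded]
          decide)
    have h5 : (5 : F) = 0 := by
      have := Nat.cast_card_eq_zero F
      rw [hq5] at this
      exact_mod_cast this
    have n1 : (1 : F) ≠ 0 := one_ne_zero
    have n2 : (2 : F) ≠ 0 := fun he => n1 (by linear_combination h5 - 2 * he)
    have n3 : (3 : F) ≠ 0 := fun he => n1 (by linear_combination -h5 + 2 * he)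
    have n4 : (4 : F) ≠ 0 := fun he => n1 (by linear_combination h5 - he)
    have i2 : (2 : F)⁻¹ = 3 := inv_eq_of_mul_eq_one_right (by linear_combination h5)
    have i4 : (4 : F)⁻¹ = 4 := inv_eq_of_mul_eq_one_right (by linear_combination 3 * h5)
    have three : ∀ (b β : J → F), Refl K b β → ∀ k l, k ≠ l → b k ≠ 0 → b l ≠ 0 → b k * β k = 3 := by
      intro b β hb k l hkl hk hl
      rcases hb.value hq hK hno k hk with h1 | h1
      · exfalso
        rcases hb.value hq hK hno l hl with h2 | h2
        · rcases hb.derived_value hq hK hno hkl hk hl n2 (fun he => n1 (by linear_combination he))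
            with hv | hv <;> rw [h1, h2, i2] at hv
          · exact n1 (by linear_combination hv)
          · exact n3 (by linear_combination hv)
        · have h2' : b l * β l = 3 := by linear_combination 3 * h2 - (b l * β l) * h5
          rcases hb.derived_value hq hK hno hkl hk hl n4 (fun he => n3 (by linear_combination he))
            with hv | hv <;> rw [h1, h2', i4] at hv
          · exact n1 (by linear_combination hv - 5 * h5)
          · exact n3 (by linear_combination hv - 10 * h5)
      · linear_combination 3 * h1 - (b k * β k) * h5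
    have two : ∀ (b β : J → F), Refl K b β → ∀ k l o, k ≠ l → k ≠ o → l ≠ o → b k ≠ 0 → b l ≠ 0 → b o ≠ 0 →
        False := by
      intro b β hb k l o hkl hko hlo hk hl ho
      have xk := three b β hb k l hkl hk hl
      have xl := three b β hb l k hkl.symm hl hk
      have hβk : β k ≠ 0 := fun he => hk ((hb.supp_eq hq hK hno k).mpr he)
      have hd := hb.derive (refl_single hK k) n4
      have := three _ _ hd l o hlo (by simp [hkl.symm, hβk, hl]; exact fun he => n3 (by linear_combination he))
        (by simp [hko.symm, hβk, ho]; exact fun he => n3 (by linear_combination he))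
      simp [hkl.symm, i4] at this
      refine n2 ?_
      linear_combination (-1 : F) * this + 9 * (b k * β k) * xl + 27 * xk + 16 * h5
    have xi := three a α h i j hij hi hj
    obtain ⟨k, hk⟩ := Finset.exists_mem_notMem_of_card_lt_card (s := {i, j}) (t := Finset.univ)
      (lt_of_le_of_lt Finset.card_le_two (by rw [Finset.card_univ]; omega))
    simp at hk
    obtain ⟨hki, hkj⟩ := hk
    have hs : ∀ l, l ≠ i → l ≠ j → a l = 0 ∧ α l = 0 := by
      intro l hli hlj
      have : a l = 0 := by
        by_contra hl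
        exact two a α h i j l hij (Ne.symm hli) (Ne.symm hlj) hi hj hl
      exact ⟨this, (h.supp_eq hq hK hno l).mp this⟩
    have hsw := h.conj (hK (Equiv.swap j k) fun _ => 1)
    set a' := (monGL (Equiv.swap j k) (fun _ => (1 : Fˣ)) : Matrix J J F) *ᵥ a with ha'
    set α' := α ᵥ* (((monGL (Equiv.swap j k) (fun _ => (1 : Fˣ)))⁻¹ : GL J F) : Matrix J J F) with hα'
    have ha'v : ∀ l, a' l = a (Equiv.swap j k l) := fun l => by
      rw [ha', monGL_coe, monMat_mulVec]; simp [Equiv.symm_swap]
    have hdot : α ⬝ᵥ a' = 3 := by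
      rw [dotProduct, Finset.sum_eq_single i, ha'v, Equiv.swap_apply_of_ne_of_ne hij (Ne.symm hki)]
      · linear_combination xi
      · intro l _ hli
        by_cases hlj : l = j
        · rw [ha'v, hlj, Equiv.swap_apply_left, (hs k hki hkj).1, mul_zero]
        · rw [(hs l hli hlj).2, zero_mul]
      · simp
    have hd := h.derive hsw n2
    refine two _ _ hd i j k hij (Ne.symm hki) (Ne.symm hkj) ?_ ?_ ?_ <;>
      simp only [Pi.add_apply, Pi.smul_apply, smul_eq_mul, hdot, ha'v]
    · rw [Equiv.swap_apply_of_ne_of_ne hij (Ne.symm hki)]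
      intro he
      exact mul_ne_zero n4 hi (by linear_combination he)
    · rw [Equiv.swap_apply_left, (hs k hki hkj).1]
      intro he
      exact mul_ne_zero n3 hj (by linear_combination he)
    · rw [Equiv.swap_apply_right, (hs k hki hkj).1]
      simpa using hj

/-- All monomial matrices and a non-monomial one generate a group with a root element. -/
theorem root_of_not_isMono [Fintype F] (hq : 5 ≤ Fintype.card F) (hJ : 3 ≤ Fintype.card J)
    (hK : ∀ π d, monGL π d ∈ K) {g : GL J F} (hg : g ∈ K) (hm : ¬ IsMono (g : Matrix J J F)) :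
    HasRoot K := by
  simp only [IsMono, not_forall] at hm
  obtain ⟨k, i, j, hi, hj, hij⟩ := hm
  refine root_of_refl hq hJ hK ((refl_single hK k).conj hg) hij ?_ ?_
  · simpa using hi
  · simpa using hj

end Cfsg.Agent.H1.Decomp
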