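import Cfsg.Agent.H1.DecompCore

set_option autoImplicit false

/-!
A group containing the monomial matrices of determinant one and a non-monomial matrix fixing a coordinate
line contains a root element.
-/

namespace Cfsg.Agent.H1.Decomp

open Matrix

variable {ι : Type} [Fintype ι] [DecidableEq ι] {F : Type*} [Field F] {M : Subgroup (GL ι F)}

/-- `M` contains all monomial matrices of determinant one. -/
def ContainsMon (M : Subgroup (GL ι F)) : Prop :=
  ∀ π d, ((Equiv.Perm.sign π : ℤ) : F) * ∏ i, (d i : F) = 1 → monGL π d ∈ M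

theorem exists_three_other (h : 5 ≤ Fintype.card ι) (i j k : ι) :
    ∃ l, l ≠ i ∧ l ≠ j ∧ l ≠ k := by
  obtain ⟨l, hl⟩ := Finset.exists_mem_notMem_of_card_lt_card (s := {i, j, k}) (t := Finset.univ)
    (lt_of_le_of_lt Finset.card_le_three (by rw [Finset.card_univ]; omega))
  simp at hl
  exact ⟨l, hl.1, hl.2.1, hl.2.2⟩

theorem diag_pair_mem (hM : ContainsMon M) {j z : ι} (hjz : j ≠ z) {ν : F} (hν : ν ≠ 0) :
    ∃ d : ι → Fˣ, monGL 1 d ∈ M ∧ (d j : F) = ν ∧ (d z : F) = ν⁻¹ ∧ ∀ k, k ≠ j → k ≠ z → (d k : F) = 1 := by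
  refine ⟨Function.update (Function.update (fun _ => 1) j (Units.mk0 ν hν)) z (Units.mk0 ν⁻¹ (inv_ne_zero hν)),
    hM _ _ ?_, by simp [hjz], by simp, fun k h1 h2 => by simp [h1, h2]⟩
  rw [Fintype.prod_eq_mul j z hjz (fun k hk => by simp [hk.1, hk.2])]
  simp [hjz, hν]

theorem exists_not_unit_sq [Fintype F] (hq : 5 ≤ Fintype.card F) :
    ∃ μ : F, μ ≠ 0 ∧ μ ≠ 1 ∧ μ * μ ≠ 1 := by
  classical
  obtain ⟨μ, -, hμ⟩ := Finset.exists_mem_notMem_of_card_lt_card (s := ({0, 1, -1} : Finset F))
    (t := Finset.univ) (lt_of_le_of_lt Finset.card_le_three (by rw [Finset.card_univ]; omega))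
  simp at hμ
  refine ⟨μ, hμ.1, hμ.2.1, fun he => ?_⟩
  rcases mul_self_eq_one_iff.mp he with h | h
  exacts [hμ.2.1 h, hμ.2.2 h]

/-- A transvection whose centre is a coordinate vector gives a root element. -/
theorem root_of_row [Fintype F] (hq : 5 ≤ Fintype.card F) (hn : 5 ≤ Fintype.card ι) (hM : ContainsMon M)
    {p : ι} {r : ι → F} (h : Has M (Pi.single p 1) r) (hp : r p = 0) (hr : r ≠ 0) : HasRoot M := by
  obtain ⟨j, hj⟩ := Function.ne_iff.mp hr
  have hjp : j ≠ p := fun he => hj (he ▸ hp)
  obtain ⟨μ, hμ0, hμ1, -⟩ := exists_not_unit_sq hq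
  have step : ∀ (r : ι → F) (z : ι), z ≠ p → z ≠ j → Has M (Pi.single p 1) r → r p = 0 →
      Has M (Pi.single p 1)
        (fun k => if k = j then (μ⁻¹ - 1) * r j else if k = z then (μ - 1) * r z else 0) := by
    intro r z hzp hzj h hp
    obtain ⟨d, hd, hdj, hdz, hdo⟩ := diag_pair_mem hM hzj.symm hμ0
    have h' : Has M (Pi.single p 1) (fun k => r k * (d k : F)⁻¹) := by
      refine (h.conj_diag hd).congr (funext fun k => ?_) rfl
      by_cases hk : k = p
      · subst hk; simp [hdo k hjp.symm hzp.symm]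
      · simp [hk]
    refine (h.transvection_of_same_left h' (by simp [hp])).congr rfl (funext fun k => ?_)
    by_cases hkj : k = j
    · subst hkj; simp [hdj]; ring
    · by_cases hkz : k = z
      · subst hkz; simp [hdz, hkj]; ring
      · simp [hkj, hkz, hdo k hkj hkz]
  obtain ⟨z, hzp, hzj, -⟩ := exists_three_other hn p j j
  obtain ⟨z', hz'p, hz'j, hz'z⟩ := exists_three_other hn p j z
  have h1 := step r z hzp hzj h hp
  have h2 := step _ z' hz'p hz'j h1 (by simp [hjp.symm, hzp.symm])
  have h3 : Has M (Pi.single p 1) (((μ⁻¹ - 1) * ((μ⁻¹ - 1) * r j)) • Pi.single j 1) := by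
    refine h2.congr rfl (funext fun k => ?_)
    by_cases hkj : k = j
    · subst hkj; simp
    · by_cases hkz : k = z'
      · subst hkz; simp [hkj, hz'z]
      · simp [hkj, hkz]
  have hc : μ⁻¹ - 1 ≠ 0 := sub_ne_zero.mpr fun he => hμ1 (by simpa using he)
  refine ⟨p, j, hjp.symm, (μ⁻¹ - 1) * ((μ⁻¹ - 1) * r j), mul_ne_zero hc (mul_ne_zero hc hj),
    ((Has.shift _).2 h3).congr ?_ rfl⟩
  ext k
  by_cases hk : k = p
  · subst hk; simp
  · simp [hk]

theorem mul_sub_block {p : ι} {A : Matrix ι ι F} (hA : ∀ k, k ≠ p → A k p = 0) (B : Matrix ι ι F)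
    (a b : {k // k ≠ p}) :
    (A * B) a b = (A.submatrix (Subtype.val : {k // k ≠ p} → ι) (Subtype.val : {k // k ≠ p} → ι) *
      B.submatrix (Subtype.val : {k // k ≠ p} → ι) (Subtype.val : {k // k ≠ p} → ι)) a b := by
  simp only [Matrix.mul_apply, Matrix.submatrix_apply]
  rw [← Finset.sum_erase_add Finset.univ _ (Finset.mem_univ p), hA a a.2, zero_mul, add_zero]
  exact Finset.sum_subtype (Finset.univ.erase p) (p := fun k => k ≠ p) (by simp) _

/-- The group induced on the coordinates other than `p` by the stabiliser of the line `e p`. -/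
def lineQuot (M : Subgroup (GL ι F)) (p : ι) : Subgroup (GL {k // k ≠ p} F) where
  carrier := {h | ∃ x ∈ M, (∀ k, k ≠ p → (x : Matrix ι ι F) k p = 0) ∧
    (x : Matrix ι ι F).submatrix Subtype.val Subtype.val = (h : Matrix {k // k ≠ p} {k // k ≠ p} F)}
  one_mem' := ⟨1, M.one_mem, fun k hk => by simp [hk], by simp [Matrix.submatrix_one _ Subtype.val_injective]⟩
  mul_mem' := by
    rintro a b ⟨x, hx, hxp, hxa⟩ ⟨y, hy, hyp, hyb⟩
    refine ⟨x * y, M.mul_mem hx hy, fun k hk => ?_, ?_⟩
    · rw [Units.val_mul, Matrix.mul_apply]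
      refine Finset.sum_eq_zero fun l _ => ?_
      by_cases hl : l = p
      · subst hl; rw [hxp k hk, zero_mul]
      · rw [hyp l hl, mul_zero]
    · ext i j
      rw [Matrix.submatrix_apply, Units.val_mul, mul_sub_block hxp, hxa, hyb, Units.val_mul]
  inv_mem' := by
    rintro a ⟨x, hx, hxp, hxa⟩
    have hcol : ∀ k, k ≠ p → ((x⁻¹ : GL ι F) : Matrix ι ι F) k p = 0 := by
      intro k hk
      have e : (x : Matrix ι ι F) *ᵥ Pi.single p 1 = (x : Matrix ι ι F) p p • Pi.single p 1 := by
        ext l
        by_cases hl : l = p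
        · subst hl; simp
        · simp [hl, hxp l hl]
      have e' := congrArg (fun v => ((x⁻¹ : GL ι F) : Matrix ι ι F) *ᵥ v) e
      simp only [Cfsg.Agent.H98.gl_inv_mulVec, mulVec_smul] at e'
      have := congrFun e' k
      rw [Pi.single_eq_of_ne hk, Pi.smul_apply, mulVec_single_one, smul_eq_mul] at this
      rcases mul_eq_zero.mp this.symm with h | h
      · exfalso
        have := congrFun e' p
        simp [h] at this
      · exact h
    refine ⟨x⁻¹, M.inv_mem hx, hcol, ?_⟩
    symm
    refine Units.inv_eq_of_mul_eq_one_right (u := a) ?_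
    ext i j
    rw [← hxa, ← mul_sub_block hxp, ← Units.val_mul, mul_inv_cancel, Units.val_one]
    simp [Matrix.one_apply, Subtype.ext_iff]

theorem lineQuot_mon (hM : ContainsMon M) (p : ι) (π : Equiv.Perm {k // k ≠ p}) (d : {k // k ≠ p} → Fˣ) :
    monGL π d ∈ lineQuot M p := by
  classical
  obtain ⟨d', hd', hdet⟩ := exists_mon_det_one (F := F) (Equiv.Perm.ofSubtype π)
    (fun k => if h : k ≠ p then d ⟨k, h⟩ else 1) p
  refine ⟨_, hM _ _ hdet, fun k hk => ?_, ?_⟩
  · simp [monMat, hk, Equiv.Perm.ofSubtype_apply_of_not_mem π (show ¬ p ≠ p from not_not.mpr rfl)]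
  · ext a b
    simp [monMat, Equiv.Perm.ofSubtype_apply_coe, hd' b b.2, b.2, Subtype.ext_iff]

/-- An element which is elementary away from the fixed line gives a root element. -/
theorem root_of_near [Fintype F] (hq : 5 ≤ Fintype.card F) (hn : 5 ≤ Fintype.card ι) (hM : ContainsMon M)
    {p i j : ι} (hij : i ≠ j) (hip : i ≠ p) (hjp : j ≠ p) {c : F} {x : GL ι F} (hx : x ∈ M)
    (hcol : ∀ k, k ≠ p → (x : Matrix ι ι F) k p = 0)
    (hsub : ∀ a b, a ≠ p → b ≠ p → (x : Matrix ι ι F) a b =
      (1 + vecMulVec (Pi.single i c) (Pi.single j 1) : Matrix ι ι F) a b)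
    (hne : c ≠ 0 ∨ ∃ k, k ≠ p ∧ (x : Matrix ι ι F) p k ≠ 0) : HasRoot M := by
  obtain ⟨l, hlp, hli, hlj⟩ := exists_three_other hn p i j
  obtain ⟨μ, hμ0, hμ1, hμ2⟩ := exists_not_unit_sq hq
  by_cases hr : ∃ k, k ≠ p ∧ (x : Matrix ι ι F) p k ≠ 0
  · obtain ⟨k₀, hk₀, hxk₀⟩ := hr
    obtain ⟨d, hd, hdp, hdl, hdo⟩ := diag_pair_mem hM hlp.symm hμ0
    set D := monGL (1 : Equiv.Perm ι) d
    have hy : ∀ a b, ((D * x * D⁻¹ : GL ι F) : Matrix ι ι F) a b = (d a : F) * (x : Matrix ι ι F) a b * (d b : F)⁻¹ := by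
      intro a b
      rw [Units.val_mul, Units.val_mul, monGL_inv_coe, monGL_coe, show (1 : Equiv.Perm ι).symm = 1 from rfl,
        one_monMat_apply, one_monMat_apply, Matrix.mul_diagonal, Matrix.diagonal_mul, Units.val_inv_eq_inv_val]
      rfl
    set y := D * x * D⁻¹
    have hyM : y ∈ M := M.mul_mem (M.mul_mem hd hx) (M.inv_mem hd)
    have hycol : ∀ k, k ≠ p → (y : Matrix ι ι F) k p = 0 := fun k hk => by rw [hy, hcol k hk]; simp
    have hysub : ∀ a b, a ≠ p → b ≠ p → (y : Matrix ι ι F) a b = (x : Matrix ι ι F) a b := by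
      intro a b ha hb
      rw [hy, hsub a b ha hb]
      by_cases hab : a = b
      · subst hab; field_simp
      · by_cases h : a = i ∧ b = j
        · obtain ⟨rfl, rfl⟩ := h
          rw [hdo a hip hli.symm, hdo b hjp hlj.symm]; simp
        · simp [Matrix.one_apply, hab, vecMulVec_apply, Pi.single_apply]
          by_cases h1 : b = j <;> by_cases h2 : a = i <;> simp [h1, h2] at h ⊢
    have hypp : (y : Matrix ι ι F) p p = (x : Matrix ι ι F) p p := by rw [hy]; field_simp
    -- the quotient `y x⁻¹`
    have hu : Has M (Pi.single p 1) (fun b => ((y * x⁻¹ : GL ι F) : Matrix ι ι F) p b -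
        (1 : Matrix ι ι F) p b) := by
      refine ⟨y * x⁻¹, M.mul_mem hyM (M.inv_mem hx), ?_⟩
      have hrow : ∀ a, a ≠ p → ∀ b, ((y * x⁻¹ : GL ι F) : Matrix ι ι F) a b = (1 : Matrix ι ι F) a b := by
        intro a ha b
        have hrow' : ∀ k, (y : Matrix ι ι F) a k = (x : Matrix ι ι F) a k := fun k => by
          by_cases hk : k = p
          · subst hk; rw [hycol a ha, hcol a ha]
          · exact hysub a k ha hk
        calc ((y * x⁻¹ : GL ι F) : Matrix ι ι F) a b
            = ((x * x⁻¹ : GL ι F) : Matrix ι ι F) a b := by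
              simp only [Units.val_mul, Matrix.mul_apply, hrow']
          _ = _ := by rw [mul_inv_cancel, Units.val_one]
      ext a b
      rw [Matrix.add_apply, vecMulVec_apply]
      by_cases ha : a = p
      · subst ha; simp
      · simp [ha, hrow a ha b]
    refine root_of_row hq hn hM hu ?_ ?_
    · -- the entry at `p`
      have hxp0 : (x : Matrix ι ι F) p p ≠ 0 := by
        intro h0
        have := Cfsg.Agent.H98.gl_mulVec_injective x (a₁ := Pi.single p 1) (a₂ := 0) (by
          funext k
          by_cases hk : k = p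
          · subst hk; simpa using h0
          · simpa using hcol k hk)
        simpa using congrFun this p
      have : ((y * x⁻¹ : GL ι F) : Matrix ι ι F) p p * (x : Matrix ι ι F) p p = (y : Matrix ι ι F) p p := by
        conv_rhs => rw [show y = (y * x⁻¹) * x from (inv_mul_cancel_right y x).symm, Units.val_mul, Matrix.mul_apply]
        rw [Finset.sum_eq_single p (fun k _ hk => by rw [hcol k hk, mul_zero]) (by simp)]
      rw [hypp] at this
      have h1 : ((y * x⁻¹ : GL ι F) : Matrix ι ι F) p p = 1 := mul_right_cancel₀ hxp0 (by rw [this, one_mul])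
      simp [h1]
    · intro hz
      have heq : (y * x⁻¹ : GL ι F) = 1 := by
        obtain ⟨g, -, eg⟩ := hu
        refine Units.ext ?_
        ext a b
        by_cases ha : a = p
        · subst ha
          have := congrFun hz b
          simpa [sub_eq_zero] using this
        · have hab : ((y * x⁻¹ : GL ι F) : Matrix ι ι F) a b = (1 : Matrix ι ι F) a b := by
            have hrow' : ∀ k, (y : Matrix ι ι F) a k = (x : Matrix ι ι F) a k := fun k => by
              by_cases hk : k = p
              · subst hk; rw [hycol a ha, hcol a ha]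
              · exact hysub a k ha hk
            calc ((y * x⁻¹ : GL ι F) : Matrix ι ι F) a b
                = ((x * x⁻¹ : GL ι F) : Matrix ι ι F) a b := by
                  simp only [Units.val_mul, Matrix.mul_apply, hrow']
              _ = _ := by rw [mul_inv_cancel, Units.val_one]
          rw [hab, Units.val_one]
      rw [mul_inv_eq_one] at heq
      have := hy p k₀
      rw [heq, hdp] at this
      by_cases hk : k₀ = l
      · subst hk
        rw [hdl, inv_inv] at this
        refine hμ2 (mul_right_cancel₀ hxk₀ ?_)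
        linear_combination (-1 : F) * this
      · rw [hdo k₀ hk₀ hk, inv_one, mul_one] at this
        exact hμ1 (mul_right_cancel₀ hxk₀ (by linear_combination (-1 : F) * this))
  · -- no entries in the row `p`
    push Not at hr
    have hc : c ≠ 0 := hne.resolve_right fun ⟨k, hk, h⟩ => h (hr k hk)
    obtain ⟨d, hd, hdj, hdl, hdo⟩ := diag_pair_mem hM hlj.symm hμ0
    set D := monGL (1 : Equiv.Perm ι) d
    refine ⟨i, j, hij, c * (μ⁻¹ - 1), mul_ne_zero hc (sub_ne_zero.mpr fun he => hμ1 (by simpa using he)),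
      D * x * D⁻¹ * x⁻¹, M.mul_mem (M.mul_mem (M.mul_mem hd hx) (M.inv_mem hd)) (M.inv_mem hx), ?_⟩
    have hxe : ∀ a b, (x : Matrix ι ι F) a b = if a = b then (if a = p then (x : Matrix ι ι F) p p else 1)
        else if a = i ∧ b = j then c else 0 := by
      intro a b
      by_cases ha : a = p
      · subst ha
        by_cases hb : b = a
        · subst hb; simp
        · rw [hr b hb, if_neg (Ne.symm hb), if_neg fun h => hip h.1.symm]
      · by_cases hb : b = p
        · subst hb; rw [hcol a ha, if_neg ha, if_neg fun h => hjp h.2.symm]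
        · rw [hsub a b ha hb]
          by_cases hab : a = b
          · subst hab
            simp [ha, vecMulVec_apply, Pi.single_apply]
            exact fun h1 h2 => absurd (h2.symm.trans h1) hij
          · simp only [Matrix.add_apply, Matrix.one_apply, hab, if_false, vecMulVec_apply, Pi.single_apply,
              zero_add]
            by_cases h1 : a = i <;> by_cases h2 : b = j <;> simp [h1, h2]
    have key : ((D * x * D⁻¹ : GL ι F) : Matrix ι ι F) =
        (1 + vecMulVec (Pi.single i (c * (μ⁻¹ - 1))) (Pi.single j 1)) * (x : Matrix ι ι F) := by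
      ext a b
      rw [Units.val_mul, Units.val_mul, monGL_inv_coe, monGL_coe, show (1 : Equiv.Perm ι).symm = 1 from rfl,
        one_monMat_apply, one_monMat_apply, Matrix.mul_diagonal, Matrix.diagonal_mul, Units.val_inv_eq_inv_val,
        Matrix.add_mul, Matrix.one_mul, vecMulVec_mul, Matrix.add_apply, vecMulVec_apply, single_one_vecMul]
      simp only [Equiv.Perm.one_apply, Matrix.row_apply]
      rw [hxe a b, hxe j b]
      by_cases hab : a = b
      · subst hab
        by_cases hai : a = i
        · subst hai; simp [hij.symm, Ne.symm hij, hip]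
        · simp [hai]
          by_cases hap : a = p
          · simp [hap]; field_simp
          · simp [hap]
      · by_cases h : a = i ∧ b = j
        · obtain ⟨rfl, rfl⟩ := h
          simp [hab, hdj, hdo a hij hli.symm, hjp]
          ring
        · simp only [hab, h, if_false, mul_zero, zero_mul]
          by_cases hai : a = i
          · subst hai
            have hbj : b ≠ j := fun he => h ⟨rfl, he⟩
            simp [Ne.symm hbj, Ne.symm hij]
          · simp [hai]
    rw [Units.val_mul, key, Matrix.mul_assoc, ← Units.val_mul, mul_inv_cancel, Units.val_one, Matrix.mul_one]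

/-- A non-monomial element fixing a coordinate line gives a root element. -/
theorem root_of_fixed_line [Fintype F] (hq : 5 ≤ Fintype.card F) (hn : 5 ≤ Fintype.card ι)
    (hM : ContainsMon M) {g : GL ι F} (hg : g ∈ M) (hgm : ¬ IsMono (g : Matrix ι ι F)) {p : ι}
    (hcol : ∀ k, k ≠ p → (g : Matrix ι ι F) k p = 0) : HasRoot M := by
  classical
  set A := (g : Matrix ι ι F).submatrix (Subtype.val : {k // k ≠ p} → ι) (Subtype.val : {k // k ≠ p} → ι) with hA
  have hdet : IsUnit A := by
    refine IsUnit.of_mul_eq_one (((g⁻¹ : GL ι F) : Matrix ι ι F).submatrix (Subtype.val : {k // k ≠ p} → ι)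
      (Subtype.val : {k // k ≠ p} → ι)) ?_
    ext a b
    rw [hA, ← mul_sub_block hcol, ← Units.val_mul, mul_inv_cancel, Units.val_one]
    simp [Matrix.one_apply, Subtype.ext_iff]
  have hh : hdet.unit ∈ lineQuot M p := ⟨g, hg, hcol, hdet.unit_spec.symm⟩
  have hJ : 3 ≤ Fintype.card {k // k ≠ p} := by
    rw [Fintype.card_subtype_compl, Fintype.card_subtype_eq]
    omega
  by_cases hAm : IsMono (hdet.unit : Matrix {k // k ≠ p} {k // k ≠ p} F)
  · -- monomial away from the line
    obtain ⟨π, d, hπd⟩ := exists_monGL_of_isMono hAm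
    obtain ⟨d', hd', hdet'⟩ := exists_mon_det_one (F := F) (Equiv.Perm.ofSubtype π)
      (fun k => if h : k ≠ p then d ⟨k, h⟩ else 1) p
    set m := monGL (Equiv.Perm.ofSubtype π) d' with hm
    have hπp : Equiv.Perm.ofSubtype π p = p :=
      Equiv.Perm.ofSubtype_apply_of_not_mem π (not_not.mpr rfl)
    have hmcol : ∀ k, k ≠ p → (m : Matrix ι ι F) k p = 0 := fun k hk => by simp [hm, monMat, hk, hπp]
    have hmi : ∀ k, k ≠ p → ((m⁻¹ : GL ι F) : Matrix ι ι F) k p = 0 := by
      intro k hk
      rw [hm, monGL_inv_coe]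
      have : (Equiv.Perm.ofSubtype π).symm p = p := by rw [Equiv.symm_apply_eq, hπp]
      simp [monMat, hk, this]
    have hmM : m ∈ M := hM _ _ hdet'
    set u := m⁻¹ * g with hu
    have hum : ¬ IsMono (u : Matrix ι ι F) := fun hmono => hgm (by
      have := IsMono.mul (a := m) (b := u) (isMono_monMat (Equiv.Perm.ofSubtype π) (fun i => (d' i : F)) : IsMono (m : Matrix ι ι F)) hmono
      simpa [hu] using this)
    have hucol : ∀ k, k ≠ p → (u : Matrix ι ι F) k p = 0 := by
      intro k hk
      rw [hu, Units.val_mul, Matrix.mul_apply]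
      refine Finset.sum_eq_zero fun l _ => ?_
      by_cases hl : l = p
      · subst hl; rw [hmi k hk, zero_mul]
      · rw [hcol l hl, mul_zero]
    have hAm' : (m : Matrix ι ι F).submatrix (Subtype.val : {k // k ≠ p} → ι)
        (Subtype.val : {k // k ≠ p} → ι) = A := by
      rw [← hdet.unit_spec, hπd]
      ext x y
      simp [hm, monMat, Equiv.Perm.ofSubtype_apply_coe, hd' y y.2, y.2, Subtype.ext_iff]
    have husub : ∀ a b, a ≠ p → b ≠ p → (u : Matrix ι ι F) a b = (1 : Matrix ι ι F) a b := by
      intro a b ha hb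
      rw [hu, Units.val_mul]
      change _ = (1 : Matrix ι ι F) (⟨a, ha⟩ : {k // k ≠ p}).val (⟨b, hb⟩ : {k // k ≠ p}).val
      rw [← Units.val_one, ← inv_mul_cancel m, Units.val_mul, mul_sub_block hmi _ ⟨a, ha⟩ ⟨b, hb⟩,
        mul_sub_block hmi _ ⟨a, ha⟩ ⟨b, hb⟩]
      rw [← hA, ← hAm']
    obtain ⟨i, hip, -, -⟩ := exists_three_other hn p p p
    obtain ⟨j, hjp, hji, -⟩ := exists_three_other hn p i i
    refine root_of_near hq hn hM (c := 0) hji.symm hip hjp (x := u) (M.mul_mem (M.inv_mem hmM) hg) hucol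
      (fun a b ha hb => by rw [husub a b ha hb]; simp) (Or.inr ?_)
    by_contra hr
    push Not at hr
    refine hum fun b k k' hk hk' => ?_
    have aux : ∀ k, (u : Matrix ι ι F) k b ≠ 0 → k = b := by
      intro k hk
      by_contra hne
      by_cases hkp : k = p
      · subst hkp; exact hk (hr b (Ne.symm hne))
      · by_cases hbp : b = p
        · subst hbp; exact hk (hucol k hkp)
        · exact hk (by rw [husub k b hkp hbp, Matrix.one_apply_ne hne])
    rw [aux k hk, aux k' hk']
  · -- the induced group contains a root element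
    obtain ⟨i, j, hij, c, hc, r, ⟨x, hx, hxp, hxs⟩, hr⟩ :=
      root_of_not_isMono hq hJ (lineQuot_mon hM p) hh hAm
    refine root_of_near hq hn hM (c := c) (i := i) (j := j) (fun he => hij (Subtype.ext he)) i.2 j.2 hx hxp
      (fun a b ha hb => ?_) (Or.inl hc)
    have := congrFun (congrFun (hxs.trans hr) ⟨a, ha⟩) ⟨b, hb⟩
    rw [Matrix.submatrix_apply] at this
    rw [this]
    simp [Matrix.one_apply, vecMulVec_apply, Pi.single_apply, Subtype.ext_iff]

end Cfsg.Agent.H1.Decomp
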