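import Cfsg.Agent.H1.DecompFix

set_option autoImplicit false

/-!
A group containing the monomial matrices of determinant one and a non-monomial matrix contains a root
element (at least 10 coordinates, at least 5 scalars). Monomial elements fixing a column of `g` are used to
produce first a non-monomial element with a short column and then one fixing a coordinate line.
-/

namespace Cfsg.Agent.H1.Decomp

open Matrix

variable {ι : Type} [Fintype ι] [DecidableEq ι] {F : Type*} [Field F] {M : Subgroup (GL ι F)}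

/-- A non-monomial element one of whose columns is a multiple of a coordinate vector. -/
theorem root_of_singleton_col [Fintype F] (hq : 5 ≤ Fintype.card F) (hn : 5 ≤ Fintype.card ι)
    (hM : ContainsMon M) {g : GL ι F} (hg : g ∈ M) (hgm : ¬ IsMono (g : Matrix ι ι F)) {i k : ι}
    (hcol : ∀ l, l ≠ k → (g : Matrix ι ι F) l i = 0) : HasRoot M := by
  obtain ⟨l, hlk, hli, -⟩ := exists_three_other hn k i i
  obtain ⟨d, -, hdet⟩ := exists_mon_det_one (F := F) (Equiv.swap k i) (fun _ => 1) l
  set m := monGL (Equiv.swap k i) d with hm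
  have hmM : m ∈ M := hM _ _ hdet
  refine root_of_fixed_line hq hn hM (g := m * g) (p := i) (M.mul_mem hmM hg) (fun h => hgm ?_) fun a ha => ?_
  · have h2 := IsMono.mul (a := m⁻¹) (b := m * g)
      (IsMono.inv (a := m) (by rw [hm, monGL_coe]; exact isMono_monMat _ _)) h
    simpa using h2
  · rw [Units.val_mul, Matrix.mul_apply]
    refine Finset.sum_eq_zero fun b _ => ?_
    by_cases hb : b = k
    · subst hb; simp [hm, monMat, ha]
    · rw [hcol b hb, mul_zero]

theorem monMat_apply_eq_zero {π : Equiv.Perm ι} {d : ι → F} {k i : ι} (h : k ≠ π i) : monMat π d k i = 0 := by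
  simp [monMat, h]

/-- A monomial matrix close to the identity moves few coordinate vectors. -/
theorem moved_card_le {y : Matrix ι ι F} (hy : IsMono y) {W : Submodule F (ι → F)}
    (hW : Module.finrank F W ≤ 2) (hAW : ∀ i, (fun a => (y - 1) a i) ∈ W) :
    ∃ Mv : Finset ι, Mv.card ≤ 4 ∧ (∀ i, i ∈ Mv ↔ ¬ ∀ a, (y - 1) a i = 0) := by
  classical
  refine ⟨Finset.univ.filter fun i => ¬ ∀ a, (y - 1) a i = 0, ?_, fun i => by simp⟩
  by_contra hc
  set Mv := Finset.univ.filter fun i => ¬ (∀ a, (y - 1) a i = 0) with hMv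
  -- the support of a column of `y - 1`
  set S : ι → Finset ι := fun i => {i} ∪ Finset.univ.filter (fun a => y a i ≠ 0) with hS
  have hScard : ∀ i, (S i).card ≤ 2 := fun i => (Finset.card_union_le _ _).trans (by
    have : (Finset.univ.filter fun a => y a i ≠ 0).card ≤ 1 := Finset.card_le_one.mpr fun a ha b hb => by
      simp at ha hb; exact hy i a b ha hb
    rw [Finset.card_singleton]; omega)
  have hout : ∀ i a, a ∉ S i → (y - 1) a i = 0 := by
    intro i a ha
    simp [hS] at ha
    simp [ha.1, ha.2]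
  have hdiag : ∀ i ∈ Mv, (y - 1) i i ≠ 0 := by
    intro i hi
    simp [hMv] at hi
    obtain ⟨a, ha⟩ := hi
    by_cases hai : a = i
    · subst hai; simpa using ha
    · simp [hai] at ha
      have : y i i = 0 := by
        by_contra h; exact hai (hy i a i ha h)
      simp [this]
  have hcard : 4 < Mv.card := not_le.mp hc
  obtain ⟨i₁, hi₁⟩ : Mv.Nonempty := Finset.card_pos.mp (by omega)
  obtain ⟨i₂, hi₂, hi₂'⟩ := Finset.exists_mem_notMem_of_card_lt_card (s := S i₁) (t := Mv)
    (lt_of_le_of_lt (hScard i₁) (by omega))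
  obtain ⟨i₃, hi₃, hi₃'⟩ := Finset.exists_mem_notMem_of_card_lt_card (s := S i₁ ∪ S i₂) (t := Mv)
    (lt_of_le_of_lt (Finset.card_union_le _ _) (by have := hScard i₁; have := hScard i₂; omega))
  simp at hi₃'
  have hli : LinearIndependent F ![(⟨_, hAW i₁⟩ : W), ⟨_, hAW i₂⟩, ⟨_, hAW i₃⟩] := by
    rw [Fintype.linearIndependent_iff]
    intro c hc0
    have h : ∀ a, c 0 * (y - 1) a i₁ + c 1 * (y - 1) a i₂ + c 2 * (y - 1) a i₃ = 0 := fun a => by
      have := congrFun (congrArg Subtype.val hc0) a
      simpa [Fin.sum_univ_three] using this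
    have h3 := h i₃
    rw [hout i₁ i₃ hi₃'.1, hout i₂ i₃ hi₃'.2, mul_zero, mul_zero, zero_add, zero_add] at h3
    have c3 : c 2 = 0 := (mul_eq_zero.mp h3).resolve_right (hdiag i₃ hi₃)
    have h2 := h i₂
    rw [hout i₁ i₂ hi₂', c3, mul_zero, zero_add, zero_mul, add_zero] at h2
    have c2 : c 1 = 0 := (mul_eq_zero.mp h2).resolve_right (hdiag i₂ hi₂)
    have h1 := h i₁
    rw [c2, c3, zero_mul, zero_mul, add_zero, add_zero] at h1
    have c1 : c 0 = 0 := (mul_eq_zero.mp h1).resolve_right (hdiag i₁ hi₁)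
    intro j
    fin_cases j <;> assumption
  have := hli.fintype_card_le_finrank
  simp at this
  omega

/-- Weights on a triple of the support give vectors carried into four coordinates. -/
theorem triple_image [Fintype F] (hq : 5 ≤ Fintype.card F) (hn : 5 ≤ Fintype.card ι) (hM : ContainsMon M)
    (hno : ¬ HasRoot M) {g : GL ι F} (hg : g ∈ M) {k a b c : ι} (hab : a ≠ b) (hac : a ≠ c) (hbc : b ≠ c)
    (ha : (g : Matrix ι ι F) a k ≠ 0) (hb : (g : Matrix ι ι F) b k ≠ 0) (hc : (g : Matrix ι ι F) c k ≠ 0) :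
    ∃ Mv : Finset ι, Mv.card ≤ 4 ∧ k ∉ Mv ∧ ∀ (wa wb wc : F), wa + wb + wc = 0 → ∀ l, l ∉ Mv →
      (((g⁻¹ : GL ι F) : Matrix ι ι F) *ᵥ
        (Pi.single a (wa * (g : Matrix ι ι F) a k) + Pi.single b (wb * (g : Matrix ι ι F) b k) +
          Pi.single c (wc * (g : Matrix ι ι F) c k))) l = 0 := by
  classical
  set xa := (g : Matrix ι ι F) a k
  set xb := (g : Matrix ι ι F) b k
  set xc := (g : Matrix ι ι F) c k
  set π : Equiv.Perm ι := Equiv.swap a b * Equiv.swap b c with hπ
  have hπa : π a = b := by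
    simp [hπ, Equiv.Perm.mul_apply, Equiv.swap_apply_of_ne_of_ne hab hac]
  have hπb : π b = c := by
    simp [hπ, Equiv.Perm.mul_apply, Equiv.swap_apply_of_ne_of_ne hac.symm hbc.symm]
  have hπc : π c = a := by simp [hπ, Equiv.Perm.mul_apply]
  have hπo : ∀ l, l ≠ a → l ≠ b → l ≠ c → π l = l := by
    intro l h1 h2 h3
    simp [hπ, Equiv.Perm.mul_apply, Equiv.swap_apply_of_ne_of_ne, h1, h2, h3]
  set d : ι → Fˣ := fun l => if l = a then Units.mk0 (xb / xa) (div_ne_zero hb ha) else
    if l = b then Units.mk0 (xc / xb) (div_ne_zero hc hb) else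
    if l = c then Units.mk0 (xa / xc) (div_ne_zero ha hc) else 1 with hd
  have hdet : ((Equiv.Perm.sign π : ℤ) : F) * ∏ i, (d i : F) = 1 := by
    rw [show Equiv.Perm.sign π = 1 by simp [hπ, Equiv.Perm.sign_swap hab, Equiv.Perm.sign_swap hbc]]
    rw [← Finset.prod_subset (Finset.subset_univ {a, b, c}) (fun l _ hl => by simp at hl; simp [hd, hl]),
      Finset.prod_insert (by simp [hab, hac]), Finset.prod_insert (by simp [hbc]), Finset.prod_singleton]
    simp [hd, hab.symm, hac.symm, hbc.symm]
    field_simp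
  set P := monGL π d with hP
  have hPM : P ∈ M := hM _ _ hdet
  set y := g⁻¹ * P * g with hy
  have hyM : y ∈ M := M.mul_mem (M.mul_mem (M.inv_mem hg) hPM) hg
  have hPv : ∀ (v : ι → F) (l : ι), ((P : Matrix ι ι F) *ᵥ v) l = (d (π.symm l) : F) * v (π.symm l) := fun v l => by
    rw [hP, monGL_coe, monMat_mulVec]
  have hPx : (P : Matrix ι ι F) *ᵥ ((g : Matrix ι ι F) *ᵥ Pi.single k 1) = (g : Matrix ι ι F) *ᵥ Pi.single k 1 := by
    ext l
    rw [hPv, mulVec_single_one]
    obtain ⟨m, rfl⟩ := π.surjective l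
    rw [Equiv.symm_apply_apply]
    change (d m : F) * (g : Matrix ι ι F) m k = (g : Matrix ι ι F) (π m) k
    by_cases h1 : m = a
    · subst h1; rw [hπa]; simp [hd, xa, xb]; exact div_mul_cancel₀ _ ha
    by_cases h2 : m = b
    · subst h2; rw [hπb]; simp [hd, h1, xb, xc]; exact div_mul_cancel₀ _ hb
    by_cases h3 : m = c
    · subst h3; rw [hπc]; simp [hd, h1, h2, xa, xc]; exact div_mul_cancel₀ _ hc
    rw [hπo m h1 h2 h3]; simp [hd, h1, h2, h3]
  have hyk : ∀ l, (y : Matrix ι ι F) l k = (1 : Matrix ι ι F) l k := by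
    intro l
    have : (y : Matrix ι ι F) *ᵥ Pi.single k 1 = Pi.single k 1 := by
      rw [hy, Units.val_mul, Units.val_mul, ← mulVec_mulVec, ← mulVec_mulVec, hPx,
        Cfsg.Agent.H98.gl_inv_mulVec]
    have := congrFun this l
    simpa [Matrix.one_apply, Pi.single_apply] using this
  have hmono : IsMono (y : Matrix ι ι F) := by
    by_contra hm
    exact hno (root_of_fixed_line hq hn hM hyM hm (p := k) fun l hl => by rw [hyk, Matrix.one_apply_ne hl])
  set Wgen : Set (ι → F) := {((g⁻¹ : GL ι F) : Matrix ι ι F) *ᵥ (Pi.single b xb - Pi.single a xa),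
    ((g⁻¹ : GL ι F) : Matrix ι ι F) *ᵥ (Pi.single c xc - Pi.single b xb)} with hWgen
  have hP1 : ∀ v : ι → F, ∃ s t : F, (P : Matrix ι ι F) *ᵥ v - v =
      s • (Pi.single b xb - Pi.single a xa) + t • (Pi.single c xc - Pi.single b xb) := by
    intro v
    refine ⟨v a / xa - v c / xc, v b / xb - v c / xc, ?_⟩
    ext l
    obtain ⟨m, rfl⟩ := π.surjective l
    rw [Pi.sub_apply, hPv, Equiv.symm_apply_apply]
    by_cases h1 : m = a
    · subst h1; rw [hπa]; simp [hd, hab.symm, hbc]; field_simp; ring
    by_cases h2 : m = b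
    · subst h2; rw [hπb]; simp [hd, h1, hac.symm, hbc.symm]; field_simp
    by_cases h3 : m = c
    · subst h3; rw [hπc]; simp [hd, h1, h2, hab, hac]; field_simp; ring
    rw [hπo m h1 h2 h3]; simp [hd, h1, h2, h3]
  have hyv : ∀ v : ι → F, ((y : Matrix ι ι F) - 1) *ᵥ v =
      ((g⁻¹ : GL ι F) : Matrix ι ι F) *ᵥ ((P : Matrix ι ι F) *ᵥ ((g : Matrix ι ι F) *ᵥ v) - (g : Matrix ι ι F) *ᵥ v) := by
    intro v
    rw [sub_mulVec, one_mulVec, mulVec_sub, Cfsg.Agent.H98.gl_inv_mulVec, hy, Units.val_mul, Units.val_mul,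
      ← mulVec_mulVec, ← mulVec_mulVec]
  have hfin : Module.finrank F (Submodule.span F Wgen) ≤ 2 := by
    refine (finrank_span_le_card _).trans ?_
    simp only [hWgen, Set.toFinset_insert, Set.toFinset_singleton]
    exact Finset.card_le_two
  have hAW : ∀ i, (fun l => ((y : Matrix ι ι F) - 1) l i) ∈ Submodule.span F Wgen := by
    intro i
    have : (fun l => ((y : Matrix ι ι F) - 1) l i) = ((y : Matrix ι ι F) - 1) *ᵥ Pi.single i 1 := by
      rw [mulVec_single_one]; rfl
    rw [this, hyv]
    obtain ⟨s, t, e⟩ := hP1 ((g : Matrix ι ι F) *ᵥ Pi.single i 1)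
    rw [e, mulVec_add, mulVec_smul, mulVec_smul]
    exact add_mem (Submodule.smul_mem _ _ (Submodule.subset_span (by simp [hWgen])))
      (Submodule.smul_mem _ _ (Submodule.subset_span (by simp [hWgen])))
  obtain ⟨Mv, hMvc, hMv⟩ := moved_card_le hmono hfin hAW
  refine ⟨Mv, hMvc, ?_, ?_⟩
  · rw [hMv, not_not]
    intro l
    simp [hyk]
  intro wa wb wc hw l hl
  rw [hMv, not_not] at hl
  -- the vector lies in the image of `y - 1`
  have hvec : Pi.single a (wa * xa) + Pi.single b (wb * xb) + Pi.single c (wc * xc) =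
      (P : Matrix ι ι F) *ᵥ (Pi.single a (-wa * xa) + Pi.single b ((wc) * xb)) -
        (Pi.single a (-wa * xa) + Pi.single b ((wc) * xb)) := by
    ext m
    obtain ⟨m, rfl⟩ := π.surjective m
    rw [Pi.sub_apply, hPv, Equiv.symm_apply_apply]
    by_cases h1 : m = a
    · subst h1; rw [hπa]; simp [hd, hab.symm, hbc, hab]; field_simp; linear_combination hw
    by_cases h2 : m = b
    · subst h2; rw [hπb]; simp [hd, h1, hac.symm, hbc.symm]; field_simp
    by_cases h3 : m = c
    · subst h3; rw [hπc]; simp [hd, h1, h2, hab, hac]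
    rw [hπo m h1 h2 h3]; simp [hd, h1, h2, h3]
  rw [hvec]
  set v := (Pi.single a (-wa * xa) + Pi.single b ((wc) * xb) : ι → F)
  have := hyv (((g⁻¹ : GL ι F) : Matrix ι ι F) *ᵥ v)
  rw [Cfsg.Agent.H98.gl_mulVec_inv] at this
  rw [← this]
  -- rows outside the moved coordinates vanish
  refine Finset.sum_eq_zero fun i _ => ?_
  by_cases hli : l = i
  · subst hli; simp [hl l]
  · by_cases hyl : (y : Matrix ι ι F) l i = 0
    · simp [hyl, hli]
    · exfalso
      -- two monomial columns with the same row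
      obtain ⟨σ, e, hσ⟩ := exists_monGL_of_isMono hmono
      have hli' : l = σ i := by
        by_contra h; rw [hσ, monGL_coe, monMat_apply_eq_zero h] at hyl; exact hyl rfl
      have := hl (σ l)
      rw [Matrix.sub_apply, hσ, monGL_coe] at this
      by_cases hσl : σ l = l
      · exact hli (σ.injective (hσl.trans hli'))
      · simp [monMat, hσl] at this

/-- A short proper column gives a root element. -/
theorem root_of_short_col' [Fintype F] (hq : 5 ≤ Fintype.card F) (hn : 10 ≤ Fintype.card ι) (hM : ContainsMon M)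
    {g : GL ι F} (hg : g ∈ M) (hgm : ¬ IsMono (g : Matrix ι ι F)) {p : ι} {Z : Finset ι} (hZ : 2 ≤ Z.card)
    (hZ5 : Fintype.card F = 5 → 5 ≤ Z.card) (hz : ∀ l ∈ Z, (g : Matrix ι ι F) l p = 0) : HasRoot M := by
  classical
  by_contra hno
  have hn5 : 5 ≤ Fintype.card ι := by omega
  -- conjugates of diagonal elements fixing the column are monomial
  have hconj : ∀ d : ι → Fˣ, (∏ i, (d i : F)) = 1 → (∀ l, l ∉ Z → d l = 1) →
      IsMono ((g⁻¹ * monGL 1 d * g : GL ι F) : Matrix ι ι F) := by
    intro d hd hdZ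
    by_contra hm
    have hdM : monGL 1 d ∈ M := hM _ _ (by simp [hd])
    refine hno (root_of_fixed_line hq hn5 hM (M.mul_mem (M.mul_mem (M.inv_mem hg) hdM) hg) hm (p := p)
      fun l hl => ?_)
    have hfix : (monGL 1 d : Matrix ι ι F) *ᵥ ((g : Matrix ι ι F) *ᵥ Pi.single p 1) =
        (g : Matrix ι ι F) *ᵥ Pi.single p 1 := by
      ext m
      rw [monGL_coe, monMat_mulVec, mulVec_single_one]
      change (d m : F) * (g : Matrix ι ι F) m p = (g : Matrix ι ι F) m p
      by_cases hm : m ∈ Z
      · simp [hz m hm]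
      · simp [hdZ m hm]
    have : ((g⁻¹ * monGL 1 d * g : GL ι F) : Matrix ι ι F) *ᵥ Pi.single p 1 = Pi.single p 1 := by
      rw [Units.val_mul, Units.val_mul, ← mulVec_mulVec, ← mulVec_mulVec, hfix,
        Cfsg.Agent.H98.gl_inv_mulVec]
    have := congrFun this l
    simpa [hl] using this
  -- diagonality forces a singleton column
  have hdiag : ∀ (d : ι → Fˣ) (π : Equiv.Perm ι) (e : ι → Fˣ), g⁻¹ * monGL 1 d * g = monGL π e →
      ∀ i, π i = i → ∀ l, (d l : F) ≠ (e i : F) → (g : Matrix ι ι F) l i = 0 := by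
    intro d π e he i hi l hl
    have h2 : monGL 1 d * g = g * monGL π e := by rw [← he]; group
    have h3 : (monGL 1 d : Matrix ι ι F) *ᵥ ((g : Matrix ι ι F) *ᵥ Pi.single i 1) =
        (g : Matrix ι ι F) *ᵥ ((monGL π e : Matrix ι ι F) *ᵥ Pi.single i 1) := by
      rw [mulVec_mulVec, mulVec_mulVec, ← Units.val_mul, ← Units.val_mul, h2]
    have h4 := congrFun h3 l
    rw [monGL_coe, monMat_mulVec, monGL_coe, monMat_single, hi, mulVec_single, mulVec_single] at h4
    simp [-Matrix.coe_units_inv] at h4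
    by_contra hne
    exact hl (mul_right_cancel₀ hne (h4.trans (mul_comm _ _)))
  obtain ⟨k, hk⟩ := Finset.card_pos.mp (by omega : 0 < Z.card)
  obtain ⟨i, hi⟩ : ∃ i, ((g⁻¹ : GL ι F) : Matrix ι ι F) i k ≠ 0 := by
    by_contra hc
    push Not at hc
    have : ((g⁻¹ : GL ι F) : Matrix ι ι F) *ᵥ Pi.single k 1 = ((g⁻¹ : GL ι F) : Matrix ι ι F) *ᵥ 0 := by
      rw [mulVec_zero, mulVec_single_one]; exact funext hc
    simpa using congrFun (Cfsg.Agent.H98.gl_mulVec_injective g⁻¹ this) k
  -- the eigenvalue of the coordinate `i`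
  have heig : ∀ (d : ι → Fˣ) (π : Equiv.Perm ι) (e : ι → Fˣ), g⁻¹ * monGL 1 d * g = monGL π e →
      π i = i → (d k : F) = (e i : F) := by
    intro d π e he hπi
    have h2 : g⁻¹ * monGL 1 d = monGL π e * g⁻¹ := by rw [← he]; group
    have h3 : ((g⁻¹ : GL ι F) : Matrix ι ι F) *ᵥ ((monGL 1 d : Matrix ι ι F) *ᵥ Pi.single k 1) =
        (monGL π e : Matrix ι ι F) *ᵥ (((g⁻¹ : GL ι F) : Matrix ι ι F) *ᵥ Pi.single k 1) := by
      rw [mulVec_mulVec, mulVec_mulVec, ← Units.val_mul, ← Units.val_mul, h2]
    have h4 := congrFun h3 i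
    rw [monGL_coe, monMat_single, monGL_coe, monMat_mulVec, mulVec_single, mulVec_single,
      show π.symm i = i from (Equiv.symm_apply_eq π).mpr hπi.symm] at h4
    simp [-Matrix.coe_units_inv] at h4
    exact mul_left_cancel₀ hi (h4.trans (mul_comm _ _))
  have hsingle : (∀ l, l ≠ k → (g : Matrix ι ι F) l i = 0) → False := fun h =>
    hno (root_of_singleton_col hq hn5 hM hg hgm h)
  rcases lt_or_ge (Fintype.card F) 7 with h7 | h7
  swap
  · -- a scalar of large order
    obtain ⟨u, hu⟩ := IsCyclic.exists_monoid_generator (α := Fˣ)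
    have horder : orderOf u = Fintype.card F - 1 := by
      rw [← Fintype.card_units, ← Nat.card_eq_fintype_card]
      exact orderOf_eq_card_of_forall_mem_zpowers fun x => by
        obtain ⟨m, hm⟩ := hu x
        exact ⟨m, by simpa using hm⟩
    have hpow : ∀ m, 0 < m → m ≤ 4 → ((u : F)) ^ m ≠ 1 := by
      intro m hm1 hm4 he
      have h1 : u ^ m = 1 := Units.ext (by simpa using he)
      have := Nat.le_of_dvd hm1 (orderOf_dvd_of_pow_eq_one h1)
      omega
    obtain ⟨l, hl, hlk⟩ := Finset.exists_mem_notMem_of_card_lt_card (s := {k}) (t := Z) (by simp; omega)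
    simp at hlk
    set μ := (u : F) with hμ
    set d : ι → Fˣ := Function.update (Function.update (fun _ => 1) k u) l u⁻¹ with hd
    have hprod : ∏ m, (d m : F) = 1 := by
      rw [Fintype.prod_eq_mul k l (Ne.symm hlk) (fun m hm => by simp [hd, hm.1, hm.2])]
      simp [hd, Ne.symm hlk]
    obtain ⟨π, e, he⟩ := exists_monGL_of_isMono (hconj d hprod fun m hm => by
      simp [hd, show m ≠ k from fun h => hm (h ▸ hk), show m ≠ l from fun h => hm (h ▸ hl)])
    have hpoly : ∀ m, ((d m : F) - 1) * ((d m : F) - μ) * ((d m : F) - μ⁻¹) = 0 := by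
      intro m
      by_cases h1 : m = l
      · subst h1; simp [hd, hμ]
      · by_cases h2 : m = k
        · subst h2; simp [hd, h1, hμ]
        · simp [hd, h1, h2]
    have hπ1 : ∀ m, π m = m := by
      intro m
      by_contra hm
      set σ := 1 + μ + μ⁻¹ with hσ
      have hD : (monGL 1 d : Matrix ι ι F) * ((monGL 1 d : Matrix ι ι F) * (monGL 1 d : Matrix ι ι F))
          - σ • ((monGL 1 d : Matrix ι ι F) * (monGL 1 d : Matrix ι ι F))
          + σ • (monGL 1 d : Matrix ι ι F) - 1 = 0 := by
        simp only [monGL_coe, one_monMat_apply, Matrix.diagonal_mul_diagonal]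
        ext r s
        by_cases hrs : r = s
        · subst hrs
          have := hpoly r
          have hμ0 : μ ≠ 0 := Units.ne_zero u
          simp [hσ]
          field_simp
          field_simp at this
          linear_combination this
        · simp [hrs]
      have hY := congrArg (fun A => ((g⁻¹ : GL ι F) : Matrix ι ι F) * A * (g : Matrix ι ι F)) hD
      have hconjmul : ∀ A B : Matrix ι ι F, ((g⁻¹ : GL ι F) : Matrix ι ι F) * (A * B) * (g : Matrix ι ι F) =
          (((g⁻¹ : GL ι F) : Matrix ι ι F) * A * (g : Matrix ι ι F)) *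
            (((g⁻¹ : GL ι F) : Matrix ι ι F) * B * (g : Matrix ι ι F)) := by
        intro A B
        rw [Matrix.mul_assoc _ (g : Matrix ι ι F), Matrix.mul_assoc _ _ (g : Matrix ι ι F),
          Matrix.mul_assoc _ B, ← Matrix.mul_assoc (g : Matrix ι ι F), ← Matrix.mul_assoc (g : Matrix ι ι F),
          ← Units.val_mul, mul_inv_cancel, Units.val_one, Matrix.one_mul, Matrix.mul_assoc]
      have hy' : ((g⁻¹ : GL ι F) : Matrix ι ι F) * (monGL 1 d : Matrix ι ι F) * (g : Matrix ι ι F) =
          monMat π fun r => (e r : F) := by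
        rw [← Units.val_mul, ← Units.val_mul, he, monGL_coe]
      simp only [Matrix.mul_sub, Matrix.sub_mul, Matrix.mul_add, Matrix.add_mul, Matrix.mul_smul,
        Matrix.smul_mul, Matrix.mul_zero, Matrix.zero_mul, hconjmul, hy'] at hY
      rw [Matrix.mul_one, ← Units.val_mul, inv_mul_cancel, Units.val_one, monMat_mul, monMat_mul] at hY
      have hcoef : ∀ r : ι, ((if r = π (π (π m)) then (e (π (π m)) : F) * ((e (π m) : F) * (e m : F)) else 0)
          - σ * (if r = π (π m) then (e (π m) : F) * (e m : F) else 0)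
          + if r = π m then σ * (e m : F) else 0) - (if r = m then 1 else 0) = 0 := by
        intro r
        have := congrFun (congrFun hY r) m
        simp [monMat, Equiv.Perm.mul_apply, Matrix.one_apply] at this
        exact this
      have he0 : ∀ r, (e r : F) ≠ 0 := fun r => Units.ne_zero _
      have hm2 : π (π m) ≠ π m := fun h => hm (π.injective h)
      by_cases h2 : π (π m) = m
      · have a1 := hcoef m
        have a2 := hcoef (π m)
        simp [h2, Ne.symm hm, hm] at a1 a2
        set em := (e m : F)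
        set ep := (e (π m) : F)
        have a2' : ep * em + σ = 0 := by
          apply mul_left_cancel₀ (he0 m)
          linear_combination a2
        have hs : σ * σ = 1 := by linear_combination σ * a2' + a1
        have hμ0 : μ ≠ 0 := Units.ne_zero u
        rcases mul_self_eq_one_iff.mp hs with h1 | h1
        · refine hpow 4 (by omega) le_rfl ?_
          rw [hσ] at h1
          field_simp at h1
          linear_combination (μ ^ 2 - 1) * h1
        · refine hpow 2 (by omega) (by omega) ?_
          rw [hσ] at h1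
          field_simp at h1
          have : (μ + 1) * (μ + 1) = 0 := by linear_combination h1
          have h5 := (mul_self_eq_zero.mp this)
          linear_combination (μ - 1) * h5
      · by_cases h3 : π (π (π m)) = m
        · have a2 := hcoef (π m)
          simp [h3, hm, Ne.symm hm2] at a2
          rw [hσ] at a2
          have hμ0 : μ ≠ 0 := Units.ne_zero u
          refine hpow 3 (by omega) (by omega) ?_
          field_simp at a2
          linear_combination (μ - 1) * a2
        · have := hcoef m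
          simp [Ne.symm h2, Ne.symm h3, Ne.symm hm] at this
    refine hsingle fun r hr => hdiag d π e he i (hπ1 i) r ?_
    rw [← heig d π e he (hπ1 i)]
    by_cases h1 : r = l
    · subst h1
      simp [hd, Ne.symm hlk]
      intro h
      refine hpow 2 (by omega) (by omega) ?_
      field_simp at h
      linear_combination (-1 : F) * h
    · simp [hd, h1, hr, Ne.symm hlk]
      intro h
      exact hpow 1 (by omega) (by omega) (by rw [pow_one]; exact h.symm ▸ rfl)
  · -- five scalars
    have hpp := FiniteField.isPrimePow_card F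
    have hq5 : Fintype.card F = 5 := by
      rcases (by omega : Fintype.card F = 5 ∨ Fintype.card F = 6) with h5 | h6
      · exact h5
      · rw [h6] at hpp
        exact absurd hpp (by
          rw [isPrimePow_nat_iff_bounded]
          decide)
    have h5 : (5 : F) = 0 := by
      have := Nat.cast_card_eq_zero F
      rw [hq5] at this
      exact_mod_cast this
    have n2 : (2 : F) ≠ 0 := fun he => one_ne_zero (α := F) (by linear_combination h5 - 2 * he)
    have n3 : (3 : F) ≠ 0 := fun he => one_ne_zero (α := F) (by linear_combination -h5 + 2 * he)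
    refine hsingle fun r hr => ?_
    -- four coordinates of `Z` containing `k` but not `r`
    obtain ⟨T, hTs, hTc⟩ := Finset.exists_subset_card_eq (s := (Z.erase r).erase k) (n := 3) (by
      have h1 := Finset.pred_card_le_card_erase (s := Z) (a := r)
      have h2 := Finset.pred_card_le_card_erase (s := Z.erase r) (a := k)
      have := hZ5 hq5
      omega)
    have hkT : k ∉ T := fun h => (Finset.mem_erase.mp (hTs h)).1 rfl
    have hrT : r ∉ insert k T := by
      simp [hr]
      exact fun h => (Finset.mem_erase.mp (Finset.mem_erase.mp (hTs h)).2).1 rfl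
    set d : ι → Fˣ := fun m => if m ∈ insert k T then Units.mk0 (2 : F) n2 else 1 with hd
    have hprod : ∏ m, (d m : F) = 1 := by
      rw [← Finset.prod_subset (Finset.subset_univ (insert k T)) (fun m _ hm => by simp only [hd, if_neg hm, Units.val_one]),
        Finset.prod_congr rfl (fun m hm => show (d m : F) = 2 by simp only [hd, if_pos hm, Units.val_mk0]), Finset.prod_const,
        Finset.card_insert_of_notMem hkT, hTc]
      linear_combination 3 * h5
    obtain ⟨π, e, he⟩ := exists_monGL_of_isMono (hconj d hprod fun m hm => by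
      have : m ∉ insert k T := by
        simp
        exact ⟨fun h => hm (h ▸ hk),
          fun h => hm (Finset.mem_erase.mp (Finset.mem_erase.mp (hTs h)).2).2⟩
      simp only [hd, if_neg this])
    have hπi : π i = i := by
      by_contra hm
      have hD : (monGL 1 d : Matrix ι ι F) * (monGL 1 d : Matrix ι ι F) - (3 : F) • (monGL 1 d : Matrix ι ι F)
          + (2 : F) • (1 : Matrix ι ι F) = 0 := by
        simp only [monGL_coe, one_monMat_apply, Matrix.diagonal_mul_diagonal]
        ext a b
        by_cases hab : a = b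
        · subst hab
          simp [hd]
          split_ifs <;> simp <;> ring
        · simp [hab]
      have h2 : ((g⁻¹ * (monGL 1 d * monGL 1 d) * g : GL ι F) : Matrix ι ι F)
          - (3 : F) • ((g⁻¹ * monGL 1 d * g : GL ι F) : Matrix ι ι F) + (2 : F) • (1 : Matrix ι ι F) = 0 := by
        have := congrArg (fun A => ((g⁻¹ : GL ι F) : Matrix ι ι F) * A * (g : Matrix ι ι F)) hD
        simp only [Matrix.mul_sub, Matrix.sub_mul, Matrix.mul_add, Matrix.add_mul, Matrix.mul_smul,
          Matrix.smul_mul, Matrix.mul_zero, Matrix.zero_mul, Matrix.mul_one] at this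
        simpa [Units.val_mul] using this
      rw [show g⁻¹ * (monGL 1 d * monGL 1 d) * g = (g⁻¹ * monGL 1 d * g) * (g⁻¹ * monGL 1 d * g) by group, he,
        Units.val_mul, monGL_coe, monMat_mul] at h2
      have := congrFun (congrFun h2 (π i)) i
      have hm2 : π i ≠ π (π i) := fun h => hm (π.injective h.symm)
      simp [monMat, hm, hm2, Ne.symm hm, n3] at this
    refine hdiag d π e he i hπi r ?_
    rw [← heig d π e he hπi]
    simp only [hd, hrT, if_false, Finset.mem_insert_self, if_true, Units.val_one, Units.val_mk0]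
    intro h
    exact one_ne_zero (α := F) (by linear_combination (-1 : F) * h)

/-- A group containing the determinant-one monomial matrices and a non-monomial one has a root element. -/
theorem root_of_nonmonomial' [Fintype F] (hq : 5 ≤ Fintype.card F) (hn : 10 ≤ Fintype.card ι)
    (hM : ContainsMon M) {g : GL ι F} (hg : g ∈ M) (hgm : ¬ IsMono (g : Matrix ι ι F)) : HasRoot M := by
  classical
  by_contra hno
  have hn5 : 5 ≤ Fintype.card ι := by omega
  have hgm' := hgm
  simp only [IsMono, not_forall] at hgm'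
  obtain ⟨k, a₀, b₀, ha₀, hb₀, hab₀⟩ := hgm'
  set X := Finset.univ.filter fun l => (g : Matrix ι ι F) l k ≠ 0 with hX
  by_cases hX5 : X.card ≤ 5
  · refine hno (root_of_short_col' hq hn hM hg hgm (p := k) (Z := Xᶜ) ?_ ?_ fun l hl => ?_)
    · rw [Finset.card_compl]; omega
    · intro _; rw [Finset.card_compl]; omega
    · simpa [hX] using hl
  obtain ⟨T₁, hT₁s, hT₁⟩ := Finset.exists_subset_card_eq (s := X) (n := 3) (by omega)
  obtain ⟨T₂, hT₂s, hT₂⟩ := Finset.exists_subset_card_eq (s := X \ T₁) (n := 3) (by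
    rw [Finset.card_sdiff_of_subset hT₁s]; omega)
  obtain ⟨a, b, c, hab, hac, hbc, rfl⟩ := Finset.card_eq_three.mp hT₁
  obtain ⟨a', b', c', hab', hac', hbc', rfl⟩ := Finset.card_eq_three.mp hT₂
  simp [Finset.insert_subset_iff, hX] at hT₁s hT₂s
  obtain ⟨S, hSc, hkS, hS⟩ := triple_image hq hn5 hM hno hg hab hac hbc hT₁s.1 hT₁s.2.1 hT₁s.2.2
  obtain ⟨S', hS'c, hkS', hS'⟩ :=
    triple_image hq hn5 hM hno hg hab' hac' hbc' hT₂s.1.1 hT₂s.2.1.1 hT₂s.2.2.1
  obtain ⟨μ, hμ0, hμ1, -⟩ := exists_not_unit_sq hq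
  -- weights with product one summing to three: lines through the singular point of `x + y + z = 3, xyz = 1`
  obtain ⟨la, lb, lc, la', lb', lc', hs, hs', hp, hne, htriv⟩ :
      ∃ la lb lc la' lb' lc' : Fˣ, (la : F) + lb + lc = 3 ∧ (la' : F) + lb' + lc' = 3 ∧
        (la : F) * lb * lc * ((la' : F) * lb' * lc') = 1 ∧ (la : F) ≠ 1 ∧
        (la' = 1 ∧ lb' = 1 ∧ lc' = 1) := by
    obtain ⟨s, s0, s1, s2⟩ : ∃ s : F, s ≠ 0 ∧ 1 + s ≠ 0 ∧ 1 + s + s ^ 2 ≠ 0 := by
      by_contra hc
      simp only [not_exists, not_and, not_not] at hc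
      have hroot : ∀ s : F, s ∈ (Polynomial.X * (1 + Polynomial.X) *
          (1 + Polynomial.X + Polynomial.X ^ 2) : Polynomial F).roots.toFinset := by
        intro s
        have hne : (Polynomial.X * (1 + Polynomial.X) *
            (1 + Polynomial.X + Polynomial.X ^ 2) : Polynomial F) ≠ 0 := by
          intro h
          have := congrArg (fun P => Polynomial.coeff P 1) h
          simp [Polynomial.coeff_zero, Polynomial.coeff_X_mul, mul_assoc, Polynomial.mul_coeff_zero] at this
        rw [Multiset.mem_toFinset, Polynomial.mem_roots hne]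
        simp only [Polynomial.IsRoot, Polynomial.eval_mul, Polynomial.eval_add, Polynomial.eval_one,
          Polynomial.eval_pow, Polynomial.eval_X]
        by_cases e0 : s = 0
        · simp [e0]
        by_cases e1 : 1 + s = 0
        · simp [e1]
        simp [hc s e0 e1]
      have hle : Fintype.card F ≤ 4 := by
        rw [← Finset.card_univ]
        refine (Finset.card_le_card fun s _ => hroot s).trans ((Multiset.toFinset_card_le _).trans
          ((Polynomial.card_roots' _).trans ?_))
        compute_degree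
      omega
    refine ⟨Units.mk0 (-(1 / (s * (1 + s)))) (by simp [s0, s1]),
      Units.mk0 (-(s ^ 2 / (1 + s))) (by simp [s0, s1]),
      Units.mk0 ((1 + s) ^ 2 / s) (by simp [s0, s1]), 1, 1, 1, ?_, by simp; norm_num, ?_, ?_, rfl, rfl, rfl⟩
    · simp only [Units.val_mk0]; field_simp; ring
    · simp only [Units.val_mk0, Units.val_one]; field_simp
    · simp only [Units.val_mk0]
      intro h
      field_simp at h
      exact s2 (by linear_combination (-1 : F) * h)
  have hd6 : [a, b, c, a', b', c'].Nodup := by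
    simp [hab, hac, hbc, hab', hac', hbc']
    exact ⟨⟨Ne.symm hT₂s.1.2.1, Ne.symm hT₂s.2.1.2.1, Ne.symm hT₂s.2.2.2.1⟩,
      ⟨Ne.symm hT₂s.1.2.2.1, Ne.symm hT₂s.2.1.2.2.1, Ne.symm hT₂s.2.2.2.2.1⟩,
      Ne.symm hT₂s.1.2.2.2, Ne.symm hT₂s.2.1.2.2.2, Ne.symm hT₂s.2.2.2.2.2⟩
  simp at hd6
  set d : ι → Fˣ := fun l => if l = a then la else if l = b then lb else if l = c then lc else
    if l = a' then la' else if l = b' then lb' else if l = c' then lc' else 1 with hd
  have hprod : ∏ l, (d l : F) = 1 := by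
    rw [← Finset.prod_subset (Finset.subset_univ ({a, b, c, a', b', c'} : Finset ι))
      (fun l _ hl => by simp at hl; simp [hd, hl])]
    rw [Finset.prod_insert (by simp [hd6]), Finset.prod_insert (by simp [hd6]),
      Finset.prod_insert (by simp [hd6]), Finset.prod_insert (by simp [hd6]),
      Finset.prod_insert (by simp [hd6]), Finset.prod_singleton]
    obtain ⟨⟨n1, n2, n3, n4, n5⟩, ⟨n6, n7, n8, n9⟩, ⟨n10, n11, n12⟩, ⟨n13, n14⟩, n15⟩ := hd6
    simp [hd, Ne.symm n1, Ne.symm n2, Ne.symm n3, Ne.symm n4, Ne.symm n5, Ne.symm n6, Ne.symm n7, Ne.symm n8,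
      Ne.symm n9, Ne.symm n10, Ne.symm n11, Ne.symm n12, Ne.symm n13, Ne.symm n14, Ne.symm n15]
    linear_combination hp
  have hdM : monGL 1 d ∈ M := hM _ _ (by simp [hprod])
  set h := g⁻¹ * monGL 1 d * g with hh
  have hhM : h ∈ M := M.mul_mem (M.mul_mem (M.inv_mem hg) hdM) hg
  set x := fun l => (g : Matrix ι ι F) l k with hx
  set va := (Pi.single a (((la : F) - 1) * x a) + Pi.single b (((lb : F) - 1) * x b) +
    Pi.single c (((lc : F) - 1) * x c) : ι → F) with hva
  set vb := (Pi.single a' (((la' : F) - 1) * x a') + Pi.single b' (((lb' : F) - 1) * x b') +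
    Pi.single c' (((lc' : F) - 1) * x c') : ι → F) with hvb
  have hdx : (monGL 1 d : Matrix ι ι F) *ᵥ x = x + (va + vb) := by
    obtain ⟨⟨n1, n2, n3, n4, n5⟩, ⟨n6, n7, n8, n9⟩, ⟨n10, n11, n12⟩, ⟨n13, n14⟩, n15⟩ := hd6
    ext l
    rw [monGL_coe, one_monMat_apply, mulVec_diagonal]
    simp only [hva, hvb, Pi.add_apply, Pi.single_apply, hd]
    by_cases h1 : l = a
    · subst h1; simp [n1, n2, n3, n4, n5]; ring
    by_cases h2 : l = b
    · subst h2; simp [h1, n6, n7, n8, n9]; ring
    by_cases h3 : l = c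
    · subst h3; simp [h1, h2, n10, n11, n12]; ring
    by_cases h4 : l = a'
    · subst h4; simp [h1, h2, h3, n13, n14]; ring
    by_cases h5 : l = b'
    · subst h5; simp [h1, h2, h3, h4, n15]; ring
    by_cases h6 : l = c'
    · subst h6; simp [h1, h2, h3, h4, h5]; ring
    simp [h1, h2, h3, h4, h5, h6]
  have hA : ∀ l, l ∉ S → (((g⁻¹ : GL ι F) : Matrix ι ι F) *ᵥ va) l = 0 :=
    hS _ _ _ (by linear_combination hs)
  have hB : ∀ l, l ∉ S' → (((g⁻¹ : GL ι F) : Matrix ι ι F) *ᵥ vb) l = 0 :=
    hS' _ _ _ (by linear_combination hs')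
  have hcol : ∀ l, (h : Matrix ι ι F) l k = (Pi.single k 1 : ι → F) l +
      ((((g⁻¹ : GL ι F) : Matrix ι ι F) *ᵥ va) l + (((g⁻¹ : GL ι F) : Matrix ι ι F) *ᵥ vb) l) := by
    intro l
    have hxk : (g : Matrix ι ι F) *ᵥ Pi.single k 1 = x := by rw [mulVec_single_one]; rfl
    have : (h : Matrix ι ι F) *ᵥ Pi.single k 1 = Pi.single k 1 +
        (((g⁻¹ : GL ι F) : Matrix ι ι F) *ᵥ va + ((g⁻¹ : GL ι F) : Matrix ι ι F) *ᵥ vb) := by
      rw [hh, Units.val_mul, Units.val_mul, ← mulVec_mulVec, ← mulVec_mulVec, hxk, hdx, mulVec_add, mulVec_add,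
        ← hxk, Cfsg.Agent.H98.gl_inv_mulVec]
    have := congrFun this l
    simpa using this
  have hkk : (h : Matrix ι ι F) k k = 1 := by rw [hcol, hA k hkS, hB k hkS']; simp
  have hhm : ¬ IsMono (h : Matrix ι ι F) := by
    intro hmono
    have hne0 : va + vb ≠ 0 := by
      intro hz
      have := congrFun hz a
      obtain ⟨⟨n1, n2, n3, n4, n5⟩, -⟩ := hd6
      simp [hva, hvb, n1, n2, n3, n4, n5, sub_ne_zero.mpr hne, hT₁s.1, hx] at this
    have hinj : ((g⁻¹ : GL ι F) : Matrix ι ι F) *ᵥ (va + vb) ≠ 0 := fun hz =>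
      hne0 (Cfsg.Agent.H98.gl_mulVec_injective g⁻¹ (hz.trans (mulVec_zero _).symm))
    obtain ⟨l, hl⟩ := Function.ne_iff.mp hinj
    rw [mulVec_add, Pi.add_apply] at hl
    have hlk : l ≠ k := by
      intro he; subst he
      rw [hA l hkS, hB l hkS'] at hl; simp at hl
    have := hmono k l k (by rw [hcol, Pi.single_eq_of_ne hlk, zero_add]; exact hl) (by rw [hkk]; exact one_ne_zero)
    exact hlk this
  refine hno (root_of_short_col' hq hn hM hhM hhm (p := k) (Z := (insert k S)ᶜ)
    ?_ ?_ fun l hl => ?_)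
  · rw [Finset.card_compl]
    have := Finset.card_insert_le k S
    omega
  · intro _
    rw [Finset.card_compl]
    have := Finset.card_insert_le k S
    omega
  · simp at hl
    obtain ⟨e1, e2, e3⟩ := htriv
    have : vb = 0 := by simp [hvb, e1, e2, e3]
    rw [hcol, Pi.single_eq_of_ne hl.1, zero_add, hA l hl.2, zero_add]
    simp [this]

/-- A short proper column gives a root element, for at least 13 coordinates. -/
theorem root_of_short_col [Fintype F] (hq : 5 ≤ Fintype.card F) (hn : 13 ≤ Fintype.card ι) (hM : ContainsMon M)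
    {g : GL ι F} (hg : g ∈ M) (hgm : ¬ IsMono (g : Matrix ι ι F)) {p : ι} {Z : Finset ι} (hZ : 2 ≤ Z.card)
    (hZ5 : Fintype.card F = 5 → 5 ≤ Z.card) (hz : ∀ l ∈ Z, (g : Matrix ι ι F) l p = 0) : HasRoot M :=
  root_of_short_col' hq (by omega) hM hg hgm hZ hZ5 hz

/-- A group containing the determinant-one monomial matrices and a non-monomial one has a root element,
for at least 13 coordinates. -/
theorem root_of_nonmonomial [Fintype F] (hq : 5 ≤ Fintype.card F) (hn : 13 ≤ Fintype.card ι)
    (hM : ContainsMon M) {g : GL ι F} (hg : g ∈ M) (hgm : ¬ IsMono (g : Matrix ι ι F)) : HasRoot M :=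
  root_of_nonmonomial' hq (by omega) hM hg hgm

end Cfsg.Agent.H1.Decomp
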