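import Cfsg.Agent.H1.DecompBlocks
import Cfsg.Agent.H1.DecompMono
import Cfsg.Agent.H98.Decomp

set_option autoImplicit false

/-!
The stabiliser of a decomposition into equidimensional subspaces is maximal in the special linear group.
-/

namespace Cfsg.Agent.H1.Decomp

open Matrix

variable {ι : Type} [Fintype ι] [DecidableEq ι] {F : Type*} [Field F] [Fintype F] {t m : ℕ}

/-- The coordinate version: adjoining an element to the block stabiliser gives `SL`. -/
theorem sl_le_of_not_blockLike' (e : ι ≃ Fin t × Fin m) (hn : 10 ≤ Fintype.card ι)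
    (h1 : m = 1 → 5 ≤ Fintype.card F) (h2 : m = 2 → 3 ≤ Fintype.card F) {M : Subgroup (GL ι F)}
    (hM : ContainsBlock (fun i => (e i).1) M) {g : GL ι F} (hg : g ∈ M)
    (hgB : ¬ BlockLike (fun i => (e i).1) (g : Matrix ι ι F)) : Cfsg.Geo.specialLinear ι F ≤ M := by
  classical
  have hcard : Fintype.card ι = t * m := by simpa using Fintype.card_congr e
  suffices h : ∃ i j, (e i).1 ≠ (e j).1 ∧ ∃ c : F, c ≠ 0 ∧ Has M (Pi.single i c) (Pi.single j 1) by
    obtain ⟨i, j, hij, c, hc, h⟩ := h
    exact sl_le_of_roots (roots_of_cross e (by omega) hM hij hc h)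
  have hm0 : m ≠ 0 := by rintro rfl; rw [mul_zero] at hcard; omega
  by_cases hm : m = 1
  · subst hm
    have hinj : Function.Injective fun i => (e i).1 := fun a b hab =>
      e.injective (Prod.ext hab (Subsingleton.elim _ _))
    have hMon : ContainsMon M := fun π d hd => mon_mem hM π (fun x => (e (π (e.symm (x, 0)))).1)
      (fun i => by
        rw [show ((e i).1, (0 : Fin 1)) = e i from Prod.ext rfl (Subsingleton.elim _ _), e.symm_apply_apply]) d hd
    have hgm : ¬ IsMono (g : Matrix ι ι F) := by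
      intro hmono
      obtain ⟨π, d, hgd⟩ := exists_monGL_of_isMono hmono
      refine hgB ⟨fun x => (e (π (e.symm (x, 0)))).1, fun k i hk => ?_⟩
      rw [hgd] at hk
      simp [monMat] at hk
      dsimp only
      rw [hk, show ((e i).1, (0 : Fin 1)) = e i from Prod.ext rfl (Subsingleton.elim _ _), e.symm_apply_apply]
    obtain ⟨i, j, hij, h⟩ := root_of_nonmonomial' (h1 rfl) hn hMon hg hgm
    exact ⟨i, j, fun he => hij (hinj he), h⟩
  · have h2le : 2 ≤ m := by omega
    have htwo : TwoInBlocks (fun i => (e i).1) := by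
      intro k
      obtain ⟨x, hx⟩ : ∃ x : Fin m, x ≠ (e k).2 :=
        Fintype.exists_ne_of_one_lt_card (by rw [Fintype.card_fin]; omega) _
      exact ⟨e.symm ((e k).1, x), fun he => hx (by rw [← he]; simp), by simp⟩
    obtain ⟨i, j, hij, h⟩ := exists_cross hM htwo (by
      by_cases hm2 : m = 2
      · refine Or.inl ⟨h2 hm2, fun a b => ?_⟩
        subst hm2
        obtain ⟨d, -, hd⟩ := Finset.exists_mem_notMem_of_card_lt_card (s := ({a, b} : Finset (Fin t)))
          (t := Finset.univ) (lt_of_le_of_lt Finset.card_le_two (by rw [Finset.card_univ, Fintype.card_fin]; omega))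
        simp at hd
        exact ⟨d, hd.1, hd.2, e.symm (d, 0), by simp⟩
      · right
        intro k
        obtain ⟨x, hx⟩ : ∃ x : Fin m, x ≠ (e k).2 :=
          Fintype.exists_ne_of_one_lt_card (by rw [Fintype.card_fin]; omega) _
        obtain ⟨y, -, hy⟩ := Finset.exists_mem_notMem_of_card_lt_card (s := ({x, (e k).2} : Finset (Fin m)))
          (t := Finset.univ) (lt_of_le_of_lt Finset.card_le_two (by rw [Finset.card_univ, Fintype.card_fin]; omega))
        simp at hy
        refine ⟨e.symm ((e k).1, x), e.symm ((e k).1, y), fun he => hx (by rw [← he]; simp),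
          fun he => hy.2 (by rw [← he]; simp), fun he => hy.1 ?_, by simp, by simp⟩
        simpa using (e.symm.injective he).symm) hg hgB
    exact ⟨i, j, hij, 1, one_ne_zero, h⟩

/-- Adapted coordinates for a decomposition. -/
theorem exists_adapted {n : ℕ} {D : Fin t → Submodule F (Fin n → F)} (hD : Cfsg.Geo.IsMDecomposition m D) :
    ∃ (e : Fin n ≃ Fin t × Fin m) (P : GL (Fin n) F), ∀ (a : Fin t) (v : Fin n → F),
      (P : Matrix (Fin n) (Fin n) F) *ᵥ v ∈ D a ↔ Sup (fun i => (e i).1) a v := by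
  classical
  have hint : DirectSum.IsInternal D :=
    DirectSum.isInternal_submodule_of_iSupIndep_of_iSup_eq_top hD.indep hD.iSup_eq_top
  let b := hint.collectedBasis fun a => Module.finBasisOfFinrankEq F (D a) (hD.finrank_eq a)
  have hn : Fintype.card (Σ _ : Fin t, Fin m) = n := by
    rw [← Module.finrank_eq_card_basis b, Module.finrank_pi, Fintype.card_fin]
  let e : Fin n ≃ Fin t × Fin m :=
    (finCongr hn.symm).trans ((Fintype.equivFin _).symm.trans (Equiv.sigmaEquivProd _ _))
  let b' := b.reindex ((Equiv.sigmaEquivProd _ _).trans e.symm)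
  refine ⟨e, Cfsg.Agent.H98.glOfEquiv ((Pi.basisFun F (Fin n)).equiv b' (Equiv.refl _)), fun a v => ?_⟩
  rw [Cfsg.Agent.H98.glOfEquiv_mulVec]
  have hb : ∀ i, b' i ∈ D ((e i).1) := fun i => by
    simp only [b', Module.Basis.reindex_apply]
    exact hint.collectedBasis_mem _ _
  have hv : ((Pi.basisFun F (Fin n)).equiv b' (Equiv.refl _)) v = ∑ i, v i • b' i := by
    conv_lhs => rw [← (Pi.basisFun F (Fin n)).sum_repr v]
    rw [map_sum]
    exact Finset.sum_congr rfl fun i _ => by
      simp only [map_smul, Pi.basisFun_repr, Module.Basis.equiv_apply, Equiv.refl_apply]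
  rw [hv]
  constructor
  · intro hmem i hi
    -- the component in another member vanishes
    have h0 : Cfsg.Agent.H98.comp hD ((e i).1) (∑ k, v k • b' k) = 0 :=
      Cfsg.Agent.H98.comp_other hD (Ne.symm hi) hmem
    rw [map_sum] at h0
    have hterm : ∀ k, Cfsg.Agent.H98.comp hD ((e i).1) (v k • b' k) =
        (if (e k).1 = (e i).1 then v k else 0) • b' k := by
      intro k
      rw [map_smul]
      split_ifs with h
      · rw [Cfsg.Agent.H98.comp_same hD (h ▸ hb k)]
      · rw [Cfsg.Agent.H98.comp_other hD h (hb k), smul_zero, zero_smul]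
    simp only [hterm] at h0
    have := Fintype.linearIndependent_iff.mp b'.linearIndependent _ h0 i
    simpa using this
  · intro hs
    refine Submodule.sum_mem _ fun i _ => ?_
    by_cases hi : (e i).1 = a
    · exact Submodule.smul_mem _ _ (hi ▸ hb i)
    · rw [hs i hi, zero_smul]
      exact Submodule.zero_mem _

/-- `BlockLike` describes the stabiliser of the decomposition in adapted coordinates. -/
theorem conj_mem_stab_iff {n : ℕ} {D : Fin t → Submodule F (Fin n → F)} (hD : Cfsg.Geo.IsMDecomposition m D)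
    {e : Fin n ≃ Fin t × Fin m} {P : GL (Fin n) F}
    (hP : ∀ (a : Fin t) (v : Fin n → F), (P : Matrix (Fin n) (Fin n) F) *ᵥ v ∈ D a ↔ Sup (fun i => (e i).1) a v)
    {x : GL (Fin n) F} (hx : BlockLike (fun i => (e i).1) (x : Matrix (Fin n) (Fin n) F)) :
    P * x * P⁻¹ ∈ Cfsg.Geo.decompositionStabilizer D := by
  classical
  obtain ⟨σ, hσ⟩ := hx
  set y := P * x * P⁻¹ with hy
  set L := Matrix.toLin' (y : Matrix (Fin n) (Fin n) F) with hL
  have hinj : Function.Injective L := fun a b hab =>
    Cfsg.Agent.H98.gl_mulVec_injective y (by simpa [hL] using hab)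
  have hmap : ∀ a, (D a).map L = D (σ a) := by
    intro a
    refine Submodule.eq_of_le_of_finrank_eq ?_ ?_
    · rintro _ ⟨w, hw, rfl⟩
      have hw' : Sup (fun i => (e i).1) a (((P⁻¹ : GL (Fin n) F) : Matrix (Fin n) (Fin n) F) *ᵥ w) := by
        rw [← hP, Cfsg.Agent.H98.gl_mulVec_inv]; exact hw
      simp only [hL, Matrix.toLin'_apply, hy, Units.val_mul, ← mulVec_mulVec]
      rw [hP]
      intro k hk
      change ∑ i, (x : Matrix (Fin n) (Fin n) F) k i *
        (((P⁻¹ : GL (Fin n) F) : Matrix (Fin n) (Fin n) F) *ᵥ w) i = 0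
      refine Finset.sum_eq_zero fun i _ => ?_
      by_cases hi : (e i).1 = a
      · have : (x : Matrix (Fin n) (Fin n) F) k i = 0 := by
          by_contra hne
          exact hk (by rw [hσ k i hne]; exact congrArg σ hi)
        rw [this, zero_mul]
      · rw [hw' i hi, mul_zero]
    · rw [← (Submodule.equivMapOfInjective L hinj (D a)).finrank_eq, hD.finrank_eq, hD.finrank_eq]
  have hσinj : Function.Injective σ := by
    intro a b hab
    have h := Submodule.map_injective_of_injective hinj ((hmap a).trans (hab ▸ (hmap b).symm))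
    by_contra hne
    have hdis : Disjoint (D a) (D b) := hD.indep.pairwiseDisjoint hne
    rw [h, disjoint_self] at hdis
    have := hD.finrank_eq b
    rw [hdis, finrank_bot] at this
    exact hD.pos.ne this
  exact ⟨Equiv.ofBijective σ (Finite.injective_iff_bijective.mp hσinj), hmap⟩

theorem blockLike_of_conj_mem {n : ℕ} {D : Fin t → Submodule F (Fin n → F)}
    {e : Fin n ≃ Fin t × Fin m} {P : GL (Fin n) F}
    (hP : ∀ (a : Fin t) (v : Fin n → F), (P : Matrix (Fin n) (Fin n) F) *ᵥ v ∈ D a ↔ Sup (fun i => (e i).1) a v)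
    {y : GL (Fin n) F} (hy : y ∈ Cfsg.Geo.decompositionStabilizer D) :
    BlockLike (fun i => (e i).1) ((P⁻¹ * y * P : GL (Fin n) F) : Matrix (Fin n) (Fin n) F) := by
  obtain ⟨σ, hσ⟩ := hy
  refine ⟨σ, fun k i hki => ?_⟩
  by_contra hne
  refine hki ?_
  have hmem : (y : Matrix (Fin n) (Fin n) F) *ᵥ ((P : Matrix (Fin n) (Fin n) F) *ᵥ Pi.single i 1) ∈
      D (σ ((e i).1)) := by
    rw [← hσ]
    exact ⟨_, (hP _ _).mpr (sup_single (blk := fun i => (e i).1) i 1), by simp⟩
  have := (hP _ (((P⁻¹ * y * P : GL (Fin n) F) : Matrix (Fin n) (Fin n) F) *ᵥ Pi.single i 1)).mp (by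
    rw [Units.val_mul, Units.val_mul, ← mulVec_mulVec, ← mulVec_mulVec, Cfsg.Agent.H98.gl_mulVec_inv]
    exact hmem) k hne
  simpa using this

/-- The stabiliser of a decomposition is maximal in `SL`. -/
theorem decomposition_maximal' {n : ℕ} (hn : 10 ≤ n) (D : Fin t → Submodule F (Fin n → F))
    (hD : Cfsg.Geo.IsMDecomposition m D) (h1 : m = 1 → 5 ≤ Fintype.card F) (h2 : m = 2 → 3 ≤ Fintype.card F) :
    Cfsg.Geo.IsMaximalIn (Cfsg.Geo.specialLinear (Fin n) F)
      (Cfsg.Geo.decompositionStabilizer D ⊓ Cfsg.Geo.specialLinear (Fin n) F) := by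
  classical
  refine Cfsg.Agent.H98.isMaximalIn_of inf_le_right ?_ fun M hHM hMS g hg hgH => ?_
  · -- a transvection outside
    let a : Fin t := ⟨0, by have := hD.two_le; omega⟩
    let b : Fin t := ⟨1, by have := hD.two_le; omega⟩
    have hab : a ≠ b := by simp [a, b]
    have hne : ∀ c, D c ≠ ⊥ := fun c h => by
      have := hD.finrank_eq c
      rw [h, finrank_bot] at this
      exact hD.pos.ne this
    obtain ⟨w, hw, hw0⟩ := Submodule.exists_mem_ne_zero_of_ne_bot (hne a)
    obtain ⟨u, hu, hu0⟩ := Submodule.exists_mem_ne_zero_of_ne_bot (hne b)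
    have hnot : w ∉ Submodule.span F {u} := by
      intro h
      have hle : Submodule.span F {u} ≤ D b := (Submodule.span_singleton_le_iff_mem _ _).mpr hu
      exact hw0 (Submodule.disjoint_def.mp (hD.indep.pairwiseDisjoint hab) w hw (hle h))
    obtain ⟨φ, hφ, hk⟩ := Cfsg.Agent.H98.exists_functional hnot
    have hφu : φ u = 0 := LinearMap.mem_ker.mp (hk (Submodule.mem_span_singleton_self u))
    refine ⟨Cfsg.Agent.H98.transGL φ u hφu, Cfsg.Agent.H98.transGL_mem_sl φ u hφu, fun h =>
      Cfsg.Agent.H98.not_stab_of_spread hD hw hab ?_ ?_ h.1⟩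
    · rw [Cfsg.Agent.H98.transGL_mulVec, hφ, one_smul, map_add, Cfsg.Agent.H98.comp_same hD hw,
        Cfsg.Agent.H98.comp_other hD hab.symm hu, add_zero]
      exact hw0
    · rw [Cfsg.Agent.H98.transGL_mulVec, hφ, one_smul, map_add, Cfsg.Agent.H98.comp_other hD hab hw,
        Cfsg.Agent.H98.comp_same hD hu, zero_add]
      exact hu0
  obtain ⟨e, P, hP⟩ := exists_adapted hD
  have hdet : ∀ x : GL (Fin n) F, ((P * x * P⁻¹ : GL (Fin n) F) : Matrix (Fin n) (Fin n) F).det =
      (x : Matrix (Fin n) (Fin n) F).det := by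
    intro x
    rw [Units.val_mul, Units.val_mul, det_mul, det_mul, mul_right_comm, ← det_mul, ← Units.val_mul,
      mul_inv_cancel, Units.val_one, det_one, one_mul]
  let M' : Subgroup (GL (Fin n) F) := M.comap (MulAut.conj P).toMonoidHom
  have hmem : ∀ x, x ∈ M' ↔ P * x * P⁻¹ ∈ M := fun x => Iff.rfl
  have hSL : ∀ x : GL (Fin n) F, x ∈ Cfsg.Geo.specialLinear (Fin n) F ↔
      (x : Matrix (Fin n) (Fin n) F).det = 1 := by
    intro x
    rw [Cfsg.Geo.specialLinear, MonoidHom.mem_ker, ← Units.val_inj]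
    rfl
  have hM' : ContainsBlock (fun i => (e i).1) M' := fun x hx hxB =>
    hHM ⟨conj_mem_stab_iff hD hP hxB, (hSL _).mpr (by
      change ((P * x * P⁻¹ : GL (Fin n) F) : Matrix (Fin n) (Fin n) F).det = 1
      rw [hdet]; exact hx)⟩
  have hg' : P⁻¹ * g * P ∈ M' := by
    rw [hmem, show P * (P⁻¹ * g * P) * P⁻¹ = g by group]; exact hg
  have hgB : ¬ BlockLike (fun i => (e i).1) ((P⁻¹ * g * P : GL (Fin n) F) : Matrix (Fin n) (Fin n) F) := by
    intro h
    have := conj_mem_stab_iff hD hP h
    rw [show P * (P⁻¹ * g * P) * P⁻¹ = g by group] at this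
    exact hgH ⟨this, hMS hg⟩
  have hle := sl_le_of_not_blockLike' e (by rw [Fintype.card_fin]; exact hn) h1 h2 hM' hg' hgB
  intro x hx
  have hdx : (P⁻¹ * x * P) ∈ Cfsg.Geo.specialLinear (Fin n) F := by
    rw [hSL, ← hdet, show P * (P⁻¹ * x * P) * P⁻¹ = x by group]; exact (hSL x).mp hx
  have := (hmem _).mp (hle hdx)
  rwa [show P * (P⁻¹ * x * P) * P⁻¹ = x by group] at this

/-- The coordinate version, for at least 13 coordinates. -/
theorem sl_le_of_not_blockLike (e : ι ≃ Fin t × Fin m) (hn : 13 ≤ Fintype.card ι)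
    (h1 : m = 1 → 5 ≤ Fintype.card F) (h2 : m = 2 → 3 ≤ Fintype.card F) {M : Subgroup (GL ι F)}
    (hM : ContainsBlock (fun i => (e i).1) M) {g : GL ι F} (hg : g ∈ M)
    (hgB : ¬ BlockLike (fun i => (e i).1) (g : Matrix ι ι F)) : Cfsg.Geo.specialLinear ι F ≤ M :=
  sl_le_of_not_blockLike' e (by omega) h1 h2 hM hg hgB

/-- The stabiliser of a decomposition is maximal, for dimension at least 13. -/
theorem decomposition_maximal {n : ℕ} (hn : 13 ≤ n) (D : Fin t → Submodule F (Fin n → F))
    (hD : Cfsg.Geo.IsMDecomposition m D) (h1 : m = 1 → 5 ≤ Fintype.card F) (h2 : m = 2 → 3 ≤ Fintype.card F) :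
    Cfsg.Geo.IsMaximalIn (Cfsg.Geo.specialLinear (Fin n) F)
      (Cfsg.Geo.decompositionStabilizer D ⊓ Cfsg.Geo.specialLinear (Fin n) F) :=
  decomposition_maximal' (by omega) D hD h1 h2

end Cfsg.Agent.H1.Decomp
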