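import Cfsg.Agent.H98.MaximalSL
import Cfsg.Agent.H1.Orders
import Cfsg.Prelude.Def_ClassicalGeometry
import Cfsg.Prelude.Def_GeometricClasses

set_option autoImplicit false

namespace Cfsg.Agent.H1

open Matrix

variable {F : Type*} [Field F]

/-- The vectors supported on the first `k` coordinates, as a submodule. -/
def coordSub (F : Type*) [Field F] (n k : ℕ) : Submodule F (Fin n → F) where
  carrier := {v | ∀ i : Fin n, k ≤ (i : ℕ) → v i = 0}
  zero_mem' _ _ := rfl
  add_mem' {a b} ha hb i hi := by simp [ha i hi, hb i hi]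
  smul_mem' c v hv i hi := by simp [hv i hi]

lemma mem_coordSub {n k : ℕ} {v : Fin n → F} :
    v ∈ coordSub F n k ↔ ∀ i : Fin n, k ≤ (i : ℕ) → v i = 0 := Iff.rfl

/-- The stabiliser of `coordSub` is the block triangular group. -/
lemma mem_parabolic_iff {n k : ℕ} (g : GL (Fin n) F) :
    g ∈ Cfsg.stabilizing (Cfsg.glToMat (Fin n) F) {v : Fin n → F | ∀ i : Fin n, k ≤ (i : ℕ) → v i = 0}
      ↔ ∀ i j : Fin n, k ≤ (i : ℕ) → (j : ℕ) < k → (g : Matrix (Fin n) (Fin n) F) i j = 0 := by
  constructor
  · intro h i j hi hj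
    have hj' : (Pi.single j 1 : Fin n → F) ∈
        {v : Fin n → F | ∀ i : Fin n, k ≤ (i : ℕ) → v i = 0} := by
      intro l hl
      rw [Pi.single_apply, if_neg]
      rintro rfl; omega
    have := (h _).1 hj' i hi
    simpa using this
  · intro h
    refine Cfsg.Agent.H98.stab_of_maps_into (W := coordSub F n k) fun v hv => ?_
    rw [mem_coordSub] at hv ⊢
    intro i hi
    rw [Matrix.mulVec, dotProduct]
    refine Finset.sum_eq_zero fun j _ => ?_
    rcases Nat.lt_or_ge (j : ℕ) k with hj | hj
    · rw [h i j hi hj, zero_mul]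
    · rw [hv j hj, mul_zero]

/-- Block upper triangular invertible matrices. -/
noncomputable def blockTriEquiv (a b : ℕ) :
    {g : GL (Fin a ⊕ Fin b) F // (g : Matrix (Fin a ⊕ Fin b) (Fin a ⊕ Fin b) F).toBlocks₂₁ = 0} ≃
      Matrix (Fin a) (Fin b) F × GL (Fin a) F × GL (Fin b) F where
  toFun g :=
    have hdet : (g.1 : Matrix (Fin a ⊕ Fin b) (Fin a ⊕ Fin b) F).toBlocks₁₁.det *
        (g.1 : Matrix (Fin a ⊕ Fin b) (Fin a ⊕ Fin b) F).toBlocks₂₂.det ≠ 0 := by
      have h := GeneralLinearGroup.det_ne_zero g.1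
      rw [← Matrix.fromBlocks_toBlocks (g.1 : Matrix (Fin a ⊕ Fin b) (Fin a ⊕ Fin b) F), g.2,
        Matrix.det_fromBlocks_zero₂₁] at h
      exact h
    ((g.1 : Matrix (Fin a ⊕ Fin b) (Fin a ⊕ Fin b) F).toBlocks₁₂,
      GeneralLinearGroup.mkOfDetNeZero _ (left_ne_zero_of_mul hdet),
      GeneralLinearGroup.mkOfDetNeZero _ (right_ne_zero_of_mul hdet))
  invFun d := ⟨GeneralLinearGroup.mkOfDetNeZero
    (Matrix.fromBlocks (d.2.1 : Matrix (Fin a) (Fin a) F) d.1 0 (d.2.2 : Matrix (Fin b) (Fin b) F))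
    (by rw [Matrix.det_fromBlocks_zero₂₁]; exact mul_ne_zero (GeneralLinearGroup.det_ne_zero _)
          (GeneralLinearGroup.det_ne_zero _)), by simp⟩
  left_inv g := by
    apply Subtype.ext
    apply Units.ext
    simp only [GeneralLinearGroup.val_mkOfDetNeZero]
    conv_rhs => rw [← Matrix.fromBlocks_toBlocks
      (g.1 : Matrix (Fin a ⊕ Fin b) (Fin a ⊕ Fin b) F), g.2]
  right_inv d := by
    obtain ⟨m, A, B⟩ := d
    refine Prod.ext (by simp) (Prod.ext ?_ ?_) <;> · apply Units.ext; simp

/-- Order of the stabiliser of a `k`-dimensional subspace. -/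
theorem card_parabolic [Fintype F] {q : ℕ} (hF : Fintype.card F = q) (n k : ℕ) (hk : k ≤ n) :
    Nat.card ↥(Cfsg.stabilizing (Cfsg.glToMat (Fin n) F)
        {v : Fin n → F | ∀ i : Fin n, k ≤ (i : ℕ) → v i = 0}) =
      q ^ (k * (n - k)) * (∏ i : Fin k, (q ^ k - q ^ (i : ℕ))) *
        ∏ i : Fin (n - k), (q ^ (n - k) - q ^ (i : ℕ)) := by
  obtain ⟨m, rfl⟩ := Nat.exists_eq_add_of_le hk
  let e : GL (Fin (k + m)) F ≃* GL (Fin k ⊕ Fin m) F :=
    Units.mapEquiv (Matrix.reindexAlgEquiv F F finSumFinEquiv.symm).toMulEquiv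
  have he : ∀ g, g ∈ Cfsg.stabilizing (Cfsg.glToMat (Fin (k + m)) F)
        {v : Fin (k + m) → F | ∀ i : Fin (k + m), k ≤ (i : ℕ) → v i = 0} ↔
      (e g : Matrix (Fin k ⊕ Fin m) (Fin k ⊕ Fin m) F).toBlocks₂₁ = 0 := by
    intro g
    rw [mem_parabolic_iff]
    constructor
    · intro h
      ext i j
      exact h _ _ (by simp) (by simp)
    · intro h i j hi hj
      obtain ⟨i', rfl⟩ : ∃ i', finSumFinEquiv (Sum.inr i') = i :=
        ⟨⟨(i : ℕ) - k, by omega⟩, by ext; simp; omega⟩
      obtain ⟨j', rfl⟩ : ∃ j', finSumFinEquiv (Sum.inl j') = j := ⟨⟨j, hj⟩, by ext; simp⟩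
      exact congrFun (congrFun h i') j'
  rw [Nat.card_congr ((e.toEquiv.subtypeEquiv he).trans (blockTriEquiv k m)), Nat.card_prod,
    Nat.card_prod, Matrix.card_GL_field, Matrix.card_GL_field, hF, Nat.add_sub_cancel_left,
    mul_assoc]
  congr 1
  simp only [Matrix, Nat.card_fun, Nat.card_fin]
  rw [Nat.card_eq_fintype_card, hF, ← pow_mul, mul_comm]

lemma single_mem_coordSub {n k : ℕ} (i : Fin n) :
    (Pi.single i 1 : Fin n → F) ∈ coordSub F n k ↔ (i : ℕ) < k := by
  rw [mem_coordSub]
  constructor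
  · intro h
    by_contra hc
    exact one_ne_zero (α := F) (by simpa using h i (by omega))
  · intro h l hl
    rw [Pi.single_apply, if_neg]
    rintro rfl; omega

lemma coordSub_ne_bot {n k : ℕ} (hk0 : 0 < k) (hkn : k < n) : coordSub F n k ≠ ⊥ := by
  intro h
  have := (single_mem_coordSub (F := F) (n := n) (k := k) ⟨0, by omega⟩).2 hk0
  rw [h, Submodule.mem_bot] at this
  simpa using congrFun this ⟨0, by omega⟩

lemma coordSub_ne_top {n k : ℕ} (hkn : k < n) : coordSub F n k ≠ ⊤ := by
  intro h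
  have := (single_mem_coordSub (F := F) (n := n) (k := k) ⟨k, hkn⟩).1 (h ▸ Submodule.mem_top)
  simp at this

/-- The stabiliser of a proper nonzero subspace is maximal in `GL`. -/
theorem parabolic_isCoatom (n k : ℕ) (hk0 : 0 < k) (hkn : k < n) :
    IsCoatom (Cfsg.stabilizing (Cfsg.glToMat (Fin n) F)
      {v : Fin n → F | ∀ i : Fin n, k ≤ (i : ℕ) → v i = 0}) := by
  set P := Cfsg.stabilizing (Cfsg.glToMat (Fin n) F)
      {v : Fin n → F | ∀ i : Fin n, k ≤ (i : ℕ) → v i = 0} with hP
  obtain ⟨hlt, hmax⟩ := Cfsg.Agent.H98.sl_stab_maximal (coordSub F n k)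
    (coordSub_ne_bot hk0 hkn) (coordSub_ne_top hkn)
  change P ⊓ Cfsg.Geo.specialLinear (Fin n) F < _ at hlt
  change ∀ M, P ⊓ Cfsg.Geo.specialLinear (Fin n) F ≤ M → _ at hmax
  -- every determinant occurs in the stabiliser
  have hdet : ∀ u : Fˣ, ∃ s ∈ P, GeneralLinearGroup.det s = u := by
    intro u
    refine ⟨Units.map (diagonalRingHom (Fin n) F).toMonoidHom
      (MulEquiv.piUnits.symm (Function.update (1 : Fin n → Fˣ) ⟨0, by omega⟩ u)), ?_, ?_⟩
    · rw [hP, mem_parabolic_iff]
      intro i j hi hj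
      simp only [Units.coe_map, RingHom.toMonoidHom_eq_coe, MonoidHom.coe_coe,
        diagonalRingHom_apply]
      exact Matrix.diagonal_apply_ne _ (by rintro rfl; omega)
    · ext
      simp only [GeneralLinearGroup.val_det_apply, Units.coe_map, RingHom.toMonoidHom_eq_coe,
        MonoidHom.coe_coe, diagonalRingHom_apply, det_diagonal]
      rw [Finset.prod_eq_single (⟨0, by omega⟩ : Fin n)]
      · simp
      · intro b _ hb
        simp [hb]
      · simp
  constructor
  · intro htop
    rw [htop, top_inf_eq] at hlt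
    exact lt_irrefl _ hlt
  · intro M hM
    obtain ⟨g, hgM, hgP⟩ := SetLike.exists_of_lt hM
    obtain ⟨s, hs, hsd⟩ := hdet (GeneralLinearGroup.det g)⁻¹
    have h1 : g * s ∈ M ⊓ Cfsg.Geo.specialLinear (Fin n) F := by
      refine ⟨mul_mem hgM (hM.le hs), ?_⟩
      change GeneralLinearGroup.det (g * s) = 1
      rw [map_mul, hsd, mul_inv_cancel]
    have h2 : M ⊓ Cfsg.Geo.specialLinear (Fin n) F ≠ P ⊓ Cfsg.Geo.specialLinear (Fin n) F := by
      intro h
      rw [h] at h1
      exact hgP (by simpa using mul_mem (Subgroup.mem_inf.1 h1).1 (inv_mem hs))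
    have h3 := (hmax _ (inf_le_inf_right _ hM.le) inf_le_right).resolve_left h2
    rw [eq_top_iff]
    intro h _
    obtain ⟨t, ht, htd⟩ := hdet (GeneralLinearGroup.det h)⁻¹
    have h4 : h * t ∈ Cfsg.Geo.specialLinear (Fin n) F := by
      change GeneralLinearGroup.det (h * t) = 1
      rw [map_mul, htd, mul_inv_cancel]
    rw [← h3] at h4
    simpa using mul_mem (Subgroup.mem_inf.1 h4).1 (inv_mem (hM.le ht))

/-- Inverse transpose composed with reversal of the coordinates. -/
def revDual (n : ℕ) (F : Type*) [Field F] : GL (Fin n) F →* GL (Fin n) F where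
  toFun g := ⟨(((g⁻¹ : GL (Fin n) F) : Matrix (Fin n) (Fin n) F)ᵀ).submatrix Fin.revPerm Fin.revPerm,
    ((g : Matrix (Fin n) (Fin n) F)ᵀ).submatrix Fin.revPerm Fin.revPerm, by
      rw [Matrix.submatrix_mul_equiv, ← Matrix.transpose_mul, ← Units.val_mul, mul_inv_cancel,
        Units.val_one, Matrix.transpose_one, Matrix.submatrix_one_equiv], by
      rw [Matrix.submatrix_mul_equiv, ← Matrix.transpose_mul, ← Units.val_mul, inv_mul_cancel,
        Units.val_one, Matrix.transpose_one, Matrix.submatrix_one_equiv]⟩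
  map_one' := by apply Units.ext; simp
  map_mul' g h := by
    apply Units.ext
    simp only [Units.val_mul, _root_.mul_inv_rev, Matrix.transpose_mul,
      Matrix.submatrix_mul_equiv]

lemma revDual_apply {n : ℕ} (g : GL (Fin n) F) (i j : Fin n) :
    (revDual n F g : Matrix (Fin n) (Fin n) F) i j =
      ((g⁻¹ : GL (Fin n) F) : Matrix (Fin n) (Fin n) F) j.rev i.rev := rfl

lemma revDual_revDual {n : ℕ} (g : GL (Fin n) F) : revDual n F (revDual n F g) = g := by
  apply Units.ext
  ext i j
  rw [revDual_apply]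
  change ((g : Matrix (Fin n) (Fin n) F)ᵀ).submatrix Fin.revPerm Fin.revPerm j.rev i.rev = _
  simp

/-- The subspace stabilisers in complementary dimensions are isomorphic and, unless the
dimensions agree, not conjugate. -/
theorem parabolic_compl [Finite F] (n k : ℕ) (hk0 : 0 < k) (hkn : k < n) (h2 : 2 * k ≠ n) :
    Nonempty (↥(Cfsg.stabilizing (Cfsg.glToMat (Fin n) F) {v : Fin n → F | ∀ i : Fin n, k ≤ (i : ℕ) → v i = 0}) ≃*
      ↥(Cfsg.stabilizing (Cfsg.glToMat (Fin n) F) {v : Fin n → F | ∀ i : Fin n, n - k ≤ (i : ℕ) → v i = 0})) ∧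
    ∀ g : GL (Fin n) F,
      (Cfsg.stabilizing (Cfsg.glToMat (Fin n) F) {v : Fin n → F | ∀ i : Fin n, k ≤ (i : ℕ) → v i = 0}).map
          (MulAut.conj g).toMonoidHom ≠
        Cfsg.stabilizing (Cfsg.glToMat (Fin n) F) {v : Fin n → F | ∀ i : Fin n, n - k ≤ (i : ℕ) → v i = 0} := by
  set P : ℕ → Subgroup (GL (Fin n) F) := fun m => Cfsg.stabilizing (Cfsg.glToMat (Fin n) F)
    {v : Fin n → F | ∀ i : Fin n, m ≤ (i : ℕ) → v i = 0} with hPdef
  change Nonempty (P k ≃* P (n - k)) ∧ ∀ g : GL (Fin n) F,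
    (P k).map (MulAut.conj g).toMonoidHom ≠ P (n - k)
  constructor
  · have hfwd : ∀ a b : ℕ, a + b = n → ∀ g ∈ P a, revDual n F g ∈ P b := by
      intro a b hab g hg
      have hg' := (mem_parabolic_iff _).1 ((P a).inv_mem hg)
      refine (mem_parabolic_iff _).2 fun i j hi hj => ?_
      rw [revDual_apply]
      exact hg' _ _ (by rw [Fin.val_rev]; omega) (by rw [Fin.val_rev]; omega)
    exact ⟨{ toFun := fun g => ⟨revDual n F g.1, hfwd k (n - k) (by omega) g.1 g.2⟩
             invFun := fun g => ⟨revDual n F g.1, hfwd (n - k) k (by omega) g.1 g.2⟩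
             left_inv := fun g => Subtype.ext (revDual_revDual _)
             right_inv := fun g => Subtype.ext (revDual_revDual _)
             map_mul' := fun a b => Subtype.ext (by simp) }⟩
  · intro g hg
    set m := n - k with hm
    set U : Submodule F (Fin n → F) :=
      (coordSub F n k).map (g : Matrix (Fin n) (Fin n) F).mulVecLin with hU
    have hinv : ∀ h ∈ P m, ∀ u ∈ U, (h : Matrix (Fin n) (Fin n) F) *ᵥ u ∈ U := by
      intro h hh u hu
      rw [← hg] at hh
      obtain ⟨s, hs, rfl⟩ := hh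
      obtain ⟨w, hw, rfl⟩ := hu
      refine ⟨(s : Matrix (Fin n) (Fin n) F) *ᵥ w, (hs w).1 hw, ?_⟩
      simp only [Matrix.mulVecLin_apply, MulEquiv.coe_toMonoidHom, MulAut.conj_apply,
        Units.val_mul, Matrix.mulVec_mulVec]
      rw [Matrix.mul_assoc, ← Units.val_mul g⁻¹ g, inv_mul_cancel, Units.val_one, Matrix.mul_one]
    have hcard : Nat.card U = Nat.card (coordSub F n k) :=
      (Nat.card_congr (Submodule.equivMapOfInjective _
        (Cfsg.Agent.H98.gl_mulVec_injective g) _).toEquiv).symm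
    have hsingle : ∀ v ∈ U, ∀ a i : Fin n, i ≠ a → v a ≠ 0 →
        (m ≤ (a : ℕ) ∨ (i : ℕ) < m) → (Pi.single i 1 : Fin n → F) ∈ U := by
      intro v hv a i hia hva hor
      have hmem : SpecialLinearGroup.toGL (SpecialLinearGroup.transvection hia (1 : F)) ∈ P m := by
        refine (mem_parabolic_iff _).2 fun x y hx hy => ?_
        change (SpecialLinearGroup.transvection hia (1 : F)).1 x y = 0
        rw [SpecialLinearGroup.transvection_coe, Matrix.add_apply, Matrix.one_apply,
          Matrix.single_apply, if_neg (by rintro rfl; omega), if_neg (by rintro ⟨rfl, rfl⟩; omega),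
          add_zero]
      have h1 := U.sub_mem (hinv _ hmem v hv) hv
      change (SpecialLinearGroup.transvection hia (1 : F)).1 *ᵥ v - v ∈ U at h1
      rw [SpecialLinearGroup.transvection_coe, add_mulVec, one_mulVec, add_sub_cancel_left] at h1
      have h3 : Matrix.single i a (1 : F) *ᵥ v = v a • (Pi.single i 1 : Fin n → F) := by
        ext x
        simp [Matrix.single_mulVec, Function.update_apply, Pi.single_apply]
      rw [h3] at h1
      exact (U.smul_mem_iff hva).1 h1
    have hU0 : ∃ v ∈ U, v ≠ 0 := by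
      obtain ⟨w, hw, hw0⟩ := Submodule.exists_mem_ne_zero_of_ne_bot (coordSub_ne_bot (F := F) hk0 hkn)
      exact ⟨_, ⟨w, hw, rfl⟩, fun h0 => hw0 (Cfsg.Agent.H98.gl_mulVec_injective g
        (by simpa using h0))⟩
    have hall : ∀ i : Fin n, (i : ℕ) < m → (Pi.single i 1 : Fin n → F) ∈ U := by
      obtain ⟨v, hv, hv0⟩ := hU0
      obtain ⟨a, ha⟩ := Function.ne_iff.1 hv0
      intro i hi
      rcases ne_or_eq i a with hia | rfl
      · exact hsingle v hv a i hia ha (.inr hi)
      · by_cases hex : ∃ j : Fin n, j ≠ i ∧ (j : ℕ) < m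
        · obtain ⟨j, hji, hjm⟩ := hex
          have := hsingle v hv i j hji ha (.inr hjm)
          exact hsingle _ this j i hji.symm (by simp) (.inr hi)
        · by_cases hex2 : ∃ b, b ≠ i ∧ v b ≠ 0
          · obtain ⟨b, hbi, hb⟩ := hex2
            exact hsingle v hv b i hbi.symm hb (.inr hi)
          · push_neg at hex2
            have he : v = v i • (Pi.single i 1 : Fin n → F) := by
              ext x
              rcases eq_or_ne x i with rfl | hx
              · simp
              · simp [hx, hex2 x hx]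
            rw [he] at hv
            exact (U.smul_mem_iff ha).1 hv
    have hcases : coordSub F n m = U ∨ U = ⊤ := by
      by_cases hout : ∃ v ∈ U, ∃ a : Fin n, m ≤ (a : ℕ) ∧ v a ≠ 0
      · right
        obtain ⟨v, hv, a, ha, hva⟩ := hout
        have hne : ∀ i : Fin n, i ≠ a → (Pi.single i 1 : Fin n → F) ∈ U :=
          fun i hi => hsingle v hv a i hi hva (.inl ha)
        have hself : (Pi.single a 1 : Fin n → F) ∈ U := by
          have h1 : v a • (Pi.single a 1 : Fin n → F) =
              v - ∑ i ∈ Finset.univ.erase a, v i • (Pi.single i 1 : Fin n → F) := by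
            rw [eq_sub_iff_add_eq, Finset.add_sum_erase _ (fun i => v i • (Pi.single i 1 : Fin n → F))
              (Finset.mem_univ a)]
            exact (pi_eq_sum_univ' v).symm
          have h2 : v a • (Pi.single a 1 : Fin n → F) ∈ U := h1 ▸ U.sub_mem hv
            (U.sum_mem fun i hi => U.smul_mem _ (hne i (Finset.ne_of_mem_erase hi)))
          exact (U.smul_mem_iff hva).1 h2
        rw [eq_top_iff]
        intro x _
        rw [pi_eq_sum_univ' x]
        refine U.sum_mem fun i _ => U.smul_mem _ ?_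
        rcases eq_or_ne i a with rfl | hi
        · exact hself
        · exact hne i hi
      · left
        push_neg at hout
        refine le_antisymm ?_ fun v hv i hi => hout v hv i hi
        intro x hx
        rw [pi_eq_sum_univ' x]
        refine U.sum_mem fun i _ => ?_
        rcases Nat.lt_or_ge (i : ℕ) m with hi | hi
        · exact U.smul_mem _ (hall i hi)
        · rw [hx i hi, zero_smul]; exact U.zero_mem
    have hdim : ∀ j, j ≤ n → Nat.card (coordSub F n j) = Nat.card F ^ j := by
      intro j hj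
      rw [Nat.card_congr (?_ : coordSub F n j ≃ (Fin j → F)), Nat.card_fun, Nat.card_fin]
      exact
        { toFun := fun v i => v.1 (Fin.castLE hj i)
          invFun := fun f => ⟨fun i => if h : (i : ℕ) < j then f ⟨i, h⟩ else 0,
            fun i hi => dif_neg (by omega)⟩
          left_inv := fun v => by
            ext i
            by_cases h : (i : ℕ) < j
            · simp [h]
            · simp [h, v.2 i (by omega)]
          right_inv := fun f => by ext i; simp }
    have hF : 1 < Nat.card F := Finite.one_lt_card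
    rcases hcases with h | h
    · rw [← h, hdim m (by omega), hdim k hkn.le] at hcard
      have := Nat.pow_right_injective hF hcard
      omega
    · rw [h, hdim k hkn.le, Nat.card_congr Submodule.topEquiv.toEquiv, Nat.card_fun,
        Nat.card_fin] at hcard
      have := Nat.pow_right_injective hF hcard
      omega

end Cfsg.Agent.H1
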