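import Mathlib
import Cfsg.Prelude.Def_HallClasses
import Cfsg.Agent.H20.SchurZassenhaus

/-!
Existence and conjugacy of Hall subgroups pass to extensions, given that groups of odd order are
solvable.
-/

set_option autoImplicit false

open scoped Pointwise

namespace Cfsg.Agent.H1

universe u

variable {G : Type u} [Group G] [Finite G] {π : Set ℕ}

lemma coprime_of_pi_compl {m n : ℕ} (hm : ∀ p : ℕ, p.Prime → p ∣ m → p ∈ π)
    (hn : ∀ p : ℕ, p.Prime → p ∈ π → ¬ p ∣ n) : m.Coprime n :=
  Nat.coprime_of_dvd fun p hp h1 h2 => hn p hp (hm p hp h1) h2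

omit [Finite G] in
lemma card_mul_relIndex_of_le {H K : Subgroup G} (h : H ≤ K) :
    Nat.card H * H.relIndex K = Nat.card K := by
  rw [← Subgroup.relIndex_bot_left H, Subgroup.relIndex_mul_relIndex _ _ _ bot_le h,
    Subgroup.relIndex_bot_left]

lemma relIndex_mul_index_sup (H A : Subgroup G) [A.Normal] :
    H.relIndex A * (H ⊔ A).index = H.index := by
  have hA : A ≤ H ⊔ A := le_sup_right
  have h1 : A.relIndex (H ⊔ A) = A.relIndex H := by rw [sup_comm, Subgroup.relIndex_sup_left]
  have h2 : Nat.card A * A.relIndex (H ⊔ A) = Nat.card (H ⊔ A : Subgroup G) :=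
    (card_mul_relIndex_of_le hA : _)
  have h3 : Nat.card (H ⊓ A : Subgroup G) * A.relIndex H = Nat.card H := by
    rw [← Subgroup.inf_relIndex_right A H, inf_comm A H]
    exact card_mul_relIndex_of_le inf_le_left
  have h4 : Nat.card (H ⊓ A : Subgroup G) * H.relIndex A = Nat.card A := by
    rw [← Subgroup.inf_relIndex_right H A]
    exact card_mul_relIndex_of_le inf_le_right
  have h5 := Subgroup.card_mul_index (H ⊔ A)
  have h6 := Subgroup.card_mul_index H
  have hpos : 0 < Nat.card (H ⊓ A : Subgroup G) := Nat.card_pos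
  have hpos' : 0 < A.relIndex H := by
    rcases Nat.eq_zero_or_pos (A.relIndex H) with h | h
    · rw [h, mul_zero] at h3
      exact absurd h3.symm Nat.card_pos.ne'
    · exact h
  apply Nat.eq_of_mul_eq_mul_left (mul_pos hpos hpos')
  calc Nat.card (H ⊓ A : Subgroup G) * A.relIndex H * (H.relIndex A * (H ⊔ A).index)
      = (Nat.card (H ⊓ A : Subgroup G) * H.relIndex A) * A.relIndex H * (H ⊔ A).index := by ring
    _ = Nat.card (H ⊔ A : Subgroup G) * (H ⊔ A).index := by rw [h4, ← h1, h2]
    _ = Nat.card H * H.index := by rw [h5, h6]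
    _ = Nat.card (H ⊓ A : Subgroup G) * A.relIndex H * H.index := by rw [h3]

lemma isPiHall_map_mk {H : Subgroup G} (A : Subgroup G) [A.Normal] (hH : Cfsg.IsPiHall π H) :
    Cfsg.IsPiHall π (H.map (QuotientGroup.mk' A)) := by
  refine ⟨fun p hp h => hH.1 p hp (h.trans (H.card_map_dvd _)), fun p hp hπ h => hH.2 p hp hπ ?_⟩
  refine h.trans ?_
  rw [← relIndex_mul_index_sup H A, Subgroup.index_map, QuotientGroup.ker_mk',
    MonoidHom.range_eq_top.2 (QuotientGroup.mk'_surjective A), Subgroup.index_top, mul_one]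
  exact dvd_mul_left _ _

lemma isPiHall_subgroupOf {H : Subgroup G} (A : Subgroup G) [A.Normal] (hH : Cfsg.IsPiHall π H) :
    Cfsg.IsPiHall π (H.subgroupOf A) := by
  refine ⟨fun p hp h => hH.1 p hp (h.trans ?_), fun p hp hπ h => hH.2 p hp hπ ?_⟩
  · rw [← Subgroup.inf_subgroupOf_right,
      Nat.card_congr (Subgroup.subgroupOfEquivOfLe inf_le_right).toEquiv]
    exact Subgroup.card_dvd_of_le inf_le_left
  · refine h.trans ?_
    rw [← relIndex_mul_index_sup H A]
    exact dvd_mul_right _ _

omit [Finite G] in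
lemma mem_conj_map {g x : G} {H : Subgroup G} :
    x ∈ H.map (MulAut.conj g).toMonoidHom ↔ g⁻¹ * x * g ∈ H := by
  constructor
  · rintro ⟨y, hy, rfl⟩; simpa [mul_assoc] using hy
  · intro h; exact ⟨_, h, by simp [mul_assoc]⟩

omit [Finite G] in
lemma conj_map_trans (g k : G) (H : Subgroup G) :
    (H.map (MulAut.conj g).toMonoidHom).map (MulAut.conj k).toMonoidHom =
      H.map (MulAut.conj (k * g)).toMonoidHom := by
  rw [Subgroup.map_map]; congr 1; ext x; simp [mul_assoc]

omit [Finite G] in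
lemma isPiHall_conj {H : Subgroup G} (hH : Cfsg.IsPiHall π H) (g : G) :
    Cfsg.IsPiHall π (H.map (MulAut.conj g).toMonoidHom) := by
  constructor
  · rw [Nat.card_congr (Subgroup.equivMapOfInjective H _ (MulAut.conj g).injective).toEquiv.symm]
    exact hH.1
  · rw [Subgroup.index_map_of_bijective (MulAut.conj g).bijective]
    exact hH.2

/-- Conjugation by `G` on the Hall subgroups of a normal subgroup. -/
lemma exists_conj_inf (A : Subgroup G) [A.Normal] (hA : Cfsg.IsCPiGroup π A) {H K : Subgroup G}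
    (hH : Cfsg.IsPiHall π (H.subgroupOf A)) (hK : Cfsg.IsPiHall π (K.subgroupOf A)) :
    ∃ a ∈ A, (H ⊓ A).map (MulAut.conj a).toMonoidHom = K ⊓ A := by
  obtain ⟨a, ha⟩ := hA.2 _ _ hH hK
  refine ⟨a, a.2, ?_⟩
  rw [← Subgroup.subgroupOf_map_subtype K A, ha, ← Subgroup.subgroupOf_map_subtype H A,
    Subgroup.map_map, Subgroup.map_map]
  rfl

/-- Existence in an extension. -/
theorem isEPiGroup_of_extension (A : Subgroup G) [A.Normal] (hA : Cfsg.IsCPiGroup π A)
    (hQ : Cfsg.IsEPiGroup π (G ⧸ A)) : Cfsg.IsEPiGroup π G := by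
  classical
  obtain ⟨Kq, hK1, hK2⟩ := hQ
  obtain ⟨⟨H₀, hH1, hH2⟩, hconj⟩ := hA
  set K := Kq.comap (QuotientGroup.mk' A) with hK
  set X := H₀.map A.subtype with hX
  have hXA : X ≤ A := Subgroup.map_subtype_le H₀
  have hAK : A ≤ K := QuotientGroup.le_comap_mk' A Kq
  set N := Subgroup.normalizer (X : Set G) ⊓ K with hN
  have hXN : X ≤ N := le_inf Subgroup.le_normalizer (hXA.trans hAK)
  have hXsub : X.subgroupOf A = H₀ := Subgroup.comap_map_eq_self_of_injective A.subtype_injective H₀
  have hcX : Nat.card X = Nat.card H₀ :=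
    (Nat.card_congr (Subgroup.equivMapOfInjective H₀ _ A.subtype_injective).toEquiv).symm
  have hfr : N ⊔ A = K := by
    refine le_antisymm (sup_le inf_le_right hAK) fun k hk => ?_
    have hXk : Cfsg.IsPiHall π ((X.map (MulAut.conj k).toMonoidHom).subgroupOf A) := by
      have hle : X.map (MulAut.conj k).toMonoidHom ≤ A := fun x hx => by
        have h := (inferInstance : A.Normal).conj_mem _ (hXA (mem_conj_map.1 hx)) k
        simpa [mul_assoc] using h
      have hc : Nat.card ((X.map (MulAut.conj k).toMonoidHom).subgroupOf A) = Nat.card H₀ := by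
        rw [Nat.card_congr (Subgroup.subgroupOfEquivOfLe hle).toEquiv, ← hcX]
        exact (Nat.card_congr
          (Subgroup.equivMapOfInjective X _ (MulAut.conj k).injective).toEquiv).symm
      refine ⟨fun p hp h => hH1 p hp (hc ▸ h), fun p hp hπ h => hH2 p hp hπ ?_⟩
      have e1 := Subgroup.card_mul_index H₀
      have e2 := Subgroup.card_mul_index ((X.map (MulAut.conj k).toMonoidHom).subgroupOf A)
      rw [hc, ← e1] at e2
      rwa [← Nat.eq_of_mul_eq_mul_left Nat.card_pos e2]
    obtain ⟨a, ha, hak⟩ := exists_conj_inf A ⟨⟨H₀, hH1, hH2⟩, hconj⟩ (H := X)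
      (K := X.map (MulAut.conj k).toMonoidHom) (hXsub.symm ▸ ⟨hH1, hH2⟩) hXk
    have hle : X.map (MulAut.conj k).toMonoidHom ≤ A := fun x hx => by
      have h := (inferInstance : A.Normal).conj_mem _ (hXA (mem_conj_map.1 hx)) k
      simpa [mul_assoc] using h
    rw [inf_eq_left.2 hXA, inf_eq_left.2 hle] at hak
    have hn : a⁻¹ * k ∈ N := by
      refine ⟨?_, K.mul_mem (K.inv_mem (hAK ha)) hk⟩
      show a⁻¹ * k ∈ Subgroup.normalizer (X : Set G)
      rw [Subgroup.mem_normalizer_iff]
      intro x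
      have h1 : k * x * k⁻¹ ∈ X.map (MulAut.conj k).toMonoidHom ↔ x ∈ X := by
        rw [mem_conj_map]; simp [mul_assoc]
      rw [← h1, ← hak, mem_conj_map]
      simp [mul_assoc]
    have hka : k = a * (a⁻¹ * k) := by group
    rw [hka]
    exact Subgroup.mul_mem _ (Subgroup.mem_sup_right ha) (Subgroup.mem_sup_left hn)
  let X' := X.subgroupOf N
  haveI : X'.Normal := Subgroup.normal_subgroupOf_of_le_normalizer inf_le_left
  let q := QuotientGroup.mk' X'
  let M := (A.subgroupOf N).map q
  haveI : M.Normal := Subgroup.Normal.map (inferInstance : (A.subgroupOf N).Normal) q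
    (QuotientGroup.mk'_surjective X')
  have hX'A : X' ≤ A.subgroupOf N := fun x hx => hXA hx
  have hMidx : M.index = A.relIndex N := by
    rw [Subgroup.index_map, QuotientGroup.ker_mk', sup_eq_left.2 hX'A,
      MonoidHom.range_eq_top.2 (QuotientGroup.mk'_surjective X'), Subgroup.index_top, mul_one]
    rfl
  have hAN : A.relIndex N = Nat.card Kq := by
    rw [← Subgroup.relIndex_sup_left N A, sup_comm, hfr]
    have h1 : Nat.card A * A.relIndex K = Nat.card K := card_mul_relIndex_of_le hAK
    have h2 : Nat.card K = Nat.card Kq * Nat.card A := H19.card_comap_mk A Kq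
    rw [h2, mul_comm (Nat.card Kq)] at h1
    exact Nat.eq_of_mul_eq_mul_left Nat.card_pos h1
  have hMcard : Nat.card M ∣ H₀.index := by
    have h1 : Nat.card M = X'.relIndex (A.subgroupOf N) := by
      show Nat.card ((A.subgroupOf N).map q) = _
      rw [← Subgroup.relIndex_bot_left, ← QuotientGroup.map_mk'_self X', Subgroup.relIndex_map_map,
        QuotientGroup.ker_mk', sup_eq_left.2 le_rfl, sup_eq_left.2 hX'A]
    have h2 : X'.relIndex (A.subgroupOf N) = X.relIndex (A ⊓ N) := by
      rw [← Subgroup.inf_subgroupOf_right A N]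
      exact Subgroup.relIndex_subgroupOf inf_le_right
    rw [h1, h2, ← hXsub]
    exact Dvd.intro _ (Subgroup.relIndex_mul_relIndex X (A ⊓ N) A (le_inf hXA hXN) inf_le_left)
  have hcop : (Nat.card M).Coprime M.index := by
    rw [hMidx, hAN]
    exact ((coprime_of_pi_compl hK1 hH2).symm).coprime_dvd_left hMcard
  obtain ⟨T, hT⟩ := Subgroup.exists_right_complement'_of_coprime hcop
  set S := (T.comap q).map N.subtype with hS
  have hcS : Nat.card S = Nat.card Kq * Nat.card H₀ := by
    rw [hS, ← Nat.card_congr (Subgroup.equivMapOfInjective _ _ N.subtype_injective).toEquiv,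
      H19.card_comap_mk X' T, hT.symm.index_eq_card.symm, hMidx, hAN,
      Nat.card_congr (Subgroup.subgroupOfEquivOfLe hXN).toEquiv, hcX]
  refine ⟨S, fun p hp h => ?_, fun p hp hπ h => ?_⟩
  · rw [hcS] at h
    rcases hp.dvd_mul.1 h with h | h
    · exact hK1 p hp h
    · exact hH1 p hp h
  · have e : S.index = H₀.index * Kq.index := by
      apply Nat.eq_of_mul_eq_mul_left (Nat.card_pos (α := S))
      rw [Subgroup.card_mul_index, hcS, ← Subgroup.card_mul_index A, Subgroup.index_eq_card,
        ← Subgroup.card_mul_index H₀, ← Subgroup.card_mul_index Kq]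
      ring
    rw [e] at h
    rcases hp.dvd_mul.1 h with h | h
    · exact hH2 p hp hπ h
    · exact hK2 p hp hπ h

/-- Conjugacy in an extension. -/
theorem isCPiGroup_of_extension (A : Subgroup G) [A.Normal] (hA : Cfsg.IsCPiGroup π A)
    (hQ : Cfsg.IsCPiGroup π (G ⧸ A))
    (hodd : ∀ (L : Type u) [Group L] [Finite L], Odd (Nat.card L) → Group.IsSolvable L) :
    Cfsg.IsCPiGroup π G := by
  refine ⟨isEPiGroup_of_extension A hA hQ.1, fun H₁ K hH₁ hK => ?_⟩
  obtain ⟨gq, hgq⟩ := hQ.2 _ _ (isPiHall_map_mk A hH₁) (isPiHall_map_mk A hK)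
  obtain ⟨g, rfl⟩ := QuotientGroup.mk'_surjective A gq
  set H₂ := H₁.map (MulAut.conj g).toMonoidHom with hH₂d
  have hH₂ : Cfsg.IsPiHall π H₂ := isPiHall_conj hH₁ g
  have hmap₂ : H₂.map (QuotientGroup.mk' A) = K.map (QuotientGroup.mk' A) := by
    rw [hgq, hH₂d, Subgroup.map_map, Subgroup.map_map]
    congr 1
  obtain ⟨a, ha, hainf⟩ := exists_conj_inf A hA (isPiHall_subgroupOf A hH₂)
    (isPiHall_subgroupOf A hK)
  set H := H₂.map (MulAut.conj a).toMonoidHom with hHd
  have hH : Cfsg.IsPiHall π H := isPiHall_conj hH₂ a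
  suffices ∃ n : G, K = H.map (MulAut.conj n).toMonoidHom by
    obtain ⟨n, hn⟩ := this
    exact ⟨n * (a * g), by rw [hn, hHd, hH₂d, conj_map_trans, conj_map_trans, mul_assoc]⟩
  have hinf : H ⊓ A = K ⊓ A := by
    rw [← hainf, hHd, Subgroup.map_inf _ _ _ (MulAut.conj a).injective]
    congr 1
    ext x
    rw [mem_conj_map]
    constructor
    · intro h
      simpa [mul_assoc] using (inferInstance : A.Normal).conj_mem _ h a⁻¹
    · intro h
      simpa [mul_assoc] using (inferInstance : A.Normal).conj_mem _ h a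
  have hmap : H.map (QuotientGroup.mk' A) = K.map (QuotientGroup.mk' A) := by
    rw [← hmap₂, hHd, Subgroup.map_map]
    congr 1
    ext x
    simp [(QuotientGroup.eq_one_iff a).2 ha]
  set X := K ⊓ A with hXd
  set N := Subgroup.normalizer (X : Set G) with hNd
  have hnorm : ∀ L : Subgroup G, L ⊓ A = X → L ≤ N := by
    intro L hL x hx
    rw [hNd, Subgroup.mem_normalizer_iff]
    intro y
    rw [← hL]
    constructor
    · rintro ⟨h1, h2⟩
      exact ⟨L.mul_mem (L.mul_mem hx h1) (L.inv_mem hx),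
        (inferInstance : A.Normal).conj_mem _ h2 x⟩
    · rintro ⟨h1, h2⟩
      refine ⟨?_, ?_⟩
      · simpa [mul_assoc] using L.mul_mem (L.mul_mem (L.inv_mem hx) h1) hx
      · simpa [mul_assoc] using (inferInstance : A.Normal).conj_mem _ h2 x⁻¹
  have hHN : H ≤ N := hnorm H hinf
  have hKN : K ≤ N := hnorm K rfl
  have hXN : X ≤ N := Subgroup.le_normalizer
  let X' := X.subgroupOf N
  haveI : X'.Normal := Subgroup.normal_subgroupOf_of_le_normalizer le_rfl
  let q := QuotientGroup.mk' X'
  let M := (A.subgroupOf N).map q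
  haveI : M.Normal := Subgroup.Normal.map (inferInstance : (A.subgroupOf N).Normal) q
    (QuotientGroup.mk'_surjective X')
  have hX'A : X' ≤ A.subgroupOf N := fun x hx => hx.2
  have hMpi : ∀ p : ℕ, p.Prime → p ∈ π → ¬ p ∣ Nat.card M := by
    intro p hp hπ h
    refine hK.2 p hp hπ (h.trans ?_)
    have h1 : Nat.card M = X'.relIndex (A.subgroupOf N) := by
      show Nat.card ((A.subgroupOf N).map q) = _
      rw [← Subgroup.relIndex_bot_left, ← QuotientGroup.map_mk'_self X', Subgroup.relIndex_map_map,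
        QuotientGroup.ker_mk', sup_eq_left.2 le_rfl, sup_eq_left.2 hX'A]
    have h2 : X'.relIndex (A.subgroupOf N) = X.relIndex (A ⊓ N) := by
      rw [← Subgroup.inf_subgroupOf_right A N]
      exact Subgroup.relIndex_subgroupOf inf_le_right
    rw [h1, h2]
    refine (Dvd.intro _ (Subgroup.relIndex_mul_relIndex X (A ⊓ N) A (le_inf inf_le_right hXN)
      inf_le_left)).trans ?_
    rw [hXd, Subgroup.inf_relIndex_right, ← relIndex_mul_index_sup K A]
    exact dvd_mul_right _ _
  have hpi : ∀ L : Subgroup G, (∀ p : ℕ, p.Prime → p ∣ Nat.card L → p ∈ π) → L ≤ N →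
      ∀ p : ℕ, p.Prime → p ∣ Nat.card ((L.subgroupOf N).map q) → p ∈ π := by
    intro L hL hLN p hp h
    refine hL p hp (h.trans ((Subgroup.card_map_dvd _ _).trans ?_))
    rw [Nat.card_congr (Subgroup.subgroupOfEquivOfLe hLN).toEquiv]
  have hcop : (Nat.card ((H.subgroupOf N).map q)).Coprime (Nat.card M) :=
    coprime_of_pi_compl (hpi H hH.1 hHN) hMpi
  have hsub : K.subgroupOf N ≤ A.subgroupOf N ⊔ H.subgroupOf N := by
    intro x hx
    have h1 : QuotientGroup.mk' A (x : G) ∈ H.map (QuotientGroup.mk' A) := by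
      rw [hmap]; exact Subgroup.mem_map_of_mem _ hx
    obtain ⟨y, hy, hyx⟩ := h1
    have h2 : (x : G) * y⁻¹ ∈ A := by
      rw [← QuotientGroup.eq_one_iff]
      show QuotientGroup.mk' A _ = 1
      rw [map_mul, map_inv, hyx, mul_inv_cancel]
    have hxy : x = (⟨(x : G) * y⁻¹, N.mul_mem x.2 (N.inv_mem (hHN hy))⟩ : N) * ⟨y, hHN hy⟩ :=
      Subtype.ext (by simp)
    rw [hxy]
    exact Subgroup.mul_mem _ (Subgroup.mem_sup_left (show _ ∈ A.subgroupOf N from h2))
      (Subgroup.mem_sup_right (show _ ∈ H.subgroupOf N from hy))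
  have hkerH : X' ≤ H.subgroupOf N := fun x hx => (hinf.symm.le hx).1
  have hkerK : X' ≤ K.subgroupOf N := fun x hx => hx.1
  have hcard : Nat.card ((K.subgroupOf N).map q) = Nat.card ((H.subgroupOf N).map q) := by
    have e : ∀ L : Subgroup G, L ⊓ A = X → L ≤ N →
        Nat.card L = Nat.card X * A.relIndex L := by
      intro L hL _
      rw [← Subgroup.inf_relIndex_right A L, inf_comm, hL]
      exact (card_mul_relIndex_of_le (hL ▸ inf_le_left)).symm
    have eA : ∀ L : Subgroup G, A.relIndex L = Nat.card (L.map (QuotientGroup.mk' A)) := by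
      intro L
      rw [← Subgroup.relIndex_bot_left (L.map _), ← QuotientGroup.map_mk'_self A,
        Subgroup.relIndex_map_map, QuotientGroup.ker_mk', sup_idem, sup_comm,
        Subgroup.relIndex_sup_left]
    have hcardHK : Nat.card H = Nat.card K := by
      rw [e H hinf hHN, e K rfl hKN, eA H, eA K, hmap]
    have hm : ∀ L : Subgroup N, X' ≤ L → Nat.card L = Nat.card (L.map q) * Nat.card X' := by
      intro L hL
      conv_lhs => rw [← sup_eq_left.2 hL, ← QuotientGroup.ker_mk' X', ← Subgroup.comap_map_eq]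
      exact H19.card_comap_mk X' _
    have hKc := hm _ hkerK
    have hHc := hm _ hkerH
    rw [Nat.card_congr (Subgroup.subgroupOfEquivOfLe hKN).toEquiv] at hKc
    rw [Nat.card_congr (Subgroup.subgroupOfEquivOfLe hHN).toEquiv, hcardHK, hKc] at hHc
    exact Nat.eq_of_mul_eq_mul_right Nat.card_pos hHc
  have hsolv : Group.IsSolvable ((H.subgroupOf N).map q) ∨ Group.IsSolvable M := by
    rcases Nat.even_or_odd (Nat.card ((H.subgroupOf N).map q)) with h | h
    · refine Or.inr (hodd M (Nat.not_even_iff_odd.1 fun h' => ?_))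
      exact Nat.prime_two.not_dvd_one
        (hcop ▸ Nat.dvd_gcd (even_iff_two_dvd.1 h) (even_iff_two_dvd.1 h'))
    · exact Or.inl (hodd _ h)
  obtain ⟨m, -, hm⟩ := H20.exists_conj_eq_of_coprime (N := M) (H := (H.subgroupOf N).map q)
    (K := (K.subgroupOf N).map q) (by rw [Subgroup.normalizer_eq_top_iff.2 inferInstance]; exact le_top) hcop hsolv
    ((Subgroup.map_mono hsub).trans (Subgroup.map_sup _ _ q).le) hcard
  obtain ⟨x, rfl⟩ := QuotientGroup.mk'_surjective X' m
  refine ⟨(x : G), ?_⟩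
  have e1 : (K.subgroupOf N).map q =
      ((H.subgroupOf N).map (MulAut.conj x).toMonoidHom).map q := by
    rw [← hm]
    show Subgroup.map (MulAut.conj (q x)).toMonoidHom ((H.subgroupOf N).map q) = _
    rw [Subgroup.map_map, Subgroup.map_map]
    congr 1
  have hk : X' ≤ (H.subgroupOf N).map (MulAut.conj x).toMonoidHom := fun y hy =>
    mem_conj_map.2 (hkerH (by
      simpa [mul_assoc] using (inferInstance : X'.Normal).conj_mem _ hy x⁻¹))
  have e2 := congrArg (Subgroup.comap q) e1
  rw [Subgroup.comap_map_eq, Subgroup.comap_map_eq, QuotientGroup.ker_mk', sup_eq_left.2 hkerK,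
    sup_eq_left.2 hk] at e2
  have e3 := congrArg (Subgroup.map N.subtype) e2
  rw [Subgroup.map_subgroupOf_eq_of_le hKN, Subgroup.map_map] at e3
  rw [e3]
  conv_rhs => rw [← Subgroup.map_subgroupOf_eq_of_le hHN, Subgroup.map_map]
  rfl

end Cfsg.Agent.H1
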