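import Mathlib

set_option autoImplicit false

namespace Cfsg.Agent.H1

open Matrix

variable {ι : Type*} [DecidableEq ι] [Fintype ι] {F : Type*} [Field F]

/-- The normaliser of the diagonal torus is the monomial group. -/
theorem mem_normalizer_diagonal_iff (hF : ∃ a : F, a ≠ 0 ∧ a ≠ 1) (g : GL ι F) :
    g ∈ Subgroup.normalizer ((Units.map (Matrix.diagonalRingHom ι F).toMonoidHom).range :
        Subgroup (GL ι F)) ↔
      ∀ i : ι, ∃! j : ι, (g : Matrix ι ι F) i j ≠ 0 := by
  set D : Subgroup (GL ι F) := (Units.map (Matrix.diagonalRingHom ι F).toMonoidHom).range with hD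
  have hmk : ∀ d : ι → Fˣ, ∃ u : GL ι F, u ∈ D ∧
      (u : Matrix ι ι F) = diagonal (fun i => (d i : F)) := by
    intro d
    refine ⟨Units.map (Matrix.diagonalRingHom ι F).toMonoidHom (MulEquiv.piUnits.symm d),
      ⟨_, rfl⟩, ?_⟩
    ext i j
    simp [Matrix.diagonal_apply]
  have hdec : ∀ u ∈ D, ∃ d : ι → Fˣ, (u : Matrix ι ι F) = diagonal (fun i => (d i : F)) := by
    rintro u ⟨e, rfl⟩
    refine ⟨MulEquiv.piUnits e, ?_⟩
    ext i j
    simp [Matrix.diagonal_apply]
  have hrow : ∀ i, ∃ j, (g : Matrix ι ι F) i j ≠ 0 := by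
    intro i
    by_contra h
    push_neg at h
    exact GeneralLinearGroup.det_ne_zero g (Matrix.det_eq_zero_of_row_eq_zero i h)
  rw [Subgroup.mem_normalizer_iff]
  constructor
  · intro h i
    obtain ⟨j, hj⟩ := hrow i
    refine ⟨j, hj, fun l hl => ?_⟩
    by_contra hlj
    obtain ⟨a, ha0, ha1⟩ := hF
    obtain ⟨u, hu, huv⟩ := hmk (Function.update (1 : ι → Fˣ) j (Units.mk0 a ha0))
    obtain ⟨d', hd'⟩ := hdec _ ((h u).1 hu)
    have heq : (g : Matrix ι ι F) * (u : Matrix ι ι F) =
        diagonal (fun i => (d' i : F)) * (g : Matrix ι ι F) := by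
      rw [← hd', ← Units.val_mul, ← Units.val_mul]
      congr 1
      group
    have e1 := congrFun (congrFun heq i) j
    have e2 := congrFun (congrFun heq i) l
    rw [huv, Matrix.mul_diagonal, Matrix.diagonal_mul] at e1 e2
    simp [hlj] at e1 e2
    have h1 : a = d' i := mul_left_cancel₀ hj (by rw [e1, mul_comm])
    have h2 : (1 : F) = d' i := mul_left_cancel₀ hl (by rw [mul_one, mul_comm]; exact (by simpa [hl] using e2))
    exact ha1 (h1.trans h2.symm)
  · intro h
    choose σ hσ hσu using h
    have hz : ∀ i j, j ≠ σ i → (g : Matrix ι ι F) i j = 0 := fun i j hj =>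
      by_contra fun hne => hj (hσu i j hne)
    have hsurj : Function.Surjective σ := by
      intro j
      by_contra hj
      push_neg at hj
      exact GeneralLinearGroup.det_ne_zero g
        (Matrix.det_eq_zero_of_column_eq_zero j fun i => hz i j (Ne.symm (hj i)))
    let e : ι ≃ ι := Equiv.ofBijective σ (Finite.surjective_iff_bijective.1 hsurj)
    have hcomm : ∀ d : ι → F, (g : Matrix ι ι F) * diagonal d =
        diagonal (fun i => d (σ i)) * (g : Matrix ι ι F) := by
      intro d
      ext i j
      rw [Matrix.mul_diagonal, Matrix.diagonal_mul]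
      rcases eq_or_ne j (σ i) with rfl | hj
      · rw [mul_comm]
      · simp [hz i j hj]
    intro u
    constructor
    · intro hu
      obtain ⟨d, hd⟩ := hdec u hu
      obtain ⟨w, hw, hwv⟩ := hmk (fun i => d (σ i))
      convert hw using 1
      rw [mul_inv_eq_iff_eq_mul]
      apply Units.ext
      rw [Units.val_mul, Units.val_mul, hd, hwv, hcomm]
    · intro hu
      obtain ⟨d, hd⟩ := hdec _ hu
      obtain ⟨w, hw, hwv⟩ := hmk (fun j => d (e.symm j))
      convert hw using 1
      have h1 : g * u = g * w := by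
        apply Units.ext
        rw [Units.val_mul g w, hwv, hcomm]
        have h2 : g * u = (g * u * g⁻¹) * g := by group
        rw [h2, Units.val_mul _ g, hd]
        congr 1
        funext i
        exact congrArg diagonal (funext fun i => by simp [e, Equiv.ofBijective_symm_apply_apply]) |>
          fun h => congrFun h i
      exact mul_left_cancel h1

end Cfsg.Agent.H1
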