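import Cfsg.Agent.H1.Orders

set_option autoImplicit false

namespace Cfsg.Agent.H1

open Matrix

/-- Matrices of the images of the quaternion group in `SL₂(3)`. -/
def q8Mat : QuaternionGroup 2 → Matrix (Fin 2) (Fin 2) (ZMod 3)
  | .a i => !![0, -1; 1, 0] ^ i.val
  | .xa i => !![1, 1; 1, -1] * !![0, -1; 1, 0] ^ i.val

set_option maxRecDepth 4000 in
lemma q8Mat_det : ∀ x, (q8Mat x).det = 1 := by
  intro x
  rcases x with i | i <;> (revert i; decide)

set_option maxRecDepth 4000 in
lemma q8Mat_mul : ∀ x y, q8Mat (x * y) = q8Mat x * q8Mat y := by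
  intro x y
  rcases x with i | i <;> rcases y with j | j <;> (revert i j; decide)

/-- The quaternion group inside `SL₂(3)`. -/
def q8Hom : QuaternionGroup 2 →* SpecialLinearGroup (Fin 2) (ZMod 3) where
  toFun x := ⟨q8Mat x, q8Mat_det x⟩
  map_one' := Subtype.ext (by decide)
  map_mul' x y := Subtype.ext (q8Mat_mul x y)

set_option maxRecDepth 4000 in
lemma q8Hom_injective : Function.Injective q8Hom := by
  rw [injective_iff_map_eq_one]
  intro x hx
  have h : q8Mat x = 1 := congrArg Subtype.val hx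
  revert h
  rcases x with i | i <;> (revert i; decide)

/-- The image of `q8Hom` consists of `±1` and the trace zero elements. -/
lemma q8Hom_range_eq (g : SpecialLinearGroup (Fin 2) (ZMod 3)) :
    g ∈ q8Hom.range ↔ ((g : Matrix (Fin 2) (Fin 2) (ZMod 3)).trace = 0 ∨
      (g : Matrix (Fin 2) (Fin 2) (ZMod 3)) = 1 ∨ (g : Matrix (Fin 2) (Fin 2) (ZMod 3)) = -1) := by
  constructor
  · rintro ⟨x, rfl⟩
    change (q8Mat x).trace = 0 ∨ q8Mat x = 1 ∨ q8Mat x = -1
    rcases x with i | i <;> (revert i; decide)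
  · intro h
    have key : ∀ a b c d : ZMod 3, a * d - b * c = 1 →
        (a + d = 0 ∨ (a = 1 ∧ b = 0 ∧ c = 0 ∧ d = 1) ∨ (a = -1 ∧ b = 0 ∧ c = 0 ∧ d = -1)) →
        ∃ i : ZMod (2 * 2), q8Mat (.a i) = !![a, b; c, d] ∨ q8Mat (.xa i) = !![a, b; c, d] := by
      decide
    have hd := g.2
    rw [Matrix.det_fin_two] at hd
    obtain ⟨x, hx⟩ := key _ _ _ _ hd (by
      rcases h with h | h | h
      · left; simpa [Matrix.trace_fin_two] using h
      · right; left; simp [h]
      · right; right; simp [h])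
    rcases hx with hx | hx
    · exact ⟨.a x, Subtype.ext (hx.trans (Matrix.eta_fin_two _).symm)⟩
    · exact ⟨.xa x, Subtype.ext (hx.trans (Matrix.eta_fin_two _).symm)⟩

/-- The quaternion subgroup of `SL₂(3)` is normal. -/
lemma q8Hom_range_normal : q8Hom.range.Normal := by
  constructor
  intro n hn g
  rw [q8Hom_range_eq] at hn ⊢
  have hinv : ((g⁻¹ : SpecialLinearGroup (Fin 2) (ZMod 3)) : Matrix (Fin 2) (Fin 2) (ZMod 3)) *
      (g : Matrix (Fin 2) (Fin 2) (ZMod 3)) = 1 :=
    congrArg Subtype.val (inv_mul_cancel g)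
  have hinv2 : (g : Matrix (Fin 2) (Fin 2) (ZMod 3)) *
      ((g⁻¹ : SpecialLinearGroup (Fin 2) (ZMod 3)) : Matrix (Fin 2) (Fin 2) (ZMod 3)) = 1 :=
    congrArg Subtype.val (mul_inv_cancel g)
  change ((g : Matrix (Fin 2) (Fin 2) (ZMod 3)) * (n : Matrix (Fin 2) (Fin 2) (ZMod 3)) * ((g⁻¹ : SpecialLinearGroup (Fin 2) (ZMod 3)) :
      Matrix (Fin 2) (Fin 2) (ZMod 3))).trace = 0 ∨
    (g : Matrix (Fin 2) (Fin 2) (ZMod 3)) * (n : Matrix (Fin 2) (Fin 2) (ZMod 3)) * ((g⁻¹ : SpecialLinearGroup (Fin 2) (ZMod 3)) :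
      Matrix (Fin 2) (Fin 2) (ZMod 3)) = 1 ∨
    (g : Matrix (Fin 2) (Fin 2) (ZMod 3)) * (n : Matrix (Fin 2) (Fin 2) (ZMod 3)) * ((g⁻¹ : SpecialLinearGroup (Fin 2) (ZMod 3)) :
      Matrix (Fin 2) (Fin 2) (ZMod 3)) = -1
  rcases hn with h | h | h
  · left
    rw [Matrix.trace_mul_cycle, hinv, Matrix.one_mul, h]
  · right; left
    rw [h, Matrix.mul_one, hinv2]
  · right; right
    rw [h, Matrix.mul_neg, Matrix.mul_one, Matrix.neg_mul, hinv2]

/-- `SL₂(3)` has a normal quaternion subgroup of index 3 and centre of order 2. -/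
theorem SL_two_three_normal_quaternion {F : Type*} [Field F] [Fintype F]
    (hF : Fintype.card F = 3) :
    (∃ Q : Subgroup (SpecialLinearGroup (Fin 2) F), Q.Normal ∧ Q.index = 3 ∧
      Nonempty (Q ≃* QuaternionGroup 2)) ∧
      Nat.card (Subgroup.center (SpecialLinearGroup (Fin 2) F)) = 2 := by
  have : Fact (Nat.Prime 3) := ⟨Nat.prime_three⟩
  refine ⟨?_, by rw [card_center_SL, Fintype.card_fin, natCard_units hF]; rfl⟩
  let e : ZMod 3 ≃+* F := ZMod.ringEquivOfPrime F Nat.prime_three hF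
  let f : QuaternionGroup 2 →* SpecialLinearGroup (Fin 2) F :=
    (SpecialLinearGroup.map e.toRingHom).comp q8Hom
  have hm : Function.Bijective (SpecialLinearGroup.map (n := Fin 2) e.toRingHom) := by
    constructor
    · intro a b h
      ext i j
      have := congrFun (congrFun (congrArg Subtype.val h) i) j
      exact e.injective this
    · intro b
      refine ⟨SpecialLinearGroup.map e.symm.toRingHom b, ?_⟩
      ext i j
      exact e.apply_symm_apply _
  have hf : Function.Injective f := hm.1.comp q8Hom_injective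
  have hr : f.range = q8Hom.range.map (SpecialLinearGroup.map e.toRingHom) := by
    rw [MonoidHom.range_comp]
  refine ⟨f.range, ?_, ?_, ⟨(MonoidHom.ofInjective hf).symm⟩⟩
  · rw [hr]
    exact q8Hom_range_normal.map _ hm.2
  · have h1 := f.range.index_mul_card
    rw [← Nat.card_congr (MonoidHom.ofInjective hf).toEquiv, Nat.card_eq_fintype_card, QuaternionGroup.card] at h1
    have h2 := sub_one_mul_card_SL hF 2 (by norm_num)
    norm_num [Fin.prod_univ_two] at h2
    rw [← Nat.mul_left_inj (show (4 * 2) ≠ 0 by norm_num), h1]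
    omega

end Cfsg.Agent.H1
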