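import Cfsg.Agent.H1.TensorFrame

/-!
The frames of the three-dimensional orthogonal group over three elements and of the
two-dimensional unitary group over four elements, and the vectors needed for non-maximality.
-/

set_option autoImplicit false

namespace Cfsg.Agent.H1.TensorNM

open Matrix
open scoped Kronecker

variable {F : Type*} [Field F] {σ : F →+* F} {sg : F}

/-- Vectors of one frame vector each give a monomial action. -/
theorem frame_of_single {t : ℕ} {f : (Fin t → F) → (Fin t → F) → F} (hf : Sesq σ sg f)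
    {w : Fin t → Fin t → F} {ε μ : F} (hε : ε ≠ 0) (hw : ∀ k, f (w k) (w k) = ε)
    (ho : ∀ i j, i ≠ j → f (w i) (w j) = 0) (b : (Fin t → F) →ₗ[F] (Fin t → F))
    (hb : ∀ z z', f (b z) (b z') = μ * f z z')
    (h : ∀ k, ∃ (i : Fin t) (d : F), d ≠ 0 ∧ b (w k) = d • w i) :
    ∃ (π : Equiv.Perm (Fin t)) (d : Fin t → F), ∀ k, d k ≠ 0 ∧ b (w k) = d k • w (π k) := by
  choose i d hd hbd using h
  have hinj : Function.Injective i := by
    intro k k' he
    by_contra hne
    have h1 := hb (w k) (w k')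
    rw [hbd, hbd, ho k k' hne, mul_zero, he, hf.smul_left, hf.smul_right, hw] at h1
    rcases mul_eq_zero.1 h1 with h2 | h2
    · exact hd k h2
    · rcases mul_eq_zero.1 h2 with h3 | h3
      · exact hd k' ((map_eq_zero σ).1 h3)
      · exact hε h3
  exact ⟨Equiv.ofBijective i ⟨hinj, Finite.injective_iff_surjective.1 hinj⟩, d,
    fun k => ⟨hd k, hbd k⟩⟩

section Three

variable [Fintype F]

theorem three_facts (h : Fintype.card F = 3) :
    (3 : F) = 0 ∧ (2 : F) ≠ 0 ∧ ∀ a : F, a ≠ 0 → a * a = 1 := by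
  have h3 : (3 : F) = 0 := by
    have := FiniteField.cast_card_eq_zero F
    rw [h] at this
    exact_mod_cast this
  refine ⟨h3, fun h2 => one_ne_zero (α := F) (by linear_combination h3 - h2), fun a ha => ?_⟩
  have := FiniteField.pow_card_sub_one_eq_one a ha
  rw [h] at this
  rw [← this]; ring

theorem three_cases (h : Fintype.card F = 3) (a : F) : a = 0 ∨ a = 1 ∨ a = -1 := by
  rcases eq_or_ne a 0 with ha | ha
  · exact Or.inl ha
  · exact Or.inr (mul_self_eq_one_iff.1 ((three_facts h).2.2 a ha))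

theorem three_good (h : Fintype.card F = 3) {a : F} (ha : a ≠ 0) :
    Good (RingHom.id F) (1 : F) a a⁻¹ := by
  obtain ⟨h3, h2, -⟩ := three_facts h
  refine ⟨inv_ne_zero ha, ?_, ?_⟩
  · rw [inv_mul_cancel₀ ha]; exact fun e => h2 (by linear_combination e)
  · rw [RingHom.id_apply]
    field_simp
    linear_combination h3

omit [Fintype F] in
theorem polar_zero {κ : Type} (h2 : (2 : F) ≠ 0) {f : (κ → F) → (κ → F) → F}
    (hf : Sesq (RingHom.id F) (1 : F) f) (W : Submodule F (κ → F))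
    (hW : ∀ x ∈ W, f x x = 0) : ∀ x ∈ W, ∀ y ∈ W, f x y = 0 := by
  intro x hx y hy
  have h := hW _ (W.add_mem hx hy)
  rw [hf.add_left, hf.add_right, hf.add_right, hW x hx, hW y hy, hf.herm x y, RingHom.id_apply] at h
  exact (mul_eq_zero.1 (show (2 : F) * f x y = 0 by linear_combination h)).resolve_left h2

/-- An orthogonal frame of constant norm. -/
theorem three_frame (h : Fintype.card F = 3) {f : (Fin 3 → F) → (Fin 3 → F) → F}
    (hf : Sesq (RingHom.id F) (1 : F) f) (hnd : ∀ w, w ≠ 0 → ∃ z, f z w ≠ 0) :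
    ∃ (w : Fin 3 → Fin 3 → F) (ε : F), ε ≠ 0 ∧ (∀ k, f (w k) (w k) = ε) ∧
      (∀ i j, i ≠ j → f (w i) (w j) = 0) ∧
      ∀ (b : (Fin 3 → F) →ₗ[F] (Fin 3 → F)) (μ : F), μ ≠ 0 →
        (∀ z z', f (b z) (b z') = μ * f z z') →
        ∃ (π : Equiv.Perm (Fin 3)) (d : Fin 3 → F), ∀ k, d k ≠ 0 ∧ b (w k) = d k • w (π k) := by
  obtain ⟨h3, h2, hsq⟩ := three_facts h
  obtain ⟨w₀, hw₀, ho₀⟩ := exists_orth_vectors hf (fun a => rfl) (one_mul 1) hnd
    (fun W hW => polar_zero h2 hf W hW) 3 (by simp)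
  obtain ⟨w, ε, hε, hw, ho⟩ : ∃ (w : Fin 3 → Fin 3 → F) (ε : F), ε ≠ 0 ∧
      (∀ k, f (w k) (w k) = ε) ∧ ∀ i j, i ≠ j → f (w i) (w j) = 0 := by
    by_cases hall : ∀ k, f (w₀ k) (w₀ k) = f (w₀ 0) (w₀ 0)
    · exact ⟨w₀, _, hw₀ 0, hall, ho₀⟩
    -- two of the same norm, one of the opposite norm
    obtain ⟨i, j, l, hij, hil, hjl, he, hl⟩ : ∃ i j l : Fin 3, i ≠ j ∧ i ≠ l ∧ j ≠ l ∧
        f (w₀ i) (w₀ i) = f (w₀ j) (w₀ j) ∧ f (w₀ l) (w₀ l) = -f (w₀ i) (w₀ i) := by
      have hcase : ∀ k k', f (w₀ k) (w₀ k) = f (w₀ k') (w₀ k') ∨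
          f (w₀ k) (w₀ k) = -f (w₀ k') (w₀ k') := fun k k' =>
        mul_self_eq_mul_self_iff.1 ((hsq _ (hw₀ k)).trans (hsq _ (hw₀ k')).symm)
      rcases hcase 1 0 with e1 | e1 <;> rcases hcase 2 0 with e2 | e2
      · exact absurd (fun k => by fin_cases k <;> simp [e1, e2]) hall
      · exact ⟨0, 1, 2, by decide, by decide, by decide, e1.symm, e2⟩
      · exact ⟨0, 2, 1, by decide, by decide, by decide, e2.symm, e1⟩
      · exact ⟨1, 2, 0, by decide, by decide, by decide, e1.trans e2.symm, by rw [e1, neg_neg]⟩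
    refine ⟨![w₀ i + w₀ j, w₀ i + (-1 : F) • w₀ j, w₀ l], _, hw₀ l, fun k => ?_, fun a b hab => ?_⟩
    · fin_cases k
      · simp [hf.add_left, hf.add_right, ho₀ i j hij, ho₀ j i hij.symm, ← he, hl]
        linear_combination f (w₀ i) (w₀ i) * h3
      · simp [hf.add_left, hf.add_right, hf.smul_left, hf.smul_right, ho₀ i j hij,
          ho₀ j i hij.symm, ← he, hl, -neg_smul, -one_smul]
        linear_combination f (w₀ i) (w₀ i) * h3
      · rfl
    · fin_cases a <;> fin_cases b <;>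
        simp [hf.add_left, hf.add_right, hf.smul_left, hf.smul_right, ho₀ i j hij,
          ho₀ j i hij.symm, ho₀ i l hil, ho₀ l i hil.symm, ho₀ j l hjl, ho₀ l j hjl.symm, ← he,
          -neg_smul, -one_smul] at hab ⊢
  refine ⟨w, ε, hε, hw, ho, fun b μ hμ hb => ?_⟩
  have hw' : ∀ k, f (w k) (w k) ≠ 0 := fun k => by rw [hw]; exact hε
  choose A hA using fun k => eq_sum_orth hf hw' ho (b (w k))
  have hent : ∀ k k', ∑ i, A k i * A k' i = if k = k' then μ else 0 := by
    intro k k'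
    have h1 := hb (w k) (w k')
    rw [hA, hA, sum_orth_apply hf ho] at h1
    simp only [RingHom.id_apply, hw, ← Finset.sum_mul] at h1
    split_ifs with he
    · subst he
      rw [hw] at h1
      exact mul_right_cancel₀ hε h1
    · rw [ho k k' he, mul_zero] at h1
      exact (mul_eq_zero.1 h1).resolve_right hε
  have hμ1 : μ = 1 := by
    have hdet : (Matrix.of A).det * (Matrix.of A).det = μ ^ 3 := by
      conv_lhs => arg 2; rw [← Matrix.det_transpose]
      rw [← Matrix.det_mul, show Matrix.of A * (Matrix.of A)ᵀ = Matrix.diagonal fun _ => μ from ?_,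
        Matrix.det_diagonal, Finset.prod_const, Finset.card_univ, Fintype.card_fin]
      ext i j
      rw [Matrix.mul_apply, Matrix.diagonal_apply]
      exact hent i j
    have hne : (Matrix.of A).det ≠ 0 := fun h0 => pow_ne_zero 3 hμ (by rw [← hdet, h0, zero_mul])
    rw [hsq _ hne] at hdet
    linear_combination (-μ) * (hsq μ hμ) - hdet
  refine frame_of_single hf hε hw ho b hb fun k => ?_
  have hone : ∑ i, A k i * A k i = 1 := by rw [hent, if_pos rfl, hμ1]
  rw [Fin.sum_univ_three] at hone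
  rcases eq_or_ne (A k 0) 0 with a0 | a0 <;> rcases eq_or_ne (A k 1) 0 with a1 | a1 <;>
    rcases eq_or_ne (A k 2) 0 with a2 | a2
  · simp [a0, a1, a2] at hone
  · exact ⟨2, _, a2, by rw [hA, Fin.sum_univ_three, a0, a1]; simp⟩
  · exact ⟨1, _, a1, by rw [hA, Fin.sum_univ_three, a0, a2]; simp⟩
  · rw [hsq _ a1, hsq _ a2, a0] at hone
    exact absurd (show (1 : F) = 0 by linear_combination hone) one_ne_zero
  · exact ⟨0, _, a0, by rw [hA, Fin.sum_univ_three, a1, a2]; simp⟩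
  · rw [hsq _ a0, hsq _ a2, a1] at hone
    exact absurd (show (1 : F) = 0 by linear_combination hone) one_ne_zero
  · rw [hsq _ a0, hsq _ a1, a2] at hone
    exact absurd (show (1 : F) = 0 by linear_combination hone) one_ne_zero
  · rw [hsq _ a0, hsq _ a1, hsq _ a2] at hone
    exact absurd (show (2 : F) = 0 by linear_combination hone) h2

/-- Vectors for a symmetric form. -/
theorem three_pick_symm (h : Fintype.card F = 3) {N : ℕ} (hN : 3 ≤ N)
    (f : (Fin N → F) → (Fin N → F) → F) (hf : Sesq (RingHom.id F) (1 : F) f)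
    (hnd : ∀ w, w ≠ 0 → ∃ z, f z w ≠ 0) :
    ∃ (u v x' : Fin N → F) (cu cv cV : F),
      (∀ a b : F, a • u + b • v = 0 → a = 0 ∧ b = 0) ∧ f u v ≠ 0 ∧ x' ≠ 0 ∧
      Good (RingHom.id F) (1 : F) (f u u) cu ∧ Good (RingHom.id F) (1 : F) (f v v) cv ∧
      Good (RingHom.id F) (1 : F) (f v v + f x' x') cV := by
  obtain ⟨h3, h2, hsq⟩ := three_facts h
  obtain ⟨w, hw, ho⟩ := exists_orth_vectors hf (fun a => rfl) (one_mul 1) hnd
    (fun W hW => polar_zero h2 hf W hW) 3 (by simpa using hN)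
  obtain ⟨i, j, hij, he⟩ : ∃ i j, i ≠ j ∧ f (w i) (w i) = f (w j) (w j) := by
    have hcase : ∀ k k', f (w k) (w k) = f (w k') (w k') ∨
        f (w k) (w k) = -f (w k') (w k') := fun k k' =>
      mul_self_eq_mul_self_iff.1 ((hsq _ (hw k)).trans (hsq _ (hw k')).symm)
    rcases hcase 1 0 with e1 | e1
    · exact ⟨1, 0, by decide, e1⟩
    rcases hcase 2 0 with e2 | e2
    · exact ⟨2, 0, by decide, e2⟩
    exact ⟨1, 2, by decide, e1.trans e2.symm⟩
  have hvv : f (w i + w j) (w i + w j) = 2 * f (w i) (w i) := by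
    rw [hf.add_left, hf.add_right, hf.add_right, ho i j hij, ho j i hij.symm, ← he]; ring
  have huv : f (w i) (w i + w j) = f (w i) (w i) := by rw [hf.add_right, ho i j hij, add_zero]
  have hvne : w i + w j ≠ 0 := fun e => hw i (by rw [← huv, e, hf.zero_right])
  refine ⟨w i, w i + w j, w i + w j, _, _, _, fun a b hab => ?_, huv ▸ hw i, hvne,
    three_good h (hw i), three_good h (hvv ▸ mul_ne_zero h2 (hw i)),
    three_good h (by rw [hvv, ← two_mul]; exact mul_ne_zero h2 (mul_ne_zero h2 (hw i)))⟩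
  have e1 := congrArg (fun z => f z (w j)) hab
  simp only [hf.add_left, hf.smul_left, hf.zero_left, ho i j hij, mul_zero, zero_add] at e1
  have hb : b = 0 := (mul_eq_zero.1 e1).resolve_right (hw j)
  subst hb
  have e2 := congrArg (fun z => f z (w i)) hab
  simp only [hf.add_left, hf.smul_left, hf.zero_left, zero_mul, add_zero] at e2
  exact ⟨(mul_eq_zero.1 e2).resolve_right (hw i), rfl⟩

/-- Vectors for an alternating form. -/
theorem three_pick_alt (h : Fintype.card F = 3) {N : ℕ} (hN : 3 ≤ N)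
    (f : (Fin N → F) → (Fin N → F) → F) (hf : Sesq (RingHom.id F) (-1 : F) f)
    (hnd : ∀ w, w ≠ 0 → ∃ z, f z w ≠ 0) :
    ∃ (u v x' : Fin N → F) (cu cv cV : F),
      (∀ a b : F, a • u + b • v = 0 → a = 0 ∧ b = 0) ∧ f u v ≠ 0 ∧ x' ≠ 0 ∧
      Good (RingHom.id F) (-1 : F) (f u u) cu ∧ Good (RingHom.id F) (-1 : F) (f v v) cv ∧
      Good (RingHom.id F) (-1 : F) (f v v + f x' x') cV := by
  obtain ⟨-, h2, -⟩ := three_facts h
  have halt : ∀ x, f x x = 0 := fun x => by
    have := hf.herm x x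
    rw [RingHom.id_apply] at this
    exact (mul_eq_zero.1 (show (2 : F) * f x x = 0 by linear_combination this)).resolve_left h2
  obtain ⟨u, huv⟩ := hnd (Pi.single ⟨0, by omega⟩ 1) (by simp)
  set v : Fin N → F := Pi.single ⟨0, by omega⟩ 1
  have hgood : Good (RingHom.id F) (-1 : F) 0 1 := ⟨one_ne_zero, by simp, by simp⟩
  refine ⟨u, v, v, 1, 1, 1, fun a b hab => ?_, huv, by simp [v], (halt u).symm ▸ hgood,
    (halt v).symm ▸ hgood, by rw [halt v, add_zero]; exact hgood⟩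
  have e1 := congrArg (fun z => f z v) hab
  simp only [hf.add_left, hf.smul_left, hf.zero_left, halt, mul_zero, add_zero] at e1
  have e2 := congrArg (fun z => f z u) hab
  simp only [hf.add_left, hf.smul_left, hf.zero_left, halt, mul_zero, zero_add] at e2
  refine ⟨(mul_eq_zero.1 e1).resolve_right huv, (mul_eq_zero.1 e2).resolve_right ?_⟩
  rw [hf.herm u v, RingHom.id_apply]
  exact mul_ne_zero (neg_ne_zero.2 one_ne_zero) huv

end Three

section Four

variable [Fintype F]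

theorem four_facts (h : Fintype.card F = 4) :
    (2 : F) = 0 ∧ (∀ a : F, a ≠ 0 → a ^ 3 = 1) ∧ (∀ a : F, (a ^ 2) ^ 2 = a) ∧
      ∃ ω : F, ω ^ 2 + ω + 1 = 0 := by
  classical
  have h4 : (4 : F) = 0 := by
    have := FiniteField.cast_card_eq_zero F
    rw [h] at this
    exact_mod_cast this
  have h2 : (2 : F) = 0 := by
    by_contra h2
    exact mul_ne_zero h2 h2 (by linear_combination h4)
  have h3 : ∀ a : F, a ≠ 0 → a ^ 3 = 1 := fun a ha => by
    have := FiniteField.pow_card_sub_one_eq_one a ha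
    rwa [h] at this
  refine ⟨h2, h3, fun a => ?_, ?_⟩
  · have := FiniteField.pow_card a
    rw [h] at this
    rw [← pow_mul]; exact this
  · obtain ⟨ω, hω0, hω1⟩ : ∃ ω : F, ω ≠ 0 ∧ ω ≠ 1 := by
      by_contra hcon
      push Not at hcon
      have : (Finset.univ : Finset F) ⊆ {0, 1} := fun x _ => by
        simp only [Finset.mem_insert, Finset.mem_singleton]
        exact or_iff_not_imp_left.2 (hcon x)
      have := Finset.card_le_card this
      rw [Finset.card_univ, h] at this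
      exact absurd (this.trans Finset.card_le_two) (by norm_num)
    exact ⟨ω, (mul_eq_zero.1 (show (ω - 1) * (ω ^ 2 + ω + 1) = 0 by
      linear_combination h3 ω hω0)).resolve_left (sub_ne_zero.2 hω1)⟩

theorem four_good (h : Fintype.card F = 4) (hσ : ∀ a, σ a = a ^ 2) {ω : F}
    (hω : ω ^ 2 + ω + 1 = 0) : Good σ (1 : F) 1 ω := by
  obtain ⟨h2, h3, -, -⟩ := four_facts h
  have hω0 : ω ≠ 0 := fun e => by simp [e] at hω
  refine ⟨hω0, fun e => hω0 (pow_eq_zero_iff two_ne_zero |>.1 (by linear_combination hω - e)), ?_⟩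
  rw [hσ]
  linear_combination hω + h3 ω hω0

theorem four_fixed (hσ : ∀ a, σ a = a ^ 2) {κ : Type} {f : (κ → F) → (κ → F) → F}
    (hf : Sesq σ (1 : F) f) {x : κ → F} (hx : f x x ≠ 0) : f x x = 1 := by
  have := hf.herm x x
  rw [hσ, one_mul, sq] at this
  exact (mul_left_eq_self₀.1 this.symm).resolve_right hx

theorem polar_zero_four (h : Fintype.card F = 4) (hσ : ∀ a, σ a = a ^ 2) {κ : Type}
    {f : (κ → F) → (κ → F) → F} (hf : Sesq σ (1 : F) f) (W : Submodule F (κ → F))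
    (hW : ∀ x ∈ W, f x x = 0) : ∀ x ∈ W, ∀ y ∈ W, f x y = 0 := by
  obtain ⟨h2, -, -, ω, hω⟩ := four_facts h
  have hω0 : ω ≠ 0 := fun e => by simp [e] at hω
  have key : ∀ x ∈ W, ∀ y ∈ W, f x y + f x y ^ 2 = 0 := by
    intro x hx y hy
    have h' := hW _ (W.add_mem hx hy)
    rw [hf.add_left, hf.add_right, hf.add_right, hW x hx, hW y hy, hf.herm x y, hσ] at h'
    linear_combination h'
  intro x hx y hy
  have e1 := key x hx y hy
  have e2 := key _ (W.smul_mem ω hx) y hy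
  rw [hf.smul_left] at e2
  have e3 : f x y * (ω + ω ^ 2 * f x y) = 0 := by linear_combination e2
  by_contra hne
  have e4 := (mul_eq_zero.1 e3).resolve_left hne
  have e5 : 1 + f x y = 0 := (mul_eq_zero.1 (show f x y * (1 + f x y) = 0 by
    linear_combination e1)).resolve_left hne
  have e6 : (1 : F) = 0 := by linear_combination hω + (e4 - ω ^ 2 * e5) * (-1) + (-(ω : F)) * 0 - ω ^ 2 * h2
  exact one_ne_zero e6

/-- An orthonormal frame. -/
theorem four_frame (h : Fintype.card F = 4) (hσ : ∀ a, σ a = a ^ 2)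
    {f : (Fin 2 → F) → (Fin 2 → F) → F} (hf : Sesq σ (1 : F) f)
    (hnd : ∀ w, w ≠ 0 → ∃ z, f z w ≠ 0) :
    ∃ (w : Fin 2 → Fin 2 → F) (ε : F), ε ≠ 0 ∧ (∀ k, f (w k) (w k) = ε) ∧
      (∀ i j, i ≠ j → f (w i) (w j) = 0) ∧
      ∀ (b : (Fin 2 → F) →ₗ[F] (Fin 2 → F)) (μ : F), μ ≠ 0 →
        (∀ z z', f (b z) (b z') = μ * f z z') →
        ∃ (π : Equiv.Perm (Fin 2)) (d : Fin 2 → F), ∀ k, d k ≠ 0 ∧ b (w k) = d k • w (π k) := by
  obtain ⟨h2, h3, hσσ, -⟩ := four_facts h
  obtain ⟨w, hw, ho⟩ := exists_orth_vectors hf (fun a => by rw [hσ, hσ]; exact hσσ a) (one_mul 1)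
    hnd (fun W hW => polar_zero_four h hσ hf W hW) 2 (by simp)
  have hw1 : ∀ k, f (w k) (w k) = 1 := fun k => four_fixed hσ hf (hw k)
  refine ⟨w, 1, one_ne_zero, hw1, ho, fun b μ hμ hb => ?_⟩
  refine frame_of_single hf one_ne_zero hw1 ho b hb fun k => ?_
  obtain ⟨A, hA⟩ := eq_sum_orth hf hw ho (b (w k))
  have h1 := hb (w k) (w k)
  rw [hw1, mul_one] at h1
  have hμ1 : μ = 1 := by
    rw [← h1]
    exact four_fixed hσ hf (by rwa [h1])
  rw [hA, sum_orth_apply hf ho, Fin.sum_univ_two, hw1, hw1, hσ, hσ, hμ1, mul_one, mul_one] at h1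
  rcases eq_or_ne (A 0) 0 with a0 | a0 <;> rcases eq_or_ne (A 1) 0 with a1 | a1
  · simp [a0, a1] at h1
  · exact ⟨1, _, a1, by rw [hA, Fin.sum_univ_two, a0]; simp⟩
  · exact ⟨0, _, a0, by rw [hA, Fin.sum_univ_two, a1]; simp⟩
  · rw [← pow_succ', ← pow_succ', h3 _ a0, h3 _ a1] at h1
    exact absurd (show (1 : F) = 0 by linear_combination h1) one_ne_zero

/-- Vectors for a unitary form. -/
theorem four_pick (h : Fintype.card F = 4) (hσ : ∀ a, σ a = a ^ 2) {N : ℕ} (hN : 3 ≤ N)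
    (f : (Fin N → F) → (Fin N → F) → F) (hf : Sesq σ (1 : F) f)
    (hnd : ∀ w, w ≠ 0 → ∃ z, f z w ≠ 0) :
    ∃ (u v x' : Fin N → F) (cu cv cV : F),
      (∀ a b : F, a • u + b • v = 0 → a = 0 ∧ b = 0) ∧ f u v ≠ 0 ∧ x' ≠ 0 ∧
      Good σ (1 : F) (f u u) cu ∧ Good σ (1 : F) (f v v) cv ∧
      Good σ (1 : F) (f v v + f x' x') cV := by
  obtain ⟨h2, h3, hσσ, ω, hω⟩ := four_facts h
  obtain ⟨w, hw, ho⟩ := exists_orth_vectors hf (fun a => by rw [hσ, hσ]; exact hσσ a) (one_mul 1)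
    hnd (fun W hW => polar_zero_four h hσ hf W hW) 3 (by simpa using hN)
  have hw1 : ∀ k, f (w k) (w k) = 1 := fun k => four_fixed hσ hf (hw k)
  have o01 := ho 0 1 (by decide)
  have o10 := ho 1 0 (by decide)
  have o02 := ho 0 2 (by decide)
  have o20 := ho 2 0 (by decide)
  have o12 := ho 1 2 (by decide)
  have o21 := ho 2 1 (by decide)
  have huv : f (w 0) (w 0 + w 1 + w 2) = 1 := by simp [hf.add_right, hw1, o01, o02]
  have hvv : f (w 0 + w 1 + w 2) (w 0 + w 1 + w 2) = 1 := by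
    simp [hf.add_left, hf.add_right, hw1, o01, o02, o10, o12, o20, o21]
    linear_combination h2
  have hxx : f (w 0 + w 1) (w 0 + w 1) = 0 := by
    simp [hf.add_left, hf.add_right, hw1, o01, o10]
    linear_combination h2
  refine ⟨w 0, w 0 + w 1 + w 2, w 0 + w 1, ω, ω, ω, fun a b hab => ?_, by rw [huv]; exact one_ne_zero,
    ?_, (hw1 0).symm ▸ four_good h hσ hω, hvv.symm ▸ four_good h hσ hω,
    by rw [hvv, hxx, add_zero]; exact four_good h hσ hω⟩
  · have e1 := congrArg (fun z => f z (w 1)) hab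
    simp [hf.add_left, hf.smul_left, hf.zero_left, hw1, o01, o21] at e1
    subst e1
    have e2 := congrArg (fun z => f z (w 0)) hab
    simp [hf.add_left, hf.smul_left, hf.zero_left, hw1] at e2
    exact ⟨e2, rfl⟩
  · intro e
    have := congrArg (fun z => f z (w 0)) e
    simp [hf.add_left, hf.zero_left, hw1, o10] at this

end Four

section Kronecker

variable {κ κ' : Type} [Fintype κ] [Fintype κ'] [DecidableEq κ] [DecidableEq κ']

omit [Fintype κ] [Fintype κ'] [DecidableEq κ] [DecidableEq κ'] in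
theorem kronecker_herm {s₁ s₂ : F} {G₁ : Matrix κ κ F} {G₂ : Matrix κ' κ' F}
    (h₁ : ∀ a b, G₁ b a = s₁ * σ (G₁ a b)) (h₂ : ∀ a b, G₂ b a = s₂ * σ (G₂ a b)) (a b : κ × κ') :
    (G₁ ⊗ₖ G₂) b a = s₁ * s₂ * σ ((G₁ ⊗ₖ G₂) a b) := by
  simp only [Matrix.kroneckerMap_apply, h₁ a.1 b.1, h₂ a.2 b.2, map_mul]
  ring

/-- The product form on pure tensors. -/
theorem gram_pure {s₁ s₂ : F} {f₁ : (κ → F) → (κ → F) → F} {f₂ : (κ' → F) → (κ' → F) → F}
    (h₁ : Sesq σ s₁ f₁) (h₂ : Sesq σ s₂ f₂) (x x' : κ → F) (z z' : κ' → F) :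
    Cfsg.Geo.formOfGram σ (Cfsg.Geo.gramMatrix f₁ ⊗ₖ Cfsg.Geo.gramMatrix f₂) (pure x z) (pure x' z') =
      f₁ x x' * f₂ z z' := by
  rw [formOfGram_pure, formOfGram_gramMatrix h₁, formOfGram_gramMatrix h₂]

end Kronecker

section Commutators

open scoped commutatorElement

variable {ι : Type} [Fintype ι] [DecidableEq ι]

/-- Commutators of isometries of the polar form lie in `Ω`. -/
theorem commutator_mem_omegaGL (h2 : (2 : F) ≠ 0) {Q : (ι → F) → F}
    (hQ : ∀ (c : F) v, Q (c • v) = c ^ 2 * Q v) (a : GL ι F) (ha : a ∈ Iso (QuadraticMap.polar Q))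
    (b : GL ι F) (hb : b ∈ Iso (QuadraticMap.polar Q)) : ⁅a, b⁆ ∈ Cfsg.Geo.omegaGL Q := by
  have hp : ∀ v, QuadraticMap.polar Q v v = 2 * Q v := fun v => by
    rw [QuadraticMap.polar, ← two_smul F v, hQ]; ring
  have hmem : ∀ g : GL ι F, g ∈ Iso (QuadraticMap.polar Q) → g ∈ Cfsg.isometryGroup F Q := by
    intro g hg u _
    have := hg u u
    rw [hp, hp] at this
    exact mul_left_cancel₀ h2 this
  exact ⟨⁅(⟨a, hmem a ha⟩ : Cfsg.isometryGroup F Q), ⟨b, hmem b hb⟩⁆,
    Subgroup.commutator_mem_commutator (Subgroup.mem_top _) (Subgroup.mem_top _), rfl⟩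

/-- Elements of `Ω` preserve the polar form. -/
theorem omegaGL_le_iso {Q : (ι → F) → F} :
    Cfsg.Geo.omegaGL Q ≤ Iso (QuadraticMap.polar Q) := by
  rintro _ ⟨g, -, rfl⟩ u v
  have h : ∀ w, Q (((g : GL ι F) : Matrix ι ι F) *ᵥ w) = Q w := fun w => g.2 w w
  show Q (_ + _) - Q _ - Q _ = Q (u + v) - Q u - Q v
  simp only [Subgroup.coe_subtype, Units.coeHom_apply, ← Matrix.mulVec_add, h]

end Commutators

end Cfsg.Agent.H1.TensorNM
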