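import Cfsg.Agent.H1.TensorNotMax

/-!
Stabilisers of tensor decompositions with a small factor whose similitudes permute an orthogonal
frame: they are not maximal.
-/

set_option autoImplicit false

namespace Cfsg.Agent.H1.TensorNM

open Matrix
open scoped Kronecker commutatorElement

variable {F : Type*} [Field F]

section Forms

variable {σ : F →+* F} {sg : F} {κ κ' : Type} [Fintype κ] [Fintype κ']

/-- The form of a Gram matrix. -/
theorem sesq_formOfGram (hσ : ∀ a, σ (σ a) = a) {G : Matrix κ κ F}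
    (hG : ∀ a b, G b a = sg * σ (G a b)) :
    Sesq σ sg (Cfsg.Geo.formOfGram σ G) where
  add_left x y v := by
    simp only [Cfsg.Geo.formOfGram, Pi.add_apply, add_mul, Finset.sum_add_distrib]
  smul_left c x v := by
    simp only [Cfsg.Geo.formOfGram, Pi.smul_apply, smul_eq_mul, Finset.mul_sum, mul_assoc]
  herm x y := by
    simp only [Cfsg.Geo.formOfGram, map_sum, map_mul, hσ, Finset.mul_sum]
    rw [Finset.sum_comm]
    refine Finset.sum_congr rfl fun a _ => Finset.sum_congr rfl fun b _ => ?_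
    rw [hG a b]
    ring

variable [DecidableEq κ]

theorem eq_sum_single (x : κ → F) : x = ∑ a, x a • (Pi.single a 1 : κ → F) := by
  funext b
  simp [Pi.single_apply, Finset.sum_apply]

/-- A form is the form of its Gram matrix. -/
theorem formOfGram_gramMatrix {f : (κ → F) → (κ → F) → F} (h : Sesq σ sg f) (x y : κ → F) :
    Cfsg.Geo.formOfGram σ (Cfsg.Geo.gramMatrix f) x y = f x y := by
  conv_rhs => rw [eq_sum_single x, eq_sum_single y]
  simp only [h.sum_left, h.sum_right, h.smul_left, h.smul_right]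
  simp only [Cfsg.Geo.formOfGram, Cfsg.Geo.gramMatrix, mul_assoc, mul_comm (σ _)]

theorem gramMatrix_herm {f : (κ → F) → (κ → F) → F} (h : Sesq σ sg f) (a b : κ) :
    Cfsg.Geo.gramMatrix f b a = sg * σ (Cfsg.Geo.gramMatrix f a b) :=
  h.herm _ _

omit [DecidableEq κ] in
/-- Pure tensors. -/
def pure : (κ → F) →ₗ[F] (κ' → F) →ₗ[F] (κ × κ' → F) :=
  LinearMap.mk₂ F (fun x z p => x p.1 * z p.2) (fun a b c => by funext p; simp [add_mul])
    (fun r a b => by funext p; simp [mul_assoc]) (fun a b c => by funext p; simp [mul_add])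
    (fun r a b => by funext p; simp [mul_left_comm])

omit [DecidableEq κ] in
theorem formOfGram_pure (G₁ : Matrix κ κ F) (G₂ : Matrix κ' κ' F) (x x' : κ → F) (z z' : κ' → F) :
    Cfsg.Geo.formOfGram σ (G₁ ⊗ₖ G₂) (pure x z) (pure x' z') =
      Cfsg.Geo.formOfGram σ G₁ x x' * Cfsg.Geo.formOfGram σ G₂ z z' := by
  simp only [Cfsg.Geo.formOfGram, pure, LinearMap.mk₂_apply, Fintype.sum_prod_type,
    Matrix.kronecker_apply, map_mul]
  rw [Finset.sum_mul_sum]
  refine Finset.sum_congr rfl fun a _ => Finset.sum_congr rfl fun b _ => ?_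
  rw [Finset.sum_mul_sum]
  exact Finset.sum_congr rfl fun a' _ => Finset.sum_congr rfl fun b' _ => by ring

omit [DecidableEq κ] in
theorem kronecker_pure (A : Matrix κ κ F) (B : Matrix κ' κ' F) (x : κ → F) (z : κ' → F) :
    (A ⊗ₖ B) *ᵥ pure x z = pure (A *ᵥ x) (B *ᵥ z) := by
  funext p
  simp only [Matrix.mulVec, dotProduct, pure, LinearMap.mk₂_apply, Fintype.sum_prod_type,
    Matrix.kronecker_apply]
  rw [Finset.sum_mul_sum]
  exact Finset.sum_congr rfl fun a _ => Finset.sum_congr rfl fun b _ => by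
    simp only [Matrix.kroneckerMap_apply]; ring

/-- Orthogonal non-isotropic vectors. -/
theorem exists_orth_vectors {f : (κ → F) → (κ → F) → F} (h : Sesq σ sg f)
    (hσ : ∀ a, σ (σ a) = a) (hsg : sg * sg = 1) (hnd : ∀ w, w ≠ 0 → ∃ z, f z w ≠ 0)
    (hpol : ∀ W : Submodule F (κ → F), (∀ x ∈ W, f x x = 0) → ∀ x ∈ W, ∀ y ∈ W, f x y = 0) :
    ∀ k, k ≤ Fintype.card κ → ∃ w : Fin k → κ → F, (∀ i, f (w i) (w i) ≠ 0) ∧
      ∀ i j, i ≠ j → f (w i) (w j) = 0 := by
  intro k
  induction k with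
  | zero => exact fun _ => ⟨Fin.elim0, fun i => i.elim0, fun i => i.elim0⟩
  | succ k ih =>
    intro hk
    obtain ⟨w, hw, ho⟩ := ih (by omega)
    let ψ : (κ → F) →ₗ[F] (Fin k → F) :=
      { toFun := fun x i => f x (w i)
        map_add' := fun a b => by funext i; exact h.add_left a b _
        map_smul' := fun c a => by funext i; exact h.smul_left c a _ }
    have hψ : ∀ x, x ∈ LinearMap.ker ψ ↔ ∀ i, f x (w i) = 0 := fun x =>
      LinearMap.mem_ker.trans funext_iff
    obtain ⟨x, hx, hxx⟩ : ∃ x ∈ LinearMap.ker ψ, f x x ≠ 0 := by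
      by_contra hcon
      push Not at hcon
      have hker : 0 < Module.finrank F (LinearMap.ker ψ) := by
        have h1 := LinearMap.finrank_range_add_finrank_ker ψ
        have h2 := Submodule.finrank_le (LinearMap.range ψ)
        rw [Module.finrank_fintype_fun_eq_card] at h1
        rw [Module.finrank_fin_fun] at h2
        omega
      obtain ⟨⟨x, hx⟩, hx0⟩ := Module.finrank_pos_iff_exists_ne_zero.1 hker
      obtain ⟨z, hz⟩ := hnd x fun h0 => hx0 (Subtype.ext h0)
      let z' := z - ∑ i, (f z (w i) / f (w i) (w i)) • w i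
      have hz' : z' ∈ LinearMap.ker ψ := by
        refine (hψ z').2 fun j => ?_
        rw [show z' = z + ∑ i, (-(f z (w i) / f (w i) (w i))) • w i by simp [z', sub_eq_add_neg],
          h.add_left, h.sum_left, Finset.sum_eq_single j (fun i _ hi => by
            rw [h.smul_left, ho i j hi, mul_zero]) (by simp), h.smul_left, neg_mul,
          div_mul_cancel₀ _ (hw j), add_neg_cancel]
      apply hz
      have h1 := hpol _ hcon z' hz' x hx
      rw [show z' = z + ∑ i, (-(f z (w i) / f (w i) (w i))) • w i by simp [z', sub_eq_add_neg],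
        h.add_left, h.sum_left, Finset.sum_eq_zero (fun i _ => by
          rw [h.smul_left, h.herm x (w i), (hψ x).1 hx i, map_zero, mul_zero, mul_zero]),
        add_zero] at h1
      exact h1
    refine ⟨Fin.snoc w x, fun i => ?_, fun i j hij => ?_⟩
    · induction i using Fin.lastCases <;> simp [hxx, hw]
    · have hx' := (hψ x).1 hx
      induction i using Fin.lastCases with
      | last =>
        induction j using Fin.lastCases with
        | last => exact absurd rfl hij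
        | cast j => rw [Fin.snoc_last, Fin.snoc_castSucc]; exact hx' j
      | cast i =>
        induction j using Fin.lastCases with
        | last => rw [Fin.snoc_last, Fin.snoc_castSucc, h.herm, hx' i, map_zero, mul_zero]
        | cast j =>
          rw [Fin.snoc_castSucc, Fin.snoc_castSucc]
          exact ho i j fun h => hij (congrArg _ h)

/-- Coordinates along orthogonal vectors. -/
theorem eq_sum_orth {k : ℕ} {f : (Fin k → F) → (Fin k → F) → F} (h : Sesq σ sg f)
    {w : Fin k → Fin k → F} (hw : ∀ i, f (w i) (w i) ≠ 0)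
    (ho : ∀ i j, i ≠ j → f (w i) (w j) = 0) (y : Fin k → F) :
    ∃ a : Fin k → F, y = ∑ i, a i • w i := by
  have li : LinearIndependent F w := Fintype.linearIndependent_iff.2 fun g hg j => by
    have h1 := congrArg (fun v => f v (w j)) hg
    simp only [h.sum_left, h.smul_left, h.zero_left] at h1
    rw [Finset.sum_eq_single j (fun i _ hi => by rw [ho i j hi, mul_zero]) (by simp)] at h1
    exact (mul_eq_zero.1 h1).resolve_right (hw j)
  obtain ⟨a, ha⟩ := (Submodule.mem_span_range_iff_exists_fun F).1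
    (li.span_eq_top_of_card_eq_finrank' (by simp) ▸ (Submodule.mem_top : y ∈ ⊤))
  exact ⟨a, ha.symm⟩

/-- The value of a form on combinations of orthogonal vectors. -/
theorem sum_orth_apply {k : ℕ} {f : (κ → F) → (κ → F) → F} (h : Sesq σ sg f) {w : Fin k → κ → F}
    (ho : ∀ i j, i ≠ j → f (w i) (w j) = 0) (a b : Fin k → F) :
    f (∑ i, a i • w i) (∑ i, b i • w i) = ∑ i, a i * σ (b i) * f (w i) (w i) := by
  rw [h.sum_left]
  refine Finset.sum_congr rfl fun i _ => ?_
  rw [h.smul_left, h.sum_right, Finset.sum_eq_single i (fun j _ hj => by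
    rw [h.smul_right, ho i j hj.symm, mul_zero]) (by simp), h.smul_right]
  ring

end Forms

section Frame

variable {ι κ : Type} [Fintype ι] [DecidableEq ι] {N t : ℕ} {σ : F →+* F} {sg : F}

/-- A stabiliser of a tensor decomposition with a frame in the small factor is not maximal. -/
theorem not_maximal_of_frame (Φ : (κ → F) ≃ₗ[F] (ι → F))
    (T : (Fin N → F) →ₗ[F] (Fin t → F) →ₗ[F] (κ → F)) (hcard : Fintype.card ι = N * t)
    (f : (ι → F) → (ι → F) → F) (hfh : ∀ u v, f v u = sg * σ (f u v))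
    (B : (κ → F) → (κ → F) → F) (hB : Sesq σ sg B) (c : F) (hc : c ≠ 0)
    (hfB : ∀ X Y, f (Φ X) (Φ Y) = c * B X Y)
    (f₁ : (Fin N → F) → (Fin N → F) → F) (f₂ : (Fin t → F) → (Fin t → F) → F)
    (hf₁ : Sesq σ sg f₁) (hσ : ∀ a, σ (σ a) = a) (hsg : sg * sg = 1)
    (hnd : ∀ w, w ≠ 0 → ∃ z, f₁ z w ≠ 0)
    (hT : ∀ x x' z z', B (T x z) (T x' z') = f₁ x x' * f₂ z z')
    (w : Fin t → Fin t → F) (ε : F) (hε : ε ≠ 0) (hw : ∀ k, f₂ (w k) (w k) = ε)
    (ho : ∀ i j, i ≠ j → f₂ (w i) (w j) = 0)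
    (hframe : ∀ (b : (Fin t → F) →ₗ[F] (Fin t → F)) (μ : F), μ ≠ 0 →
      (∀ z z', f₂ (b z) (b z') = μ * f₂ z z') →
      ∃ (π : Equiv.Perm (Fin t)) (d : Fin t → F), ∀ k, d k ≠ 0 ∧ b (w k) = d k • w (π k))
    (ht : 2 ≤ t) (hN : 3 ≤ N) (H I : Subgroup (GL ι F)) (hHI : H ≤ I)
    (hcomm : ∀ a ∈ Iso f, ∀ b ∈ Iso f, ⁅a, b⁆ ∈ I) (hHf : H ≤ Iso f)
    (hHg : ∀ g ∈ H, ∃ (a : (Fin N → F) →ₗ[F] (Fin N → F)) (b : (Fin t → F) →ₗ[F] (Fin t → F)),
      ∀ x z, (g : Matrix ι ι F) *ᵥ Φ (T x z) = Φ (T (a x) (b z)))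
    (hpick : ∀ f' : (Fin N → F) → (Fin N → F) → F, Sesq σ sg f' →
      (∀ w, w ≠ 0 → ∃ z, f' z w ≠ 0) → ∃ (u v x' : Fin N → F) (cu cv cV : F),
        (∀ a b : F, a • u + b • v = 0 → a = 0 ∧ b = 0) ∧ f' u v ≠ 0 ∧ x' ≠ 0 ∧
        Good σ sg (f' u u) cu ∧ Good σ sg (f' v v) cv ∧ Good σ sg (f' v v + f' x' x') cV) :
    ∃ K : Subgroup (GL ι F), H < K ∧ K < I := by
  classical
  let L₀ : (Fin t → Fin N → F) →ₗ[F] (ι → F) :=
    Φ.toLinearMap ∘ₗ ∑ k, (T.flip (w k)) ∘ₗ LinearMap.proj k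
  have hL₀ : ∀ x, L₀ x = Φ (∑ k, T (x k) (w k)) := fun x => by simp [L₀]
  set f' : (Fin N → F) → (Fin N → F) → F := fun x y => c * ε * f₁ x y with hf'def
  have hL : ∀ x y, f (L₀ x) (L₀ y) = ∑ k, f' (x k) (y k) := by
    intro x y
    rw [hL₀, hL₀, hfB, hB.sum_left, Finset.mul_sum]
    refine Finset.sum_congr rfl fun k _ => ?_
    rw [hB.sum_right, Finset.sum_eq_single k (fun l _ hl => by rw [hT, ho k l hl.symm, mul_zero])
      (by simp), hT, hw, hf'def]
    ring
  have hsingle : ∀ k x, L₀ (Pi.single k x) = Φ (T x (w k)) := by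
    intro k x
    rw [hL₀, Finset.sum_eq_single k (fun l _ hl => by
      rw [Pi.single_eq_of_ne hl, map_zero, LinearMap.zero_apply]) (by simp), Pi.single_eq_same]
  have hk0 : 0 < t := by omega
  obtain ⟨x₀, y₀, hxy⟩ : ∃ x y, f₁ x y ≠ 0 := by
    obtain ⟨z, hz⟩ := hnd (Pi.single ⟨0, by omega⟩ 1) (by simp)
    exact ⟨_, _, hz⟩
  -- the scalar is fixed by the automorphism
  have hfix : σ (c * ε) = c * ε := by
    have h1 := hfh (L₀ (Pi.single ⟨0, hk0⟩ x₀)) (L₀ (Pi.single ⟨0, hk0⟩ y₀))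
    rw [hsingle, hsingle, hfB, hfB, hT, hT, hw] at h1
    have h2 : (σ (c * ε) - c * ε) * f₁ y₀ x₀ = 0 := by
      rw [hf₁.herm x₀ y₀] at h1 ⊢
      simp only [map_mul] at h1 ⊢
      linear_combination -h1
    refine sub_eq_zero.1 ((mul_eq_zero.1 h2).resolve_right ?_)
    rw [hf₁.herm x₀ y₀]
    exact mul_ne_zero (fun h => by simp [h] at hsg) ((map_ne_zero σ).2 hxy)
  have hf' : Sesq σ sg f' :=
    { add_left := fun x y v => by simp only [f', hf₁.add_left, mul_add]
      smul_left := fun a x v => by simp only [f', hf₁.smul_left]; ring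
      herm := fun x y => by simp only [f', map_mul σ (c * ε), hfix, hf₁.herm x y]; ring }
  have hnd' : ∀ v, v ≠ 0 → ∃ z, f' z v ≠ 0 := fun v hv =>
    let ⟨z, hz⟩ := hnd v hv
    ⟨z, mul_ne_zero (mul_ne_zero hc hε) hz⟩
  have hinj : Function.Injective L₀ := by
    refine (injective_iff_map_eq_zero _).2 fun x hx => funext fun k => ?_
    by_contra hne
    obtain ⟨z, hz⟩ := hnd' (x k) hne
    apply hz
    have h1 := hL (Pi.single k z) x
    rw [hx, sum_single_left f' hf'] at h1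
    have h2 : f (L₀ (Pi.single k z)) 0 = 0 := by
      rw [hsingle, ← map_zero Φ, hfB, hB.zero_right, mul_zero]
    rw [← h1, h2]
  let L := L₀.linearEquivOfInjective hinj (by
    simp [hcard, Module.finrank_pi_fintype, mul_comm])
  have hLapp : ∀ x, L x = L₀ x := fun x => rfl
  obtain ⟨u, v, x', cu, cv, cV, h1, h2, h3, h4, h5, h6⟩ := hpick f' hf' hnd'
  refine not_maximal L f f' hf' hσ hsg hnd' (fun x y => hL x y) ht hN H I hHI hcomm ?_
    u v x' cu cv cV h1 h2 h3 h4 h5 h6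
  intro g hg
  obtain ⟨a, b, hab⟩ := hHg g hg
  have hiso : ∀ x x' z z', f₁ (a x) (a x') * f₂ (b z) (b z') = f₁ x x' * f₂ z z' := by
    intro x x' z z'
    have h := hHf hg (Φ (T x z)) (Φ (T x' z'))
    simp only [Units.coeHom_apply, hab, hfB, hT] at h
    exact mul_left_cancel₀ hc h
  have ha : f₁ (a x₀) (a y₀) ≠ 0 := by
    intro h
    have h' := hiso x₀ y₀ (w ⟨0, hk0⟩) (w ⟨0, hk0⟩)
    rw [h, zero_mul, hw] at h'
    exact mul_ne_zero hxy hε h'.symm
  obtain ⟨π, d, hd⟩ := hframe b (f₁ x₀ y₀ / f₁ (a x₀) (a y₀)) (div_ne_zero hxy ha) fun z z' => by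
    rw [div_mul_eq_mul_div, eq_div_iff ha, mul_comm, hiso]
  refine ⟨π, a, d, fun k => (hd k).1, fun k x => ?_⟩
  rw [hLapp, hLapp, hsingle, hsingle, hab, (hd k).2]
  simp only [map_smul, LinearMap.smul_apply]

end Frame

section Stabiliser

variable {ι : Type} [Fintype ι] [DecidableEq ι] {n₁ n₂ : ℕ}

/-- The coordinate change of a tensor decomposition. -/
noncomputable def tensorEquiv (e : ι ≃ Fin n₁ × Fin n₂) (P : GL ι F) :
    (Fin n₁ × Fin n₂ → F) ≃ₗ[F] (ι → F) :=
  (LinearEquiv.funCongrLeft F F e).trans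
    (LinearEquiv.ofInjectiveEndo (Matrix.mulVecLin (P : Matrix ι ι F))
      (Matrix.mulVec_injective_iff_isUnit.2 P.isUnit))

theorem tensorEquiv_apply (e : ι ≃ Fin n₁ × Fin n₂) (P : GL ι F) (X : Fin n₁ × Fin n₂ → F) :
    tensorEquiv e P X = (P : Matrix ι ι F) *ᵥ (X ∘ e) := rfl

/-- The action of the stabiliser on pure tensors. -/
theorem exists_action (e : ι ≃ Fin n₁ × Fin n₂) (P g : GL ι F)
    (hg : g ∈ Cfsg.Geo.tensorProductSubgroup n₁ n₂ e P) :
    ∃ (a : (Fin n₁ → F) →ₗ[F] (Fin n₁ → F)) (b : (Fin n₂ → F) →ₗ[F] (Fin n₂ → F)),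
      ∀ x z, (g : Matrix ι ι F) *ᵥ tensorEquiv e P (pure x z) =
        tensorEquiv e P (pure (a x) (b z)) := by
  obtain ⟨h, ⟨k, ⟨A, B, hAB⟩, rfl⟩, rfl⟩ := hg
  refine ⟨Matrix.mulVecLin (A : Matrix (Fin n₁) (Fin n₁) F),
    Matrix.mulVecLin (B : Matrix (Fin n₂) (Fin n₂) F), fun x z => ?_⟩
  simp only [Matrix.mulVecLin_apply]
  rw [tensorEquiv_apply, tensorEquiv_apply]
  simp only [MulEquiv.coe_toMonoidHom, MulAut.conj_apply, Units.val_mul, ← Matrix.mulVec_mulVec]
  rw [Matrix.mulVec_mulVec (v := pure x z ∘ e) (M := ((P⁻¹ : GL ι F) : Matrix ι ι F)),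
    ← Units.val_mul, inv_mul_cancel, Units.val_one, Matrix.one_mulVec]
  congr 1
  show Matrix.reindex e.symm e.symm (k : Matrix _ _ F) *ᵥ _ = _
  rw [hAB, Matrix.reindex_apply, Equiv.symm_symm, Matrix.submatrix_mulVec_equiv]
  rw [show (pure x z ∘ e) ∘ e.symm = pure x z by funext p; simp, kronecker_pure]

end Stabiliser

end Cfsg.Agent.H1.TensorNM
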