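import Mathlib
import Cfsg.Prelude.Def_GeometricClasses

/-!
A subgroup permuting the summands of an orthogonal sum of equal copies of a form, acting by the
same map on each copy, is not maximal in the isometry group: the stabiliser of the summands lies
strictly between.
-/

set_option autoImplicit false

namespace Cfsg.Agent.H1.TensorNM

open Matrix

variable {F : Type*} [Field F] {V : Type*} [AddCommGroup V] [Module F V]

/-- A reflexive sesquilinear form given as a function. -/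
structure Sesq (σ : F →+* F) (sg : F) (f : V → V → F) : Prop where
  add_left : ∀ x y v, f (x + y) v = f x v + f y v
  smul_left : ∀ (c : F) (x v : V), f (c • x) v = c * f x v
  herm : ∀ x y, f y x = sg * σ (f x y)

namespace Sesq

variable {σ : F →+* F} {sg : F} {f : V → V → F}

theorem add_right (h : Sesq σ sg f) (v x y : V) : f v (x + y) = f v x + f v y := by
  rw [h.herm _ v, h.add_left, map_add, mul_add, ← h.herm, ← h.herm]

theorem zero_left (h : Sesq σ sg f) (v : V) : f 0 v = 0 := by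
  simpa using h.smul_left 0 0 v

theorem zero_right (h : Sesq σ sg f) (v : V) : f v 0 = 0 := by
  rw [h.herm 0 v, h.zero_left, map_zero, mul_zero]

theorem smul_right (h : Sesq σ sg f) (c : F) (v x : V) : f v (c • x) = σ c * f v x := by
  rw [h.herm _ v, h.smul_left, map_mul, h.herm x v, mul_left_comm]

theorem sum_left (h : Sesq σ sg f) {α : Type*} (s : Finset α) (g : α → V) (v : V) :
    f (∑ i ∈ s, g i) v = ∑ i ∈ s, f (g i) v :=
  map_sum (AddMonoidHom.mk' (fun x => f x v) fun x y => h.add_left x y v) g s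

theorem sum_right (h : Sesq σ sg f) {α : Type*} (s : Finset α) (g : α → V) (v : V) :
    f v (∑ i ∈ s, g i) = ∑ i ∈ s, f v (g i) :=
  map_sum (AddMonoidHom.mk' (fun x => f v x) (h.add_right v)) g s

/-- The orthogonal sum of copies of a form. -/
theorem pi (h : Sesq σ sg f) (t : ℕ) :
    Sesq σ sg (fun x y : Fin t → V => ∑ k, f (x k) (y k)) where
  add_left x y v := by simp [h.add_left, Finset.sum_add_distrib]
  smul_left c x v := by simp [h.smul_left, Finset.mul_sum]
  herm x y := by simp [Finset.mul_sum, ← h.herm]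

end Sesq

/-- The scalar `c` makes `x ↦ x + c f(x, w) w` an isometry when `f w w = a`. -/
def Good (σ : F →+* F) (sg a c : F) : Prop :=
  c ≠ 0 ∧ 1 + c * a ≠ 0 ∧ σ c + sg * c + c * σ c * a = 0

/-- The pseudo-reflection with centre `w`. -/
def reflMap {σ : F →+* F} {sg : F} {f : V → V → F} (h : Sesq σ sg f) (w : V) (c : F) :
    V →ₗ[F] V where
  toFun x := x + (c * f x w) • w
  map_add' x y := by rw [h.add_left, mul_add, add_smul]; abel
  map_smul' a x := by
    rw [h.smul_left, RingHom.id_apply, smul_add, smul_smul]; congr 2; ring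

theorem reflMap_isom {σ : F →+* F} {sg : F} {f : V → V → F} (h : Sesq σ sg f) {w : V} {c : F}
    (hc : Good σ sg (f w w) c) (hσ : ∀ a, σ (σ a) = a) (hsg : sg * sg = 1) (x y : V) :
    f (reflMap h w c x) (reflMap h w c y) = f x y := by
  show f (x + (c * f x w) • w) (y + (c * f y w) • w) = f x y
  simp only [h.add_left, h.add_right, h.smul_left, h.smul_right, map_mul]
  have e : σ (f y w) = sg * f w y := by
    rw [h.herm y w, ← mul_assoc, hsg, one_mul]
  rw [e]
  linear_combination (sg * f x w * f w y) * hc.2.2 - (c * f x w * f w y) * hsg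

theorem reflMap_injective {σ : F →+* F} {sg : F} {f : V → V → F} (h : Sesq σ sg f) {w : V} {c : F}
    (hc : 1 + c * f w w ≠ 0) : Function.Injective (reflMap h w c) := by
  refine (injective_iff_map_eq_zero _).2 fun x (hx : x + (c * f x w) • w = 0) => ?_
  have h1 := congrArg (fun z => f z w) hx
  simp only [h.add_left, h.smul_left, h.zero_left] at h1
  have h2 : f x w = 0 :=
    (mul_eq_zero.1 (by linear_combination h1 : f x w * (1 + c * f w w) = 0)).resolve_right hc
  simpa [h2] using hx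

section Main

variable {ι : Type} [Fintype ι] [DecidableEq ι] {N t : ℕ}

local notation "Vb" => (Fin N → F)

/-- The isometries of a two-argument form. -/
abbrev Iso (f : (ι → F) → (ι → F) → F) : Subgroup (GL ι F) :=
  Cfsg.preserving (Units.coeHom (Matrix ι ι F)) f

/-- The invertible matrix of an injective endomorphism. -/
noncomputable def glOf (φ : (ι → F) →ₗ[F] (ι → F)) (h : Function.Injective φ) : GL ι F :=
  Matrix.GeneralLinearGroup.mk'' (LinearMap.toMatrix' φ) (by
    rw [LinearMap.det_toMatrix']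
    exact LinearMap.isUnit_det φ ((Module.End.isUnit_iff φ).2 ⟨h, LinearMap.injective_iff_surjective.1 h⟩))

theorem glOf_mulVec (φ : (ι → F) →ₗ[F] (ι → F)) (h : Function.Injective φ) (x : ι → F) :
    (glOf φ h : Matrix ι ι F) *ᵥ x = φ x := by
  show LinearMap.toMatrix' φ *ᵥ x = φ x
  rw [LinearMap.toMatrix'_mulVec]

variable {σ : F →+* F} {sg : F}

/-- The pseudo-reflection transported to `F^ι`. -/
theorem exists_refl (L : (Fin t → Vb) ≃ₗ[F] (ι → F)) (f : (ι → F) → (ι → F) → F)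
    (f₁ : Vb → Vb → F) (hf₁ : Sesq σ sg f₁) (hσ : ∀ a, σ (σ a) = a) (hsg : sg * sg = 1)
    (hL : ∀ x y, f (L x) (L y) = ∑ k, f₁ (x k) (y k)) (W : Fin t → Vb) (c : F)
    (hc : Good σ sg (∑ k, f₁ (W k) (W k)) c) :
    ∃ g ∈ Iso f, ∀ x : Fin t → Vb,
      (g : Matrix ι ι F) *ᵥ L x = L (x + (c * ∑ k, f₁ (x k) (W k)) • W) := by
  let R := reflMap (hf₁.pi t) W c
  let φ : (ι → F) →ₗ[F] (ι → F) := L.toLinearMap ∘ₗ R ∘ₗ L.symm.toLinearMap
  have hφ : Function.Injective φ :=
    L.injective.comp ((reflMap_injective (hf₁.pi t) hc.2.1).comp L.symm.injective)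
  refine ⟨glOf φ hφ, fun u v => ?_, fun x => ?_⟩
  · simp only [Units.coeHom_apply, glOf_mulVec]
    show f (L (R (L.symm u))) (L (R (L.symm v))) = f u v
    rw [hL]
    refine (reflMap_isom (hf₁.pi t) hc hσ hsg _ _).trans ?_
    conv_rhs => rw [← L.apply_symm_apply u, ← L.apply_symm_apply v, hL]
  · rw [glOf_mulVec]
    show L (R (L.symm (L x))) = _
    rw [L.symm_apply_apply]
    rfl

omit [Fintype ι] [DecidableEq ι] in
theorem sum_single_left (f₁ : Vb → Vb → F) (hf₁ : Sesq σ sg f₁) (k : Fin t) (x : Vb)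
    (W : Fin t → Vb) : ∑ j, f₁ ((Pi.single k x : Fin t → Vb) j) (W j) = f₁ x (W k) := by
  rw [Finset.sum_eq_single k (fun j _ hj => by rw [Pi.single_eq_of_ne hj, hf₁.zero_left])
    (by simp), Pi.single_eq_same]

/-- The summand with index `k`. -/
def summand (L : (Fin t → Vb) ≃ₗ[F] (ι → F)) (k : Fin t) : Submodule F (ι → F) :=
  (LinearMap.range (LinearMap.single F (fun _ : Fin t => Vb) k)).map L.toLinearMap

omit [Fintype ι] [DecidableEq ι] in
theorem mem_summand (L : (Fin t → Vb) ≃ₗ[F] (ι → F)) (k : Fin t) (v : ι → F) :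
    v ∈ summand L k ↔ ∃ x : Vb, L (Pi.single k x) = v := by
  simp only [summand, Submodule.mem_map, LinearMap.mem_range, LinearEquiv.coe_coe,
    LinearMap.coe_single]
  exact ⟨fun ⟨_, ⟨x, hx⟩, h⟩ => ⟨x, hx ▸ h⟩, fun ⟨x, h⟩ => ⟨_, ⟨x, rfl⟩, h⟩⟩

theorem finrank_summand (L : (Fin t → Vb) ≃ₗ[F] (ι → F)) (k : Fin t) :
    Module.finrank F (summand L k) = N := by
  rw [summand, (L.submoduleMap _).symm.finrank_eq,
    LinearMap.finrank_range_of_inj (f := LinearMap.single F (fun _ : Fin t => Vb) k)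
      (fun x y h => Pi.single_injective (M := fun _ : Fin t => Vb) k h)]
  simp

theorem mem_stabilizer_of (L : (Fin t → Vb) ≃ₗ[F] (ι → F)) (g : GL ι F) (π : Equiv.Perm (Fin t))
    (hg : ∀ k (x : Vb), (g : Matrix ι ι F) *ᵥ L (Pi.single k x) ∈ summand L (π k)) :
    g ∈ Cfsg.Geo.decompositionStabilizer (summand L) := by
  refine ⟨π, fun k => ?_⟩
  refine Submodule.eq_of_le_of_finrank_eq ?_ ?_
  · rintro _ ⟨v, hv, rfl⟩
    obtain ⟨x, rfl⟩ := (mem_summand L k v).1 hv
    rw [Matrix.toLin'_apply]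
    exact hg k x
  · have hinj : Function.Injective (Matrix.toLin' (g : Matrix ι ι F)) := fun x y h => by
      simp only [Matrix.toLin'_apply] at h
      exact Matrix.mulVec_injective_iff_isUnit.2 g.isUnit h
    rw [← (Submodule.equivMapOfInjective _ hinj _).finrank_eq, finrank_summand, finrank_summand]

open scoped commutatorElement in
/-- The main criterion. -/
theorem not_maximal (L : (Fin t → Vb) ≃ₗ[F] (ι → F)) (f : (ι → F) → (ι → F) → F)
    (f₁ : Vb → Vb → F) (hf₁ : Sesq σ sg f₁) (hσ : ∀ a, σ (σ a) = a) (hsg : sg * sg = 1)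
    (hnd : ∀ w, w ≠ 0 → ∃ z, f₁ z w ≠ 0)
    (hL : ∀ x y, f (L x) (L y) = ∑ k, f₁ (x k) (y k))
    (ht : 2 ≤ t) (hN : 3 ≤ N) (H I : Subgroup (GL ι F)) (hHI : H ≤ I)
    (hcomm : ∀ a ∈ Iso f, ∀ b ∈ Iso f, ⁅a, b⁆ ∈ I)
    (hH : ∀ g ∈ H, ∃ (π : Equiv.Perm (Fin t)) (a : Vb →ₗ[F] Vb) (d : Fin t → F),
      (∀ k, d k ≠ 0) ∧ ∀ k x, (g : Matrix ι ι F) *ᵥ L (Pi.single k x) =
        L (Pi.single (π k) (d k • a x)))
    (u v x' : Vb) (cu cv cV : F) (hindep : ∀ a b : F, a • u + b • v = 0 → a = 0 ∧ b = 0)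
    (huv : f₁ u v ≠ 0) (hx' : x' ≠ 0) (hu : Good σ sg (f₁ u u) cu) (hv : Good σ sg (f₁ v v) cv)
    (hV : Good σ sg (f₁ v v + f₁ x' x') cV) :
    ∃ K : Subgroup (GL ι F), H < K ∧ K < I := by
  classical
  refine ⟨Cfsg.Geo.decompositionStabilizer (summand L) ⊓ I, ?_, ?_⟩
  all_goals
    let k₀ : Fin t := ⟨0, by omega⟩
    let k₁ : Fin t := ⟨1, by omega⟩
    have h01 : k₀ ≠ k₁ := by simp [k₀, k₁]
    have hsum1 : ∀ (k : Fin t) (w : Vb), ∑ j, f₁ ((Pi.single k w : Fin t → Vb) j)
        ((Pi.single k w : Fin t → Vb) j) = f₁ w w := fun k w => by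
      rw [sum_single_left f₁ hf₁, Pi.single_eq_same]
    obtain ⟨Ru, hRu, hRu'⟩ := exists_refl L f f₁ hf₁ hσ hsg hL (Pi.single k₀ u) cu
      ((hsum1 k₀ u).symm ▸ hu)
    obtain ⟨Rv, hRv, hRv'⟩ := exists_refl L f f₁ hf₁ hσ hsg hL (Pi.single k₀ v) cv
      ((hsum1 k₀ v).symm ▸ hv)
    have hloc : ∀ (g : GL ι F) (w : Vb) (c : F), (∀ x : Fin t → Vb, (g : Matrix ι ι F) *ᵥ L x =
        L (x + (c * ∑ k, f₁ (x k) ((Pi.single k₀ w : Fin t → Vb) k)) • (Pi.single k₀ w : Fin t → Vb))) →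
        (∀ x : Vb, (g : Matrix ι ι F) *ᵥ L (Pi.single k₀ x) =
          L (Pi.single k₀ (x + (c * f₁ x w) • w))) ∧
        ∀ k, k ≠ k₀ → ∀ x : Vb, (g : Matrix ι ι F) *ᵥ L (Pi.single k x) = L (Pi.single k x) := by
      intro g w c hg
      refine ⟨fun x => ?_, fun k hk x => ?_⟩
      · rw [hg, sum_single_left f₁ hf₁, Pi.single_eq_same, Pi.single_add, Pi.single_smul]
      · rw [hg, sum_single_left f₁ hf₁, Pi.single_eq_of_ne hk, hf₁.zero_right, mul_zero, zero_smul,
          add_zero]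
    obtain ⟨hu0, hu1⟩ := hloc Ru u cu hRu'
    obtain ⟨hv0, hv1⟩ := hloc Rv v cv hRv'
    have hstab : ∀ g : GL ι F, (∃ φ : Vb → Vb, ∀ x, (g : Matrix ι ι F) *ᵥ L (Pi.single k₀ x) =
          L (Pi.single k₀ (φ x))) →
        (∀ k, k ≠ k₀ → ∀ x : Vb, (g : Matrix ι ι F) *ᵥ L (Pi.single k x) = L (Pi.single k x)) →
        g ∈ Cfsg.Geo.decompositionStabilizer (summand L) := by
      rintro g ⟨φ, h0⟩ h1
      refine mem_stabilizer_of L g 1 fun k x => ?_
      rw [mem_summand]
      rcases eq_or_ne k k₀ with rfl | hk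
      · exact ⟨φ x, (h0 x).symm⟩
      · exact ⟨x, (h1 k hk x).symm⟩
    have hRuS : Ru ∈ Cfsg.Geo.decompositionStabilizer (summand L) := hstab Ru ⟨_, hu0⟩ hu1
    have hRvS : Rv ∈ Cfsg.Geo.decompositionStabilizer (summand L) := hstab Rv ⟨_, hv0⟩ hv1
  · -- `H` is smaller
    refine lt_of_le_of_ne (le_inf (fun g hg => ?_) hHI) fun heq => ?_
    · obtain ⟨π, a, d, -, hg⟩ := hH g hg
      exact mem_stabilizer_of L g π fun k x => (mem_summand _ _ _).2 ⟨_, (hg k x).symm⟩
    set s := ⁅Ru, Rv⁆ with hs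
    have hsK : s ∈ Cfsg.Geo.decompositionStabilizer (summand L) ⊓ I :=
      ⟨by rw [hs, commutatorElement_def]
          exact Subgroup.mul_mem _ (Subgroup.mul_mem _ (Subgroup.mul_mem _ hRuS hRvS)
            (Subgroup.inv_mem _ hRuS)) (Subgroup.inv_mem _ hRvS),
        hcomm _ hRu _ hRv⟩
    obtain ⟨π, a, d, hd, hsg'⟩ := hH s (heq ▸ hsK)
    -- fixed vectors
    have hfix : ∀ y : Fin t → Vb, (Ru : Matrix ι ι F) *ᵥ L y = L y →
        (Rv : Matrix ι ι F) *ᵥ L y = L y → (s : Matrix ι ι F) *ᵥ L y = L y := by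
      intro y h1 h2
      have hinv : ∀ g : GL ι F, (g : Matrix ι ι F) *ᵥ L y = L y →
          ((g⁻¹ : GL ι F) : Matrix ι ι F) *ᵥ L y = L y := fun g hg => by
        conv_lhs => rw [← hg]
        rw [Matrix.mulVec_mulVec, ← Units.val_mul, inv_mul_cancel, Units.val_one, Matrix.one_mulVec]
      rw [hs, commutatorElement_def, Units.val_mul, Units.val_mul, Units.val_mul,
        ← Matrix.mulVec_mulVec, hinv _ h2, ← Matrix.mulVec_mulVec, hinv _ h1,
        ← Matrix.mulVec_mulVec, h2, h1]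
    have hd1 : ∀ x : Vb, d k₁ • a x = x := by
      intro x
      have h2 := hsg' k₁ x
      rw [hfix _ (hu1 _ h01.symm x) (hv1 _ h01.symm x), L.injective.eq_iff] at h2
      have h3 := congrFun h2 k₁
      rw [Pi.single_eq_same] at h3
      by_cases hπ : π k₁ = k₁
      · rw [hπ, Pi.single_eq_same] at h3; exact h3.symm
      · rw [Pi.single_eq_of_ne (Ne.symm hπ)] at h3
        have h4 := congrFun h2 (π k₁)
        rw [Pi.single_eq_of_ne hπ, Pi.single_eq_same] at h4
        rw [← h4, h3]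
    have ha : ∀ x : Vb, a x = (d k₁)⁻¹ • x := fun x => by
      conv_rhs => rw [← hd1 x]
      rw [inv_smul_smul₀ (hd k₁)]
    -- a vector orthogonal to both centres
    obtain ⟨z, hz, hz1, hz2⟩ : ∃ z : Vb, z ≠ 0 ∧ f₁ z u = 0 ∧ f₁ z v = 0 := by
      let ψ : Vb →ₗ[F] (Fin 2 → F) :=
        { toFun := fun z => ![f₁ z u, f₁ z v]
          map_add' := fun a b => by funext i; fin_cases i <;> simp [hf₁.add_left]
          map_smul' := fun c a => by funext i; fin_cases i <;> simp [hf₁.smul_left] }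
      have hker : 0 < Module.finrank F (LinearMap.ker ψ) := by
        have h1 := LinearMap.finrank_range_add_finrank_ker ψ
        have h2 := Submodule.finrank_le (LinearMap.range ψ)
        rw [Module.finrank_fin_fun] at h1 h2
        omega
      obtain ⟨⟨z, hz⟩, hz0⟩ := Module.finrank_pos_iff_exists_ne_zero.1 hker
      exact ⟨z, fun h => hz0 (Subtype.ext h), congrFun (LinearMap.mem_ker.1 hz) 0,
        congrFun (LinearMap.mem_ker.1 hz) 1⟩
    have hzfix : ∀ (g : GL ι F) (w : Vb) (c : F), (∀ x : Vb, (g : Matrix ι ι F) *ᵥ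
        L (Pi.single k₀ x) = L (Pi.single k₀ (x + (c * f₁ x w) • w))) → f₁ z w = 0 →
        (g : Matrix ι ι F) *ᵥ L (Pi.single k₀ z) = L (Pi.single k₀ z) := fun g w c hg h => by
      rw [hg, h, mul_zero, zero_smul, add_zero]
    have h2 := hsg' k₀ z
    rw [hfix _ (hzfix Ru u cu hu0 hz1) (hzfix Rv v cv hv0 hz2), L.injective.eq_iff, ha,
      smul_smul] at h2
    have hπ0 : π k₀ = k₀ := by
      by_contra hπ
      have h3 := congrFun h2 k₀
      rw [Pi.single_eq_same, Pi.single_eq_of_ne (Ne.symm hπ)] at h3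
      exact hz h3
    rw [hπ0] at h2
    have hr : d k₀ * (d k₁)⁻¹ = 1 := by
      have h3 := Pi.single_injective k₀ h2
      by_contra hne
      exact hz ((smul_eq_zero.1 (show (1 - d k₀ * (d k₁)⁻¹) • z = 0 by
        rw [sub_smul, one_smul, ← h3, sub_self])).resolve_left (sub_ne_zero.2 (Ne.symm hne)))
    -- so the two reflections commute on the summand
    have hcommute : ∀ x : Vb, (Ru : Matrix ι ι F) *ᵥ ((Rv : Matrix ι ι F) *ᵥ L (Pi.single k₀ x)) =
        (Rv : Matrix ι ι F) *ᵥ ((Ru : Matrix ι ι F) *ᵥ L (Pi.single k₀ x)) := by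
      intro x
      have e : s * (Rv * Ru) = Ru * Rv := by rw [hs, commutatorElement_def]; group
      have e' := congrArg (fun g : GL ι F => (g : Matrix ι ι F) *ᵥ L (Pi.single k₀ x)) e
      simp only [Units.val_mul, ← Matrix.mulVec_mulVec] at e'
      rw [hu0, hv0] at e'
      rw [hsg' k₀, hπ0, ha, smul_smul, hr, one_smul] at e'
      rw [← e', hu0, hv0]
    obtain ⟨z₂, hz₂⟩ := hnd u (fun h => huv (by rw [h, hf₁.zero_left]))
    have h5 := hcommute z₂
    rw [hu0, hv0, hu0, hv0, L.injective.eq_iff] at h5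
    have h6 := Pi.single_injective k₀ h5
    simp only [hf₁.add_left, hf₁.smul_left] at h6
    have h7 := hindep (cu * (cv * f₁ z₂ v * f₁ v u)) (-(cv * (cu * f₁ z₂ u * f₁ u v))) (by
      rw [← sub_eq_zero] at h6
      rw [← h6]
      module)
    rcases mul_eq_zero.1 (neg_eq_zero.1 h7.2) with h8 | h8
    · exact hv.1 h8
    rcases mul_eq_zero.1 h8 with h9 | h9
    · rcases mul_eq_zero.1 h9 with h10 | h10
      · exact hu.1 h10
      · exact hz₂ h10
    · exact huv h9
  · -- the stabiliser is not everything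
    refine lt_of_le_of_ne inf_le_right fun heq => ?_
    let W₂ : Fin t → Vb := Pi.single k₀ v + Pi.single k₁ x'
    have hW₂0 : W₂ k₀ = v := by simp [W₂, h01]
    have hW₂1 : W₂ k₁ = x' := by simp [W₂, h01.symm]
    have hV2 : ∑ k, f₁ (W₂ k) (W₂ k) = f₁ v v + f₁ x' x' := by
      rw [← Finset.sum_subset (Finset.subset_univ {k₀, k₁}) ?_, Finset.sum_pair h01, hW₂0, hW₂1]
      intro k _ hk
      simp only [Finset.mem_insert, Finset.mem_singleton, not_or] at hk
      simp [W₂, hk.1, hk.2, hf₁.zero_left]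
    obtain ⟨RV, hRV, hRV'⟩ := exists_refl L f f₁ hf₁ hσ hsg hL W₂ cV (hV2.symm ▸ hV)
    have hsS : ⁅RV, Ru⁆ ∈ Cfsg.Geo.decompositionStabilizer (summand L) :=
      (heq.symm ▸ hcomm _ hRV _ hRu : ⁅RV, Ru⁆ ∈ Cfsg.Geo.decompositionStabilizer (summand L) ⊓ I).1
    have hR : RV * Ru * RV⁻¹ ∈ Cfsg.Geo.decompositionStabilizer (summand L) := by
      have := mul_mem hsS hRuS
      rwa [commutatorElement_def, inv_mul_cancel_right] at this
    obtain ⟨π, hπ⟩ := hR
    set μ := cV * f₁ u v with hμ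
    set x₁ := u + μ • v with hx₁
    have hμ0 : μ ≠ 0 := mul_ne_zero hV.1 huv
    have hx₁0 : x₁ ≠ 0 := fun h => one_ne_zero (hindep 1 μ (by rw [one_smul]; exact h)).1
    obtain ⟨z₀, hz₀⟩ := hnd x₁ hx₁0
    obtain ⟨z, hzf, hzi⟩ : ∃ z, f₁ z x₁ ≠ 0 ∧ ∀ c : F, z ≠ c • x₁ := by
      by_cases hline : ∀ c : F, z₀ ≠ c • x₁
      · exact ⟨z₀, hz₀, hline⟩
      push Not at hline
      obtain ⟨c, rfl⟩ := hline
      have hxx : f₁ x₁ x₁ ≠ 0 := fun h => hz₀ (by rw [hf₁.smul_left, h, mul_zero])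
      let ψ : Vb →ₗ[F] F :=
        { toFun := fun z => f₁ z x₁
          map_add' := fun a b => hf₁.add_left a b x₁
          map_smul' := fun c a => hf₁.smul_left c a x₁ }
      have hker : 0 < Module.finrank F (LinearMap.ker ψ) := by
        have h1 := LinearMap.finrank_range_add_finrank_ker ψ
        have h2 := Submodule.finrank_le (LinearMap.range ψ)
        rw [Module.finrank_fin_fun] at h1
        rw [Module.finrank_self] at h2
        omega
      obtain ⟨⟨k, hk⟩, hk0⟩ := Module.finrank_pos_iff_exists_ne_zero.1 hker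
      have hk' : f₁ k x₁ = 0 := hk
      refine ⟨c • x₁ + k, by rw [hf₁.add_left, hk', add_zero]; exact hz₀, fun c' h => ?_⟩
      have h' : k = (c' - c) • x₁ := by rw [sub_smul, ← h]; abel
      rw [h', hf₁.smul_left] at hk'
      rcases mul_eq_zero.1 hk' with h'' | h''
      · exact hk0 (Subtype.ext (show k = 0 by rw [h', h'', zero_smul]))
      · exact hxx h''
    let W' : Fin t → Vb := Pi.single k₀ u + μ • W₂
    have hW' : (RV : Matrix ι ι F) *ᵥ L (Pi.single k₀ u) = L W' := by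
      rw [hRV', sum_single_left f₁ hf₁, hW₂0]
    have hconj : ∀ y : Fin t → Vb, ((RV * Ru * RV⁻¹ : GL ι F) : Matrix ι ι F) *ᵥ L y =
        L (y + (cu * ∑ k, f₁ (y k) (W' k)) • W') := by
      intro y
      obtain ⟨y', hy'⟩ := L.surjective (((RV⁻¹ : GL ι F) : Matrix ι ι F) *ᵥ L y)
      have hy : (RV : Matrix ι ι F) *ᵥ L y' = L y := by
        rw [hy', Matrix.mulVec_mulVec, ← Units.val_mul, mul_inv_cancel, Units.val_one,
          Matrix.one_mulVec]
      have hval : ∑ k, f₁ (y' k) ((Pi.single k₀ u : Fin t → Vb) k) = ∑ k, f₁ (y k) (W' k) := by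
        rw [← hL, ← hL]
        have := hRV (L y') (L (Pi.single k₀ u))
        simp only [Units.coeHom_apply, hy, hW'] at this
        exact this.symm
      rw [Units.val_mul, Units.val_mul, ← Matrix.mulVec_mulVec, ← Matrix.mulVec_mulVec, ← hy',
        hRu', hval, map_add, map_smul, Matrix.mulVec_add, Matrix.mulVec_smul, hy, hW']
      simp only [W', map_add, map_smul]
    have hmem : ((RV * Ru * RV⁻¹ : GL ι F) : Matrix ι ι F) *ᵥ L (Pi.single k₀ z) ∈
        summand L (π k₀) := by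
      rw [← hπ k₀, Submodule.mem_map]
      exact ⟨_, (mem_summand _ _ _).2 ⟨z, rfl⟩, Matrix.toLin'_apply _ _⟩
    obtain ⟨w, hw⟩ := (mem_summand _ _ _).1 hmem
    rw [hconj, sum_single_left f₁ hf₁, L.injective.eq_iff] at hw
    have hW'0 : W' k₀ = x₁ := by simp [W', hW₂0, hx₁]
    have hW'1 : W' k₁ = μ • x' := by simp [W', hW₂1, h01.symm]
    by_cases hπk : π k₀ = k₁
    · have h3 := congrFun hw k₀
      rw [hπk, Pi.single_eq_of_ne h01, Pi.add_apply, Pi.smul_apply, Pi.single_eq_same, hW'0] at h3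
      exact hzi (-(cu * f₁ z x₁)) (by rw [neg_smul]; exact eq_neg_of_add_eq_zero_left h3.symm)
    · have h3 := congrFun hw k₁
      rw [Pi.single_eq_of_ne (Ne.symm hπk), Pi.add_apply, Pi.smul_apply,
        Pi.single_eq_of_ne h01.symm, zero_add, hW'0, hW'1, smul_smul] at h3
      rcases smul_eq_zero.1 h3.symm with h4 | h4
      · rcases mul_eq_zero.1 h4 with h5 | h5
        · exact mul_ne_zero hu.1 hzf h5
        · exact hμ0 h5
      · exact hx' h4

end Main

end Cfsg.Agent.H1.TensorNM
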