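import Cfsg.Agent.H1.TensorCases

/-!
The stabiliser in `Ω⁺` over two elements of a tensor decomposition with a two-dimensional
symplectic factor lies in the normaliser of a field of four elements, so it is not maximal.
-/

set_option autoImplicit false

namespace Cfsg.Agent.H1.TensorNM

open Matrix
open scoped commutatorElement

variable {F : Type*} [Field F] {ι : Type} [Fintype ι] [DecidableEq ι] {N : ℕ}

local notation "W" => (Fin N → F)

/-- The nilpotent map of a pair of vectors. -/
def pairMap (f : W → W → F) (hal : ∀ x y v, f (x + y) v = f x v + f y v)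
    (hsl : ∀ (c : F) x v, f (c • x) v = c * f x v) (w u : W) : W →ₗ[F] W where
  toFun x := f x w • u + f x u • w
  map_add' x y := by rw [hal, hal, add_smul, add_smul]; abel
  map_smul' c x := by rw [hsl, hsl, RingHom.id_apply, smul_add, smul_smul, smul_smul]

theorem not_maximal_two (h2 : (2 : F) = 0) (h01 : ∀ a : F, a = 0 ∨ a = 1) (hN : 3 ≤ N)
    (L : (W × W) ≃ₗ[F] (ι → F)) (Q : (ι → F) → F) (f : W → W → F)
    (hal : ∀ x y v, f (x + y) v = f x v + f y v) (hsl : ∀ (c : F) x v, f (c • x) v = c * f x v)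
    (har : ∀ v x y, f v (x + y) = f v x + f v y) (hsr : ∀ (c : F) v x, f v (c • x) = c * f v x)
    (hsymm : ∀ x y, f x y = f y x) (halt : ∀ x, f x x = 0)
    (hnd : ∀ w, w ≠ 0 → ∃ z, f z w ≠ 0)
    (hQ : ∀ p, Q (L p) = f p.1 p.2) (H : Subgroup (GL ι F)) (hH : H ≤ Cfsg.Geo.omegaGL Q)
    (hHg : ∀ g ∈ H, ∃ (A : (Fin 2 → F) →ₗ[F] (Fin 2 → F)) (b : W →ₗ[F] W), ∀ (s : Fin 2 → F) y,
      (g : Matrix ι ι F) *ᵥ L (s 0 • y, s 1 • y) = L (A s 0 • b y, A s 1 • b y)) :
    ∃ K : Subgroup (GL ι F), H < K ∧ K < Cfsg.Geo.omegaGL Q := by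
  classical
  have h4 : (4 : F) = 0 := by linear_combination (2 : F) * h2
  have h6 : (6 : F) = 0 := by linear_combination (3 : F) * h2
  have hone : ∀ {a : F}, a ≠ 0 → a = 1 := fun ha => (h01 _).resolve_left ha
  -- vectors
  obtain ⟨w, u, c, hu, hcw, hcu, hwu, hindep⟩ : ∃ w u c : W, u ≠ 0 ∧ f c w = 1 ∧ f c u = 0 ∧
      f w u = 0 ∧ ∀ a b : F, a • w + b • u = 0 → a = 0 ∧ b = 0 := by
    set w : W := Pi.single ⟨0, by omega⟩ 1 with hw
    obtain ⟨c, hc⟩ := hnd w (by simp [hw])
    let ψ : W →ₗ[F] (Fin 2 → F) :=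
      { toFun := fun z => ![f c z, f w z]
        map_add' := fun a b => by funext i; fin_cases i <;> simp [har]
        map_smul' := fun r a => by funext i; fin_cases i <;> simp [hsr] }
    have hker : 0 < Module.finrank F (LinearMap.ker ψ) := by
      have h1 := LinearMap.finrank_range_add_finrank_ker ψ
      have h2 := Submodule.finrank_le (LinearMap.range ψ)
      rw [Module.finrank_fin_fun] at h1 h2
      omega
    obtain ⟨⟨u, hu⟩, hu0⟩ := Module.finrank_pos_iff_exists_ne_zero.1 hker
    have hu' : u ≠ 0 := fun h => hu0 (Subtype.ext h)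
    have h1 : f c u = 0 := congrFun (LinearMap.mem_ker.1 hu) 0
    refine ⟨w, u, c, hu', hone hc, h1, congrFun (LinearMap.mem_ker.1 hu) 1, fun a b hab => ?_⟩
    have ha : a = 0 := by
      have := congrArg (fun z => f c z) hab
      have hz : f c 0 = 0 := by simpa using hsr 0 c 0
      simpa [har, hsr, h1, hone hc, hz] using this
    refine ⟨ha, ?_⟩
    subst ha
    rw [zero_smul, zero_add, smul_eq_zero] at hab
    exact hab.resolve_right hu'
  have hwc : f w c = 1 := by rw [hsymm, hcw]
  have huc : f u c = 0 := by rw [hsymm, hcu]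
  have huw : f u w = 0 := by rw [hsymm, hwu]
  have hzero : ∀ x, f 0 x = 0 := fun x => by simpa using hsl 0 0 x
  -- transporting maps
  have mk : ∀ M : (W × W) →ₗ[F] (W × W), Function.Injective M →
      (∀ p, f (M p).1 (M p).2 = f p.1 p.2) →
      ∃ g : Cfsg.isometryGroup F Q, ∀ p, ((g : GL ι F) : Matrix ι ι F) *ᵥ L p = L (M p) := by
    intro M hM hMQ
    let φ : (ι → F) →ₗ[F] (ι → F) := L.toLinearMap ∘ₗ M ∘ₗ L.symm.toLinearMap
    have hφ : Function.Injective φ := L.injective.comp (hM.comp L.symm.injective)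
    have happ : ∀ p, (glOf φ hφ : Matrix ι ι F) *ᵥ L p = L (M p) := fun p => by
      rw [glOf_mulVec]; simp [φ]
    refine ⟨⟨glOf φ hφ, fun v _ => ?_⟩, happ⟩
    obtain ⟨p, rfl⟩ := L.surjective v
    simp only [Units.coeHom_apply, happ, hQ, hMQ]
  -- the map `ω`
  let O : (W × W) →ₗ[F] (W × W) := (LinearMap.snd F W W).prod (LinearMap.fst F W W + LinearMap.snd F W W)
  obtain ⟨o, ho⟩ := mk O (fun p p' h => by
      simp only [O, LinearMap.prod_apply, Function.prod, LinearMap.snd_apply, LinearMap.add_apply,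
        LinearMap.fst_apply, Prod.mk.injEq] at h
      exact Prod.ext (by simpa [h.1] using h.2) h.1)
    fun p => by
      show f p.2 (p.1 + p.2) = _
      rw [har, halt, add_zero, hsymm]
  have ho' : ∀ x y : W, ((o : GL ι F) : Matrix ι ι F) *ᵥ L (x, y) = L (y, x + y) := fun x y => ho _
  have hpow : ∀ (k : ℕ) (x : W), ∃ α β : F,
      (((o : GL ι F) ^ k : GL ι F) : Matrix ι ι F) *ᵥ L (x, 0) = L (α • x, β • x) := by
    intro k x
    induction k with
    | zero => exact ⟨1, 0, by simp⟩
    | succ k ih =>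
      obtain ⟨α, β, h⟩ := ih
      exact ⟨β, α + β, by rw [pow_succ', Units.val_mul, ← Matrix.mulVec_mulVec, h, ho', add_smul]⟩
  -- Siegel maps
  have hρ : ∀ a b : W, f a b = 0 → ∃ g : Cfsg.isometryGroup F Q, g * g = 1 ∧
      (∀ x y : W, ((g : GL ι F) : Matrix ι ι F) *ᵥ L (x, y) =
        L (x + (f x (a + b) + f b y) • a + (f x b + f a y) • b,
           y + (f x (a + b) + f b y) • b + (f x b + f a y) • (a + b))) ∧ g * o = o * g := by
    intro a b hab
    have hba : f b a = 0 := by rw [hsymm, hab]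
    let M : (W × W) →ₗ[F] (W × W) :=
      { toFun := fun p => (p.1 + (f p.1 (a + b) + f b p.2) • a + (f p.1 b + f a p.2) • b,
          p.2 + (f p.1 (a + b) + f b p.2) • b + (f p.1 b + f a p.2) • (a + b))
        map_add' := fun p p' => by
          ext1 <;> simp only [Prod.fst_add, Prod.snd_add, hal, har, add_smul] <;> abel
        map_smul' := fun r p => by
          ext1 <;> simp only [Prod.smul_fst, Prod.smul_snd, hsl, hsr, RingHom.id_apply, smul_add,
            smul_smul, mul_add, ← mul_assoc] }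
    have hMM : ∀ p, M (M p) = p := by
      intro p
      have e1 : f (M p).1 (a + b) + f b (M p).2 = f p.1 (a + b) + f b p.2 := by
        simp only [M, LinearMap.coe_mk, AddHom.coe_mk, hal, har, hsl, hsr, halt, hab, hba]; ring
      have e2 : f (M p).1 b + f a (M p).2 = f p.1 b + f a p.2 := by
        simp only [M, LinearMap.coe_mk, AddHom.coe_mk, hal, har, hsl, hsr, halt, hab, hba]; ring
      show ((M p).1 + _ • a + _ • b, (M p).2 + _ • b + _ • (a + b)) = p
      rw [e1, e2]
      set C := f p.1 (a + b) + f b p.2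
      set D := f p.1 b + f a p.2
      show (p.1 + C • a + D • b + C • a + D • b, p.2 + C • b + D • (a + b) + C • b + D • (a + b)) = p
      have e : ∀ (r : F) (v : W), r • v + r • v = 0 := fun r v => by
        rw [← add_smul, ← two_mul, h2, zero_mul, zero_smul]
      refine Prod.ext ?_ ?_
      · calc _ = p.1 + (C • a + C • a) + (D • b + D • b) := by abel
          _ = p.1 := by rw [e, e, add_zero, add_zero]
      · calc _ = p.2 + (C • b + C • b) + (D • (a + b) + D • (a + b)) := by abel
          _ = p.2 := by rw [e, e, add_zero, add_zero]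
    obtain ⟨g, hg⟩ := mk M (Function.LeftInverse.injective hMM) fun p => by
      simp only [M, LinearMap.coe_mk, AddHom.coe_mk, hal, har, hsl, hsr, halt, hab, hba,
        hsymm p.1 a, hsymm p.1 b, hsymm b p.2]
      linear_combination ((f a p.1 + f b p.1 + f p.2 b) * (f b p.1 + f a p.2)) * h2
    refine ⟨g, ?_, fun x y => hg (x, y), ?_⟩ <;>
      refine Subtype.ext (Units.ext (Matrix.toLin'.injective (LinearMap.ext fun v => ?_))) <;>
      obtain ⟨p, rfl⟩ := L.surjective v <;>
      simp only [Subgroup.coe_mul, Subgroup.coe_one, Units.val_mul, Units.val_one, Matrix.toLin'_apply,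
        ← Matrix.mulVec_mulVec, Matrix.one_mulVec, hg, ho]
    · rw [hMM]
    · congr 1
      simp only [M, O, LinearMap.coe_mk, AddHom.coe_mk, LinearMap.prod_apply, Function.prod,
        LinearMap.snd_apply, LinearMap.add_apply, LinearMap.fst_apply, hal, har,
        hsymm p.2 a, hsymm p.2 b, hsymm p.1 a, hsymm p.1 b]
      have e : ∀ (r : F) (v : W), r • v + r • v = 0 := fun r v => by
        rw [← add_smul, ← two_mul, h2, zero_mul, zero_smul]
      refine Prod.ext ?_ ?_ <;> simp only
      · match_scalars <;> rw [← sub_eq_zero] <;> ring_nf <;> simp [h2, h4, h6]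
      · match_scalars <;> rw [← sub_eq_zero] <;> ring_nf <;> simp [h2, h4, h6]
  -- shears
  have hshear : ∀ a b : W, ∃ g : Cfsg.isometryGroup F Q, g * g = 1 ∧ ∀ x y : W,
      ((g : GL ι F) : Matrix ι ι F) *ᵥ L (x, y) = L (x, y + pairMap f hal hsl a b x) := by
    intro a b
    let M : (W × W) →ₗ[F] (W × W) := (LinearMap.fst F W W).prod
      (LinearMap.snd F W W + pairMap f hal hsl a b ∘ₗ LinearMap.fst F W W)
    have hMM : ∀ p, M (M p) = p := fun p => by
      show (p.1, p.2 + pairMap f hal hsl a b p.1 + pairMap f hal hsl a b p.1) = p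
      rw [add_assoc, ← two_smul F, h2, zero_smul, add_zero]
    obtain ⟨g, hg⟩ := mk M (Function.LeftInverse.injective hMM) fun p => by
      show f p.1 (p.2 + (f p.1 a • b + f p.1 b • a)) = _
      rw [har, har, hsr, hsr]
      linear_combination (f p.1 a * f p.1 b) * h2
    refine ⟨g, Subtype.ext (Units.ext (Matrix.toLin'.injective (LinearMap.ext fun v => ?_))),
      fun x y => hg (x, y)⟩
    obtain ⟨p, rfl⟩ := L.surjective v
    simp only [Subgroup.coe_mul, Subgroup.coe_one, Units.val_mul, Units.val_one, Matrix.toLin'_apply,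
      ← Matrix.mulVec_mulVec, Matrix.one_mulVec, hg, hMM]
  obtain ⟨ρ, hρ2, hρapp, hρo⟩ := hρ w u hwu
  have hneg : ∀ (v : W), v + v = 0 := fun v => by rw [← two_smul F, h2, zero_smul]
  have hs0 : ∀ z, f z 0 = 0 := fun z => by simpa using hsr 0 z 0
  obtain ⟨σg, hσ2, hσapp, hσo⟩ := hρ c 0 (hs0 c)
  set k : Cfsg.isometryGroup F Q := σg * ρ * σg * ρ with hk
  have hinv : ∀ g : Cfsg.isometryGroup F Q, g * g = 1 → g⁻¹ = g := fun g h =>
    inv_eq_of_mul_eq_one_right h
  have hkΩ : (k : GL ι F) ∈ Cfsg.Geo.omegaGL Q := by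
    refine ⟨k, ?_, rfl⟩
    have : k = ⁅σg, ρ⁆ := by rw [hk, commutatorElement_def, hinv _ hσ2, hinv _ hρ2]
    rw [this]
    exact Subgroup.commutator_mem_commutator (Subgroup.mem_top _) (Subgroup.mem_top _)
  let K : Subgroup (GL ι F) :=
    Subgroup.normalizer (Subgroup.zpowers (o : GL ι F) : Set (GL ι F)) ⊓ Cfsg.Geo.omegaGL Q
  have hnorm : ∀ g : GL ι F, (g * o * g⁻¹ = (o : GL ι F) ∨ g * o * g⁻¹ = (o : GL ι F)⁻¹) →
      g ∈ Subgroup.normalizer (Subgroup.zpowers (o : GL ι F) : Set (GL ι F)) := by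
    intro g hg
    have hmap : (Subgroup.zpowers (o : GL ι F)).map (MulAut.conj g).toMonoidHom =
        Subgroup.zpowers (o : GL ι F) := by
      rw [MonoidHom.map_zpowers]
      rcases hg with h | h
      · simp only [MulEquiv.coe_toMonoidHom, MulAut.conj_apply, h]
      · simp only [MulEquiv.coe_toMonoidHom, MulAut.conj_apply, h, Subgroup.zpowers_inv]
    rw [Subgroup.mem_normalizer_iff]
    intro x
    constructor
    · intro hx
      exact hmap ▸ ⟨x, hx, rfl⟩
    · intro hx
      rw [← hmap] at hx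
      obtain ⟨y, hy, hyx⟩ := hx
      have : y = x := (MulAut.conj g).injective hyx
      exact this ▸ hy
  refine ⟨K, lt_of_le_of_ne (le_inf (fun g hg => ?_) hH) fun heq => ?_,
    lt_of_le_of_ne inf_le_right fun heq => ?_⟩
  · -- `H` normalises `ω`
    obtain ⟨A, b, hgA⟩ := hHg g hg
    refine hnorm g ?_
    have hA : (∀ s : Fin 2 → F, A ![s 1, s 0 + s 1] = ![A s 1, A s 0 + A s 1]) ∨
        (∀ s : Fin 2 → F, A s = ![(A ![s 1, s 0 + s 1]) 1,
          (A ![s 1, s 0 + s 1]) 0 + (A ![s 1, s 0 + s 1]) 1]) := by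
      have hAinj : ∀ s, A s = 0 → s = 0 := by
        intro s hs
        have hg0 := hgA s w
        rw [hs] at hg0
        simp only [Pi.zero_apply, zero_smul] at hg0
        have h1 : L (s 0 • w, s 1 • w) = 0 := by
          refine Matrix.mulVec_injective_iff_isUnit.2 g.isUnit ?_
          show (g : Matrix ι ι F) *ᵥ L _ = (g : Matrix ι ι F) *ᵥ 0
          rw [hg0, Matrix.mulVec_zero]
          exact map_zero L
        rw [map_eq_zero_iff L L.injective, Prod.mk_eq_zero] at h1
        have hw0 : w ≠ 0 := fun h => one_ne_zero (hindep 1 0 (by simp [h])).1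
        funext i
        fin_cases i
        · exact (smul_eq_zero.1 h1.1).resolve_right hw0
        · exact (smul_eq_zero.1 h1.2).resolve_right hw0
      have hdec : ∀ s : Fin 2 → F, A s = s 0 • A ![1, 0] + s 1 • A ![0, 1] := by
        intro s
        rw [← map_smul, ← map_smul, ← map_add]
        congr 1
        funext i; fin_cases i <;> simp
      obtain ⟨p, hp⟩ : ∃ p, A ![1, 0] = p := ⟨_, rfl⟩
      obtain ⟨q, hq⟩ : ∃ q, A ![0, 1] = q := ⟨_, rfl⟩
      rw [hp, hq] at hdec
      have hp0 : p ≠ 0 := fun h => by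
        have := congrFun (hAinj _ (hp.trans h)) 0; simp at this
      have hq0 : q ≠ 0 := fun h => by
        have := congrFun (hAinj _ (hq.trans h)) 1; simp at this
      have hpq : p ≠ q := fun h => by
        have := hAinj ![1, -1] (by rw [hdec]; simp [h])
        simpa using congrFun this 0
      have hO : q = ![p 1, p 0 + p 1] ∨ p = ![q 1, q 0 + q 1] := by
        have htwo : (1 : F) + 1 = 0 := by linear_combination h2
        have hp' : ¬ (p 0 = 0 ∧ p 1 = 0) := fun h => hp0 (by funext i; fin_cases i <;> simp [h])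
        have hq' : ¬ (q 0 = 0 ∧ q 1 = 0) := fun h => hq0 (by funext i; fin_cases i <;> simp [h])
        have hpq' : ¬ (p 0 = q 0 ∧ p 1 = q 1) := fun h => hpq (by funext i; fin_cases i <;> simp [h])
        simp only [funext_iff, Fin.forall_fin_two, Matrix.cons_val_zero, Matrix.cons_val_one]
        rcases h01 (p 0) with a | a <;> rcases h01 (p 1) with b | b <;>
          rcases h01 (q 0) with c | c <;> rcases h01 (q 1) with d | d <;>
          simp [a, b, c, d, htwo] at hp' hq' hpq' ⊢
      rcases hO with hO | hO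
      · left
        intro s
        rw [hdec, hdec s, hO]
        funext i
        fin_cases i <;> simp
        all_goals (rw [← sub_eq_zero]; ring_nf; try simp [h2, h4, h6])
      · right
        intro s
        rw [hdec, hdec ![s 1, s 0 + s 1], hO]
        funext i
        fin_cases i <;> simp
        all_goals (rw [← sub_eq_zero]; ring_nf; try simp [h2, h4, h6])
    have hL1 : ∀ p : W × W, p = ((![1, 0] : Fin 2 → F) 0 • p.1, (![1, 0] : Fin 2 → F) 1 • p.1) +
        ((![0, 1] : Fin 2 → F) 0 • p.2, (![0, 1] : Fin 2 → F) 1 • p.2) := fun p => by simp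
    rcases hA with hA | hA
    · left
      rw [mul_inv_eq_iff_eq_mul]
      refine Units.ext (Matrix.toLin'.injective (LinearMap.ext fun v => ?_))
      obtain ⟨p, rfl⟩ := L.surjective v
      simp only [Units.val_mul, Matrix.toLin'_apply, ← Matrix.mulVec_mulVec]
      have hs : ∀ (s : Fin 2 → F) (y : W),
          (g : Matrix ι ι F) *ᵥ (((o : GL ι F) : Matrix ι ι F) *ᵥ L (s 0 • y, s 1 • y)) =
            ((o : GL ι F) : Matrix ι ι F) *ᵥ ((g : Matrix ι ι F) *ᵥ L (s 0 • y, s 1 • y)) := by
        intro s y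
        have h1 := hgA ![s 1, s 0 + s 1] y
        simp only [Matrix.cons_val_zero, Matrix.cons_val_one] at h1
        rw [ho', hgA, ho', ← add_smul, h1, hA s, ← add_smul]
        simp
      rw [hL1 p, map_add, Matrix.mulVec_add, Matrix.mulVec_add, Matrix.mulVec_add, Matrix.mulVec_add,
        hs, hs]
    · right
      rw [mul_inv_eq_iff_eq_mul, eq_inv_mul_iff_mul_eq]
      refine Units.ext (Matrix.toLin'.injective (LinearMap.ext fun v => ?_))
      obtain ⟨p, rfl⟩ := L.surjective v
      simp only [Units.val_mul, Matrix.toLin'_apply, ← Matrix.mulVec_mulVec]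
      have hs : ∀ (s : Fin 2 → F) (y : W),
          ((o : GL ι F) : Matrix ι ι F) *ᵥ ((g : Matrix ι ι F) *ᵥ
            (((o : GL ι F) : Matrix ι ι F) *ᵥ L (s 0 • y, s 1 • y))) =
            (g : Matrix ι ι F) *ᵥ L (s 0 • y, s 1 • y) := by
        intro s y
        have h1 := hgA ![s 1, s 0 + s 1] y
        simp only [Matrix.cons_val_zero, Matrix.cons_val_one] at h1
        rw [ho', ← add_smul, h1, ho', hgA, ← add_smul]
        congr 1
        conv_rhs => rw [hA s]
        simp
      rw [hL1 p, map_add, Matrix.mulVec_add, Matrix.mulVec_add, Matrix.mulVec_add, Matrix.mulVec_add,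
        hs, hs]
  · -- an element of `K` outside `H`
    have hkK : (k : GL ι F) ∈ K := by
      refine ⟨hnorm _ (Or.inl ?_), hkΩ⟩
      have hcom : k * o = o * k := by
        rw [hk, mul_assoc, hρo, ← mul_assoc, mul_assoc (σg * ρ), hσo, ← mul_assoc, mul_assoc σg, hρo,
          ← mul_assoc, hσo]
        simp only [mul_assoc]
      rw [mul_inv_eq_iff_eq_mul]
      exact congrArg Subtype.val hcom
    obtain ⟨A, b, hgA⟩ := hHg k (heq ▸ hkK)
    have happ : ∀ x, ∃ x', ((k : GL ι F) : Matrix ι ι F) *ᵥ L (x, 0) =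
        L (x', (f x w + f x c) • u + f x u • w) ∧ (f x w = 0 → f x u = 0 → f x c = 0 → x' = x) := by
      intro x
      set C := f x (w + u) with hC
      set D := f x u with hD
      refine ⟨(L.symm (((k : GL ι F) : Matrix ι ι F) *ᵥ L (x, 0))).1, ?_, ?_⟩
      · refine (L.symm_apply_eq).1 (Prod.ext rfl ?_)
        rw [hk]
        simp only [Subgroup.coe_mul, Units.val_mul, ← Matrix.mulVec_mulVec, hρapp, hσapp, hs0,
          hzero, hal, har, hsl, hsr, halt, hwc, hcw, hwu, huw, hcu, huc, smul_zero, add_zero,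
          zero_add, mul_zero, mul_one]
        rw [L.symm_apply_apply]
        simp only [hC, hD, har]
        match_scalars <;> rw [← sub_eq_zero] <;> ring_nf <;> simp [h2, h4, h6]
      · intro e1 e2 e3
        replace e2 : f x u = 0 := e2
        rw [hk]
        simp only [Subgroup.coe_mul, Units.val_mul, ← Matrix.mulVec_mulVec, hρapp, hσapp, hs0,
          hzero, hal, har, hsl, hsr, halt, hwc, hcw, hwu, huw, hcu, huc, smul_zero, add_zero,
          zero_add, mul_zero, mul_one, e1, e2, e3, zero_smul, zero_mul, L.symm_apply_apply]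
    obtain ⟨x₀, hx₀⟩ := hnd u hu
    have hb := hgA ![1, 0]
    simp only [Matrix.cons_val_zero, Matrix.cons_val_one, one_smul, zero_smul] at hb
    have hA1 : A ![1, 0] 1 = 0 := by
      obtain ⟨x', h1, h2'⟩ := happ u
      rw [hb, L.injective.eq_iff, Prod.mk.injEq, huw, huc, halt, add_zero, zero_smul, zero_smul,
        add_zero, h2' huw (halt u) huc] at h1
      by_contra hne
      rw [hone hne, one_smul] at h1
      rw [h1.2, smul_zero] at h1
      exact hu h1.1.symm
    obtain ⟨x', h1, -⟩ := happ x₀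
    rw [hb, L.injective.eq_iff, Prod.mk.injEq, hA1, zero_smul] at h1
    have e3 := hindep (f x₀ u) (f x₀ w + f x₀ c) (by rw [add_comm]; exact h1.2.symm)
    exact hx₀ e3.1
  · -- an element of `Ω` outside `K`
    obtain ⟨t, ht2, htapp⟩ : ∃ t : Cfsg.isometryGroup F Q, t * t = 1 ∧ ∀ x y : W,
        ((t : GL ι F) : Matrix ι ι F) *ᵥ L (x, y) = L (x + f x w • w, y + f w y • w) := by
      obtain ⟨t, ht2, htapp, -⟩ := hρ w 0 (by simpa using hsr 0 w 0)
      have hs0 : ∀ z, f z 0 = 0 := fun z => by simpa using hsr 0 z 0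
      exact ⟨t, ht2, fun x y => by rw [htapp]; simp [hs0, hzero]⟩
    obtain ⟨S, hS2, hSapp⟩ := hshear c u
    obtain ⟨S', hS'2, hS'app⟩ := hshear w u
    have hS' : (S' : GL ι F) ∈ Cfsg.Geo.omegaGL Q := by
      refine ⟨S', ?_, rfl⟩
      have : S' = ⁅t, S⁆ := by
        rw [commutatorElement_def, hinv _ ht2, hinv _ hS2]
        refine Subtype.ext (Units.ext (Matrix.toLin'.injective (LinearMap.ext fun v => ?_)))
        obtain ⟨⟨x, y⟩, rfl⟩ := L.surjective v
        simp only [Subgroup.coe_mul, Units.val_mul, Matrix.toLin'_apply, ← Matrix.mulVec_mulVec,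
          hSapp, htapp, hS'app]
        congr 1
        have hneg : ∀ (v : W), v + v = 0 := fun v => by rw [← two_smul F, h2, zero_smul]
        simp only [pairMap, LinearMap.coe_mk, AddHom.coe_mk, har, hal, hsl, hsr, halt, hwc, hcw,
          hwu, huw, hsymm w x, hsymm w y]
        refine Prod.ext ?_ ?_ <;> simp only
        · match_scalars <;> rw [← sub_eq_zero] <;> ring_nf <;> simp [h2, h4, h6]
        · match_scalars <;> rw [← sub_eq_zero] <;> ring_nf <;> simp [h2, h4, h6]
      rw [this]
      exact Subgroup.commutator_mem_commutator (Subgroup.mem_top _) (Subgroup.mem_top _)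
    rw [← heq] at hS'
    have hmem := (Subgroup.mem_normalizer_iff.1 hS'.1 (o : GL ι F)).1 (Subgroup.mem_zpowers _)
    haveI : Finite F := Finite.of_surjective (fun i : Fin 2 => if i = 0 then (0 : F) else 1)
      (fun a => (h01 a).elim (fun h => ⟨0, by simp [h]⟩) (fun h => ⟨1, by simp [h]⟩))
    haveI : Fintype F := Fintype.ofFinite F
    rw [← mem_powers_iff_mem_zpowers, Submonoid.mem_powers_iff] at hmem
    obtain ⟨n, hn⟩ := hmem
    obtain ⟨α, β, hαβ⟩ := hpow n c
    rw [hn] at hαβ
    have hinv' : ((S' : GL ι F))⁻¹ = (S' : GL ι F) := congrArg Subtype.val (hinv _ hS'2)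
    rw [hinv'] at hαβ
    simp only [Units.val_mul, ← Matrix.mulVec_mulVec, hS'app, ho'] at hαβ
    have e1 := (Prod.ext_iff.1 (L.injective hαβ)).1
    simp only [pairMap, LinearMap.coe_mk, AddHom.coe_mk, hcw, hcu, one_smul, zero_smul, add_zero,
      zero_add] at e1
    rcases h01 α with rfl | rfl
    · exact hu (by simpa using e1)
    · rw [one_smul] at e1
      rw [e1] at huw
      exact one_ne_zero (hcw.symm.trans huw)

end Cfsg.Agent.H1.TensorNM
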